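import Mathlib
import Cfsg.Prelude.Def_JordanBlocks

set_option autoImplicit false

namespace Cfsg.Agent.Helper21.JCent

open Matrix Finset

/-- the nilpotent part of the Jordan-type matrix -/
def nilp (F : Type*) [Field F] {t : ℕ} (d : Fin t → ℕ) :
    Matrix ((k : Fin t) × Fin (d k)) ((k : Fin t) × Fin (d k)) F :=
  Matrix.of fun p q => if p.1 = q.1 ∧ (p.2 : ℕ) = (q.2 : ℕ) + 1 then 1 else 0

variable {F : Type*} [Field F] {t : ℕ} (d : Fin t → ℕ)

theorem jordan_eq : Cfsg.jordanTypeMatrix d F = 1 + nilp F d := by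
  ext ⟨l, j⟩ ⟨k, i⟩
  by_cases h : l = k
  · subst h
    simp only [Cfsg.jordanTypeMatrix, Matrix.blockDiagonal'_apply_eq, Cfsg.jordanBlock, nilp,
      Matrix.add_apply, Matrix.one_apply, Matrix.of_apply, true_and, Sigma.mk.injEq, heq_eq_eq]
    by_cases h1 : j = i
    · subst h1
      simp
    · have h2 : (j : ℕ) ≠ (i : ℕ) := fun h' => h1 (Fin.ext h')
      simp [h1, h2]
  · rw [Cfsg.jordanTypeMatrix, Matrix.blockDiagonal'_apply_ne _ _ _ h]
    simp [nilp, h]

theorem mul_nilp_apply (X : Matrix ((k : Fin t) × Fin (d k)) ((k : Fin t) × Fin (d k)) F)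
    (p : (k : Fin t) × Fin (d k)) (k : Fin t) (i : Fin (d k)) :
    (X * nilp F d) p ⟨k, i⟩ = if h : (i : ℕ) + 1 < d k then X p ⟨k, ⟨(i : ℕ) + 1, h⟩⟩ else 0 := by
  rw [Matrix.mul_apply]
  split_ifs with h
  · rw [Finset.sum_eq_single (⟨k, ⟨(i : ℕ) + 1, h⟩⟩ : (k : Fin t) × Fin (d k))]
    · simp [nilp]
    · rintro ⟨m1, m2⟩ - hne
      have : ¬ (m1 = k ∧ (m2 : ℕ) = (i : ℕ) + 1) := by
        rintro ⟨rfl, h2⟩
        exact hne (by congr 1; exact Fin.ext h2)
      simp [nilp, this]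
    · intro h'; exact absurd (Finset.mem_univ _) h'
  · apply Finset.sum_eq_zero
    rintro ⟨m1, m2⟩ -
    have : ¬ (m1 = k ∧ (m2 : ℕ) = (i : ℕ) + 1) := by
      rintro ⟨rfl, h2⟩
      exact h (h2 ▸ m2.2)
    simp [nilp, this]

theorem nilp_mul_apply (X : Matrix ((k : Fin t) × Fin (d k)) ((k : Fin t) × Fin (d k)) F)
    (l : Fin t) (j : Fin (d l)) (q : (k : Fin t) × Fin (d k)) :
    (nilp F d * X) ⟨l, j⟩ q =
      if h : 1 ≤ (j : ℕ) then X ⟨l, ⟨(j : ℕ) - 1, by omega⟩⟩ q else 0 := by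
  rw [Matrix.mul_apply]
  split_ifs with h
  · rw [Finset.sum_eq_single (⟨l, ⟨(j : ℕ) - 1, by omega⟩⟩ : (k : Fin t) × Fin (d k))]
    · have : (j : ℕ) = (j : ℕ) - 1 + 1 := by omega
      simp [nilp, ← this]
    · rintro ⟨m1, m2⟩ - hne
      have : ¬ (l = m1 ∧ (j : ℕ) = (m2 : ℕ) + 1) := by
        rintro ⟨rfl, h2⟩
        exact hne (by congr 1; exact Fin.ext (by simp; omega))
      simp [nilp, this]
    · intro h'; exact absurd (Finset.mem_univ _) h'
  · apply Finset.sum_eq_zero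
    rintro ⟨m1, m2⟩ -
    have : ¬ (l = m1 ∧ (j : ℕ) = (m2 : ℕ) + 1) := by
      rintro ⟨rfl, h2⟩
      omega
    simp [nilp, this]

section comm

variable {d}
variable {X : Matrix ((k : Fin t) × Fin (d k)) ((k : Fin t) × Fin (d k)) F}

theorem comm_shift (hX : X * nilp F d = nilp F d * X) (l k : Fin t) (j i : ℕ)
    (hj : j + 1 < d l) (hi : i + 1 < d k) :
    X ⟨l, ⟨j + 1, hj⟩⟩ ⟨k, ⟨i + 1, hi⟩⟩ = X ⟨l, ⟨j, by omega⟩⟩ ⟨k, ⟨i, by omega⟩⟩ := by
  have h := congrFun (congrFun hX ⟨l, ⟨j + 1, hj⟩⟩) ⟨k, ⟨i, by omega⟩⟩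
  rw [mul_nilp_apply, nilp_mul_apply] at h
  simpa [hi] using h

theorem comm_row0 (hX : X * nilp F d = nilp F d * X) (l k : Fin t) (i : ℕ)
    (hi : i + 1 < d k) (h0 : 0 < d l) :
    X ⟨l, ⟨0, h0⟩⟩ ⟨k, ⟨i + 1, hi⟩⟩ = 0 := by
  have h := congrFun (congrFun hX ⟨l, ⟨0, h0⟩⟩) ⟨k, ⟨i, by omega⟩⟩
  rw [mul_nilp_apply, nilp_mul_apply] at h
  simpa [hi] using h

theorem comm_lastcol (hX : X * nilp F d = nilp F d * X) (l k : Fin t) (j : ℕ)
    (hj : j + 1 < d l) (i : ℕ) (hi : i < d k) (hi' : i + 1 = d k) :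
    X ⟨l, ⟨j, by omega⟩⟩ ⟨k, ⟨i, hi⟩⟩ = 0 := by
  have h := congrFun (congrFun hX ⟨l, ⟨j + 1, hj⟩⟩) ⟨k, ⟨i, hi⟩⟩
  rw [mul_nilp_apply, nilp_mul_apply] at h
  have hn : ¬ (i + 1 < d k) := by omega
  simpa [hn] using h.symm

theorem comm_upper_zero (hX : X * nilp F d = nilp F d * X) (l k : Fin t) :
    ∀ (j i : ℕ) (hj : j < d l) (hi : i < d k), j < i → X ⟨l, ⟨j, hj⟩⟩ ⟨k, ⟨i, hi⟩⟩ = 0 := by
  intro j
  induction j with
  | zero =>
    intro i hj hi hlt
    obtain ⟨i', rfl⟩ : ∃ i', i = i' + 1 := ⟨i - 1, by omega⟩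
    exact comm_row0 hX l k i' hi hj
  | succ j ih =>
    intro i hj hi hlt
    obtain ⟨i', rfl⟩ : ∃ i', i = i' + 1 := ⟨i - 1, by omega⟩
    rw [comm_shift hX l k j i' hj hi]
    exact ih i' _ _ (by omega)

theorem comm_shift_many (hX : X * nilp F d = nilp F d * X) (l k : Fin t) :
    ∀ (m j i : ℕ) (hj : j + m < d l) (hi : i + m < d k),
      X ⟨l, ⟨j + m, hj⟩⟩ ⟨k, ⟨i + m, hi⟩⟩ = X ⟨l, ⟨j, by omega⟩⟩ ⟨k, ⟨i, by omega⟩⟩ := by
  intro m
  induction m with
  | zero => intro j i hj hi; rfl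
  | succ m ih =>
    intro j i hj hi
    have h1 := comm_shift hX l k (j + m) (i + m) (by omega) (by omega)
    have h2 := ih j i (by omega) (by omega)
    exact h1.trans h2

theorem comm_col0_zero (hX : X * nilp F d = nilp F d * X) (l k : Fin t) (s : ℕ) (hs : s < d l)
    (h0 : 0 < d k) (hlt : s + d k < d l) : X ⟨l, ⟨s, hs⟩⟩ ⟨k, ⟨0, h0⟩⟩ = 0 := by
  have h1 := comm_shift_many hX l k (d k - 1) s 0 (by omega) (by omega)
  have h2 := comm_lastcol hX l k (s + (d k - 1)) (by omega) (0 + (d k - 1)) (by omega) (by omega)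
  rw [← h1]
  exact h2

end comm

/-- the matrix with prescribed first block columns -/
def toMat (c : ((k : Fin t) × Fin (d k)) → Fin t → F) :
    Matrix ((k : Fin t) × Fin (d k)) ((k : Fin t) × Fin (d k)) F :=
  Matrix.of fun p q =>
    if h : (q.2 : ℕ) ≤ (p.2 : ℕ) then c ⟨p.1, ⟨(p.2 : ℕ) - (q.2 : ℕ), by omega⟩⟩ q.1 else 0

/-- the first block columns of a matrix -/
def ofMat (hd : ∀ k, 1 ≤ d k) (X : Matrix ((k : Fin t) × Fin (d k)) ((k : Fin t) × Fin (d k)) F) :
    ((k : Fin t) × Fin (d k)) → Fin t → F :=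
  fun p k => X p ⟨k, ⟨0, hd k⟩⟩

theorem ofMat_toMat (hd : ∀ k, 1 ≤ d k) (c : ((k : Fin t) × Fin (d k)) → Fin t → F) :
    ofMat d hd (toMat d c) = c := by
  funext ⟨l, j⟩ k
  simp [ofMat, toMat]

theorem toMat_ofMat (hd : ∀ k, 1 ≤ d k)
    (X : Matrix ((k : Fin t) × Fin (d k)) ((k : Fin t) × Fin (d k)) F)
    (hX : X * nilp F d = nilp F d * X) : toMat d (ofMat d hd X) = X := by
  ext ⟨l, j⟩ ⟨k, i⟩
  simp only [toMat, ofMat, Matrix.of_apply]
  split_ifs with h
  · have h1 := comm_shift_many hX l k (i : ℕ) ((j : ℕ) - (i : ℕ)) 0 (by omega) (by omega)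
    rw [← h1]
    congr 2
    · exact Fin.ext (by simp; omega)
    · exact Fin.ext (by simp)
  · exact (comm_upper_zero hX l k j i j.2 i.2 (by omega)).symm

theorem ofMat_constraint (hd : ∀ k, 1 ≤ d k)
    (X : Matrix ((k : Fin t) × Fin (d k)) ((k : Fin t) × Fin (d k)) F)
    (hX : X * nilp F d = nilp F d * X) (p : (k : Fin t) × Fin (d k)) (k : Fin t)
    (h : (p.2 : ℕ) + d k < d p.1) : ofMat d hd X p k = 0 := by
  obtain ⟨l, j⟩ := p
  exact comm_col0_zero hX l k j j.2 (hd k) h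

theorem toMat_comm (c : ((k : Fin t) × Fin (d k)) → Fin t → F)
    (hc : ∀ (p : (k : Fin t) × Fin (d k)) (k : Fin t), (p.2 : ℕ) + d k < d p.1 → c p k = 0) :
    toMat d c * nilp F d = nilp F d * toMat d c := by
  ext ⟨l, j⟩ ⟨k, i⟩
  rw [mul_nilp_apply, nilp_mul_apply]
  by_cases h1 : (i : ℕ) + 1 ≤ (j : ℕ)
  · have h2 : 1 ≤ (j : ℕ) := by omega
    rw [dif_pos h2]
    by_cases h3 : (i : ℕ) + 1 < d k
    · rw [dif_pos h3]
      simp only [toMat, Matrix.of_apply]
      rw [dif_pos (by simpa using h1), dif_pos (by omega)]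
      congr 2
      exact Fin.ext (by simp; omega)
    · rw [dif_neg h3]
      simp only [toMat, Matrix.of_apply]
      rw [dif_pos (by omega)]
      symm
      apply hc
      simp
      omega
  · by_cases h3 : (i : ℕ) + 1 < d k
    · rw [dif_pos h3]
      simp only [toMat, Matrix.of_apply]
      rw [dif_neg (by simpa using h1)]
      by_cases h2 : 1 ≤ (j : ℕ)
      · rw [dif_pos h2, dif_neg (by omega)]
      · rw [dif_neg h2]
    · rw [dif_neg h3]
      by_cases h2 : 1 ≤ (j : ℕ)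
      · rw [dif_pos h2]
        simp only [toMat, Matrix.of_apply]
        rw [dif_neg (by omega)]
      · rw [dif_neg h2]

/-- the matrix induced on the top quotient: entries at the first positions of the blocks -/
def topMat (hd : ∀ k, 1 ≤ d k)
    (X : Matrix ((k : Fin t) × Fin (d k)) ((k : Fin t) × Fin (d k)) F) :
    Matrix (Fin t) (Fin t) F :=
  Matrix.of fun l k => X ⟨l, ⟨0, hd l⟩⟩ ⟨k, ⟨0, hd k⟩⟩

omit [Field F] in
theorem topMat_apply (hd : ∀ k, 1 ≤ d k)
    (X : Matrix ((k : Fin t) × Fin (d k)) ((k : Fin t) × Fin (d k)) F) (l k : Fin t) :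
    topMat d hd X l k = X ⟨l, ⟨0, hd l⟩⟩ ⟨k, ⟨0, hd k⟩⟩ := rfl

theorem topMat_one (hd : ∀ k, 1 ≤ d k) : topMat d hd (1 : Matrix _ _ F) = 1 := by
  ext l k
  rw [topMat_apply, Matrix.one_apply, Matrix.one_apply]
  by_cases h : l = k
  · subst h; simp
  · rw [if_neg h, if_neg]
    intro h'
    exact h (congrArg Sigma.fst h')

theorem topMat_mul (hd : ∀ k, 1 ≤ d k)
    (X Y : Matrix ((k : Fin t) × Fin (d k)) ((k : Fin t) × Fin (d k)) F)
    (hX : X * nilp F d = nilp F d * X) :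
    topMat d hd (X * Y) = topMat d hd X * topMat d hd Y := by
  ext l k
  rw [topMat_apply, Matrix.mul_apply, Matrix.mul_apply, Fintype.sum_sigma]
  refine Finset.sum_congr rfl fun m1 _ => ?_
  rw [Finset.sum_eq_single (⟨0, hd m1⟩ : Fin (d m1))]
  · rfl
  · intro m2 _ hne
    have hpos : 0 < (m2 : ℕ) := by
      rcases Nat.eq_zero_or_pos (m2 : ℕ) with h0 | h0
      · exact absurd (Fin.ext h0) hne
      · exact h0
    rw [comm_upper_zero hX l m1 0 (m2 : ℕ) (hd l) m2.2 hpos, zero_mul]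
  · intro h'; exact absurd (Finset.mem_univ _) h'

theorem topMat_zero_of_lt (hd : ∀ k, 1 ≤ d k)
    (X : Matrix ((k : Fin t) × Fin (d k)) ((k : Fin t) × Fin (d k)) F)
    (hX : X * nilp F d = nilp F d * X) (l k : Fin t) (h : d k < d l) :
    topMat d hd X l k = 0 :=
  comm_col0_zero hX l k 0 (hd l) (hd k) (by omega)

theorem isUnit_det_iff (hd : ∀ k, 1 ≤ d k)
    (X : Matrix ((k : Fin t) × Fin (d k)) ((k : Fin t) × Fin (d k)) F)
    (hX : X * nilp F d = nilp F d * X) :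
    IsUnit X.det ↔ IsUnit (topMat d hd X).det := by
  classical
  constructor
  · intro h
    have h1 : X * X⁻¹ = 1 := Matrix.mul_nonsing_inv X h
    have h2 : topMat d hd X * topMat d hd X⁻¹ = 1 := by
      rw [← topMat_mul d hd X X⁻¹ hX, h1, topMat_one]
    exact Matrix.isUnit_det_of_right_inverse h2
  · intro h
    by_contra hdet
    have hdet0 : X.det = 0 := by
      by_contra h0
      exact hdet (isUnit_iff_ne_zero.mpr h0)
    obtain ⟨y, hy0, hy⟩ := Matrix.exists_vecMul_eq_zero_iff.mpr hdet0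
    have hne : (Finset.univ.filter (fun p : (k : Fin t) × Fin (d k) => y p ≠ 0)).Nonempty := by
      by_contra hemp
      rw [Finset.not_nonempty_iff_eq_empty] at hemp
      apply hy0
      funext p
      by_contra hp
      have hp' : y p ≠ 0 := fun h' => hp (by rw [h']; rfl)
      have : p ∈ (Finset.univ.filter (fun p : (k : Fin t) × Fin (d k) => y p ≠ 0)) := by
        simp [hp']
      rw [hemp] at this
      simp at this
    obtain ⟨p0, hp0, hmax⟩ := Finset.exists_max_image _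
      (fun p : (k : Fin t) × Fin (d k) => (p.2 : ℕ)) hne
    rw [Finset.mem_filter] at hp0
    have hmax' : ∀ p : (k : Fin t) × Fin (d k), (p0.2 : ℕ) < (p.2 : ℕ) → y p = 0 := by
      intro p hp
      by_contra hyp
      have := hmax p (by simp [hyp])
      omega
    obtain ⟨l0, j0'⟩ := p0
    set j0 : ℕ := (j0' : ℕ) with hj0
    let c : Fin t → F := fun l => if h : j0 < d l then y ⟨l, ⟨j0, h⟩⟩ else 0
    have hc0 : c ≠ 0 := by
      intro hc
      have h1 := congrFun hc l0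
      simp only [c, Pi.zero_apply] at h1
      rw [dif_pos j0'.2] at h1
      exact hp0.2 h1
    have hcA : c ᵥ* topMat d hd X = 0 := by
      funext k
      rw [Pi.zero_apply]
      simp only [Matrix.vecMul, dotProduct]
      by_cases hk : j0 < d k
      · have h1 := congrFun hy ⟨k, ⟨j0, hk⟩⟩
        simp only [Matrix.vecMul, dotProduct, Pi.zero_apply] at h1
        rw [Fintype.sum_sigma] at h1
        rw [← h1]
        refine Finset.sum_congr rfl fun l _ => ?_
        by_cases hl : j0 < d l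
        · rw [Finset.sum_eq_single (⟨j0, hl⟩ : Fin (d l))]
          · simp only [c]
            rw [dif_pos hl, topMat_apply]
            have h2 : X ⟨l, ⟨j0, hl⟩⟩ ⟨k, ⟨j0, hk⟩⟩ = X ⟨l, ⟨0, hd l⟩⟩ ⟨k, ⟨0, hd k⟩⟩ := by
              have h3 := comm_shift_many hX l k j0 0 0 (by omega) (by omega)
              simpa using h3
            rw [h2]
          · intro j _ hjne
            rcases Nat.lt_or_gt_of_ne (fun h' : (j : ℕ) = j0 => hjne (Fin.ext h')) with hlt | hgt
            · rw [comm_upper_zero hX l k (j : ℕ) j0 j.2 hk hlt, mul_zero]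
            · rw [hmax' ⟨l, j⟩ hgt, zero_mul]
          · intro h'; exact absurd (Finset.mem_univ _) h'
        · simp only [c]
          rw [dif_neg hl, zero_mul]
          symm
          apply Finset.sum_eq_zero
          intro j _
          rw [comm_upper_zero hX l k (j : ℕ) j0 j.2 hk (by omega), mul_zero]
      · apply Finset.sum_eq_zero
        intro l _
        by_cases hl : j0 < d l
        · rw [topMat_zero_of_lt d hd X hX l k (by omega), mul_zero]
        · simp only [c]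
          rw [dif_neg hl, zero_mul]
    have := Matrix.exists_vecMul_eq_zero_iff.mp ⟨c, hc0, hcA⟩
    rw [this] at h
    exact not_isUnit_zero h

end Cfsg.Agent.Helper21.JCent
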