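import Mathlib
import Cfsg.Agent.Helper21.JCentA

set_option autoImplicit false

namespace Cfsg.Agent.Helper21.JCent

open Matrix Finset

section generic

theorem card_split {α : Type*} [Fintype α] {F : Type*} [Fintype F] [Zero F]
    (P R : α → Prop) [DecidablePred P] [DecidablePred R] (hPR : ∀ a, P a → ¬ R a)
    (Good : ({a // P a} → F) → Prop) :
    Nat.card {c : α → F // (∀ a, ¬ P a → ¬ R a → c a = 0) ∧ Good (fun a => c a.1)} =
      Nat.card {u : {a // P a} → F // Good u} * Fintype.card F ^ Fintype.card {a // R a} := by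
  have e : {c : α → F // (∀ a, ¬ P a → ¬ R a → c a = 0) ∧ Good (fun a => c a.1)} ≃
      {u : {a // P a} → F // Good u} × ({a // R a} → F) :=
    { toFun := fun c => (⟨fun a => c.1 a.1, c.2.2⟩, fun a => c.1 a.1)
      invFun := fun x => ⟨fun a => if h : P a then x.1.1 ⟨a, h⟩ else
          if h' : R a then x.2 ⟨a, h'⟩ else 0, by
          refine ⟨fun a h1 h2 => by simp [h1, h2], ?_⟩
          have : (fun a : {a // P a} => if h : P a.1 then x.1.1 ⟨a.1, h⟩ else
              if h' : R a.1 then x.2 ⟨a.1, h'⟩ else 0) = x.1.1 := by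
            funext a
            simp [a.2]
          rw [this]
          exact x.1.2⟩
      left_inv := by
        rintro ⟨c, hc1, hc2⟩
        apply Subtype.ext
        funext a
        by_cases h : P a
        · simp [h]
        · by_cases h' : R a
          · simp [h, h']
          · simp [h, h', hc1 a h h']
      right_inv := by
        rintro ⟨⟨u, hu⟩, r⟩
        apply Prod.ext
        · apply Subtype.ext
          funext a
          simp [a.2]
        · funext a
          have hnP : ¬ P a.1 := fun h => hPR a.1 h a.2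
          simp [a.2, hnP] }
  rw [Nat.card_congr e, Nat.card_prod, Nat.card_fun, Nat.card_eq_fintype_card (α := F),
    Nat.card_eq_fintype_card (α := {a // R a})]

theorem card_isUnit_det {F : Type*} [Field F] [Fintype F] (n : Type*) [Fintype n]
    [DecidableEq n] :
    Nat.card {M : Matrix n n F // IsUnit M.det} =
      ∏ j : Fin (Fintype.card n), (Fintype.card F ^ Fintype.card n - Fintype.card F ^ (j : ℕ)) := by
  classical
  let e := Fintype.equivFin n
  have e1 : {M : Matrix n n F // IsUnit M.det} ≃
      {M : Matrix (Fin (Fintype.card n)) (Fin (Fintype.card n)) F // IsUnit M.det} :=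
    (Matrix.reindex e e).subtypeEquiv (fun M => by rw [Matrix.det_reindex_self])
  have e2 : {M : Matrix (Fin (Fintype.card n)) (Fin (Fintype.card n)) F // IsUnit M.det} ≃
      GL (Fin (Fintype.card n)) F :=
    { toFun := fun M => Matrix.GeneralLinearGroup.mk'' M.1 M.2
      invFun := fun g => ⟨g.1, (Matrix.isUnit_iff_isUnit_det _).mp g.isUnit⟩
      left_inv := fun M => Subtype.ext rfl
      right_inv := fun g => Units.ext rfl }
  rw [Nat.card_congr e1, Nat.card_congr e2, Matrix.card_GL_field]

theorem prod_fin_congr (q : ℕ) {n m : ℕ} (h : n = m) :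
    (∏ j : Fin n, (q ^ n - q ^ (j : ℕ))) = ∏ j : Fin m, (q ^ m - q ^ (j : ℕ)) := by
  subst h; rfl

end generic

section arith

/-- number of admissible offsets -/
def fcount (n m : ℕ) : ℕ :=
  (Finset.univ.filter (fun s : Fin n => n ≤ (s : ℕ) + m ∧ ¬ ((s : ℕ) = 0 ∧ n = m))).card

theorem fcount_eq (n m : ℕ) :
    fcount n m = if n < m then n else if n = m then n - 1 else m := by
  unfold fcount
  have hmap : (Finset.univ.filter
      (fun s : Fin n => n ≤ (s : ℕ) + m ∧ ¬ ((s : ℕ) = 0 ∧ n = m))).card =
      ((Finset.range n).filter (fun s => n ≤ s + m ∧ ¬ (s = 0 ∧ n = m))).card := by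
    rw [← Finset.card_map Fin.valEmbedding]
    congr 1
    ext s
    simp only [Finset.mem_map, Finset.mem_filter, Finset.mem_univ, true_and,
      Fin.valEmbedding_apply, Finset.mem_range]
    constructor
    · rintro ⟨x, hx, rfl⟩
      exact ⟨x.2, hx⟩
    · rintro ⟨hs, h⟩
      exact ⟨⟨s, hs⟩, h, rfl⟩
  rw [hmap]
  split_ifs with h1 h2
  · rw [Finset.filter_true_of_mem, Finset.card_range]
    intro s hs
    rw [Finset.mem_range] at hs
    omega
  · subst h2
    have : (Finset.range n).filter (fun s => n ≤ s + n ∧ ¬ (s = 0 ∧ n = n)) = Finset.Ico 1 n := by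
      ext s
      simp only [Finset.mem_filter, Finset.mem_range, Finset.mem_Ico, and_true]
      omega
    rw [this, Nat.card_Ico]
  · have : (Finset.range n).filter (fun s => n ≤ s + m ∧ ¬ (s = 0 ∧ n = m)) =
        Finset.Ico (n - m) n := by
      ext s
      simp only [Finset.mem_filter, Finset.mem_range, Finset.mem_Ico]
      omega
    rw [this, Nat.card_Ico]
    omega

theorem sum_fiber {t : ℕ} (d : Fin t → ℕ) (h : ℕ → ℕ) :
    ∑ k : Fin t, h (d k) = ∑ i ∈ Finset.range (Finset.univ.sup d + 1),
      (Finset.univ.filter (fun k : Fin t => d k = i)).card * h i := by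
  rw [← Finset.sum_fiberwise_of_maps_to (g := d) (t := Finset.range (Finset.univ.sup d + 1))]
  · refine Finset.sum_congr rfl fun i _ => ?_
    have : ∀ k ∈ Finset.univ.filter (fun k : Fin t => d k = i), h (d k) = h i := by
      intro k hk
      rw [(Finset.mem_filter.mp hk).2]
    rw [Finset.sum_congr rfl this, Finset.sum_const, smul_eq_mul]
  · intro k _
    rw [Finset.mem_range]
    exact Nat.lt_succ_of_le (Finset.le_sup (Finset.mem_univ k))

theorem exponent_eq {t : ℕ} (d : Fin t → ℕ) :
    ∑ l : Fin t, ∑ k : Fin t, fcount (d l) (d k) =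
      2 * (∑ i ∈ Finset.range (Finset.univ.sup d + 1),
        ∑ j ∈ Finset.range (Finset.univ.sup d + 1),
          if i < j then i * (Finset.univ.filter (fun k : Fin t => d k = i)).card *
            (Finset.univ.filter (fun k : Fin t => d k = j)).card else 0) +
      ∑ i ∈ Finset.range (Finset.univ.sup d + 1),
        (i - 1) * (Finset.univ.filter (fun k : Fin t => d k = i)).card ^ 2 := by
  set A : ℕ → ℕ := fun i => (Finset.univ.filter (fun k : Fin t => d k = i)).card with hA
  set R := Finset.range (Finset.univ.sup d + 1) with hR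
  have h1 : ∑ l : Fin t, ∑ k : Fin t, fcount (d l) (d k) =
      ∑ i ∈ R, ∑ j ∈ R, A i * (A j * fcount i j) := by
    rw [sum_fiber d (fun i => ∑ k : Fin t, fcount i (d k))]
    refine Finset.sum_congr rfl fun i _ => ?_
    rw [sum_fiber d (fun j => fcount i j), Finset.mul_sum]
  have h2 : ∀ i j, A i * (A j * fcount i j) = (if i < j then i * A i * A j else 0) +
      (if j < i then j * A j * A i else 0) + (if i = j then (i - 1) * A i ^ 2 else 0) := by
    intro i j
    rw [fcount_eq]
    rcases Nat.lt_trichotomy i j with h | h | h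
    · rw [if_pos h, if_pos h, if_neg (by omega), if_neg (by omega)]
      ring
    · subst h
      simp only [lt_irrefl, if_false, if_true]
      ring
    · rw [if_neg (by omega), if_neg (by omega), if_neg (by omega), if_pos h, if_neg (by omega)]
      ring
  rw [h1, Finset.sum_congr rfl (fun i _ => Finset.sum_congr rfl (fun j _ => h2 i j))]
  simp only [Finset.sum_add_distrib]
  have h3 : ∑ i ∈ R, ∑ j ∈ R, (if j < i then j * A j * A i else 0) =
      ∑ i ∈ R, ∑ j ∈ R, (if i < j then i * A i * A j else 0) := by
    rw [Finset.sum_comm]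
  have h4 : ∑ i ∈ R, ∑ j ∈ R, (if i = j then (i - 1) * A i ^ 2 else 0) =
      ∑ i ∈ R, (i - 1) * A i ^ 2 := by
    refine Finset.sum_congr rfl fun i hi => ?_
    rw [Finset.sum_ite_eq, if_pos hi]
  rw [h3, h4]
  ring

end arith

end Cfsg.Agent.Helper21.JCent
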