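import Mathlib
import Cfsg.Agent.Helper21.JCentB

set_option autoImplicit false

namespace Cfsg.Agent.Helper21.JCent

open Matrix Finset

variable {F : Type*} [Field F] {t : ℕ} (d : Fin t → ℕ) (hd : ∀ k, 1 ≤ d k)

/-- block sizes as elements of a finite linear order -/
def dd : Fin t → Fin (Finset.univ.sup d + 1) :=
  fun k => ⟨d k, Nat.lt_succ_of_le (Finset.le_sup (Finset.mem_univ k))⟩

theorem comm_iff (X : Matrix ((k : Fin t) × Fin (d k)) ((k : Fin t) × Fin (d k)) F) :
    X * Cfsg.jordanTypeMatrix d F = Cfsg.jordanTypeMatrix d F * X ↔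
      X * nilp F d = nilp F d * X := by
  rw [jordan_eq, mul_add, add_mul, mul_one, one_mul, add_right_inj]

/-- step 1: invertible commuting matrices -/
noncomputable def equivMat : {g : GL ((k : Fin t) × Fin (d k)) F //
      (g : Matrix ((k : Fin t) × Fin (d k)) ((k : Fin t) × Fin (d k)) F) *
        Cfsg.jordanTypeMatrix d F = Cfsg.jordanTypeMatrix d F *
        (g : Matrix ((k : Fin t) × Fin (d k)) ((k : Fin t) × Fin (d k)) F)} ≃
    {X : Matrix ((k : Fin t) × Fin (d k)) ((k : Fin t) × Fin (d k)) F //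
      X * nilp F d = nilp F d * X ∧ IsUnit X.det} where
  toFun g := ⟨g.1.1, (comm_iff d _).mp g.2, (Matrix.isUnit_iff_isUnit_det _).mp g.1.isUnit⟩
  invFun X := ⟨Matrix.GeneralLinearGroup.mk'' X.1 X.2.2, (comm_iff d _).mpr X.2.1⟩
  left_inv _ := Subtype.ext (Units.ext rfl)
  right_inv _ := Subtype.ext rfl

/-- top matrix of a parameter -/
def atop (c : ((k : Fin t) × Fin (d k)) → Fin t → F) : Matrix (Fin t) (Fin t) F :=
  Matrix.of fun l k => c ⟨l, ⟨0, hd l⟩⟩ k

theorem topMat_toMat (c : ((k : Fin t) × Fin (d k)) → Fin t → F) :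
    topMat d hd (toMat d c) = atop d hd c := by
  ext l k
  simp [topMat, toMat, atop]

/-- step 2: parameters -/
noncomputable def equivPar : {X : Matrix ((k : Fin t) × Fin (d k)) ((k : Fin t) × Fin (d k)) F //
      X * nilp F d = nilp F d * X ∧ IsUnit X.det} ≃
    {c : ((k : Fin t) × Fin (d k)) → Fin t → F //
      (∀ (p : (k : Fin t) × Fin (d k)) (k : Fin t), (p.2 : ℕ) + d k < d p.1 → c p k = 0) ∧
        IsUnit (atop d hd c).det} where
  toFun X := ⟨ofMat d hd X.1, ofMat_constraint d hd X.1 X.2.1,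
    (isUnit_det_iff d hd X.1 X.2.1).mp X.2.2⟩
  invFun c := ⟨toMat d c.1, toMat_comm d c.1 c.2.1,
    (isUnit_det_iff d hd _ (toMat_comm d c.1 c.2.1)).mpr (by rw [topMat_toMat]; exact c.2.2)⟩
  left_inv X := Subtype.ext (toMat_ofMat d hd X.1 X.2.1)
  right_inv c := Subtype.ext (ofMat_toMat d hd c.1)

/-- the diagonal top positions -/
def PP (a : ((k : Fin t) × Fin (d k)) × Fin t) : Prop := (a.1.2 : ℕ) = 0 ∧ d a.1.1 = d a.2

/-- the remaining free positions -/
def RR (a : ((k : Fin t) × Fin (d k)) × Fin t) : Prop :=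
  d a.1.1 ≤ (a.1.2 : ℕ) + d a.2 ∧ ¬ ((a.1.2 : ℕ) = 0 ∧ d a.1.1 = d a.2)

instance : DecidablePred (PP d) := fun a => by unfold PP; infer_instance

instance : DecidablePred (RR d) := fun a => by unfold RR; infer_instance

/-- block matrix from values on the diagonal top positions -/
def blk (u : {a // PP d a} → F) (i : Fin (Finset.univ.sup d + 1)) :
    Matrix {x : Fin t // dd d x = i} {x : Fin t // dd d x = i} F :=
  Matrix.of fun l k =>
    u ⟨(⟨l.1, ⟨0, hd l.1⟩⟩, k.1), ⟨rfl, congrArg Fin.val (l.2.trans k.2.symm)⟩⟩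

/-- all diagonal blocks invertible -/
def Good (u : {a // PP d a} → F) : Prop := ∀ i, IsUnit (blk d hd u i).det

theorem cond_iff (c : ((k : Fin t) × Fin (d k)) → Fin t → F) :
    ((∀ (p : (k : Fin t) × Fin (d k)) (k : Fin t), (p.2 : ℕ) + d k < d p.1 → c p k = 0) ∧
        IsUnit (atop d hd c).det) ↔
    ((∀ a, ¬ PP d a → ¬ RR d a → Function.uncurry c a = 0) ∧
        Good d hd (fun a => Function.uncurry c a.1)) := by
  classical
  have hcons : (∀ (p : (k : Fin t) × Fin (d k)) (k : Fin t),
      (p.2 : ℕ) + d k < d p.1 → c p k = 0) ↔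
      (∀ a, ¬ PP d a → ¬ RR d a → Function.uncurry c a = 0) := by
    constructor
    · rintro h ⟨p, k⟩ h1 h2
      apply h
      by_contra h3
      exact h2 ⟨by omega, h1⟩
    · intro h p k hlt
      apply h (p, k)
      · rintro ⟨h1, h2⟩
        simp only at h1 h2
        omega
      · rintro ⟨h1, _⟩
        simp only at h1
        omega
  rw [hcons]
  refine and_congr_right fun hc => ?_
  have hbt : (atop d hd c).BlockTriangular (dd d) := by
    intro l k hlk
    have hlt : d k < d l := hlk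
    exact (hcons.mpr hc) ⟨l, ⟨0, hd l⟩⟩ k (by simpa using hlt)
  rw [hbt.det_fintype, isUnit_iff_ne_zero, Finset.prod_ne_zero_iff]
  unfold Good
  constructor
  · intro h i
    rw [isUnit_iff_ne_zero]
    exact h i (Finset.mem_univ i)
  · intro h i _
    have := h i
    rw [isUnit_iff_ne_zero] at this
    exact this

/-- step 3: uncurried parameters with the block condition -/
def equivUnc : {c : ((k : Fin t) × Fin (d k)) → Fin t → F //
      (∀ (p : (k : Fin t) × Fin (d k)) (k : Fin t), (p.2 : ℕ) + d k < d p.1 → c p k = 0) ∧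
        IsUnit (atop d hd c).det} ≃
    {c : ((k : Fin t) × Fin (d k)) × Fin t → F //
      (∀ a, ¬ PP d a → ¬ RR d a → c a = 0) ∧ Good d hd (fun a => c a.1)} :=
  (Equiv.curry _ _ _).symm.subtypeEquiv (fun c => cond_iff d hd c)

/-- step 5: the diagonal blocks -/
def equivBlk : {u : {a // PP d a} → F // Good d hd u} ≃
    ∀ i : Fin (Finset.univ.sup d + 1),
      {M : Matrix {x : Fin t // dd d x = i} {x : Fin t // dd d x = i} F // IsUnit M.det} where
  toFun u := fun i => ⟨blk d hd u.1 i, u.2 i⟩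
  invFun B := ⟨fun a => (B (dd d a.1.1.1)).1 ⟨a.1.1.1, rfl⟩ ⟨a.1.2, Fin.ext a.2.2.symm⟩,
    fun i => by
      have : blk d hd (fun a : {a // PP d a} =>
          (B (dd d a.1.1.1)).1 ⟨a.1.1.1, rfl⟩ ⟨a.1.2, Fin.ext a.2.2.symm⟩) i = (B i).1 := by
        ext ⟨l, hl⟩ ⟨k, hk⟩
        subst hl
        rfl
      rw [this]
      exact (B i).2⟩
  left_inv := by
    rintro ⟨u, hu⟩
    apply Subtype.ext
    funext ⟨⟨⟨l, ⟨s, hs⟩⟩, k⟩, h1, h2⟩
    have h1' : s = 0 := h1
    subst h1'
    rfl
  right_inv := by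
    intro B
    funext i
    apply Subtype.ext
    ext ⟨l, hl⟩ ⟨k, hk⟩
    subst hl
    rfl

theorem card_RR : Fintype.card {a // RR d a} = ∑ l : Fin t, ∑ k : Fin t, fcount (d l) (d k) := by
  rw [Fintype.card_subtype, Finset.card_filter, Fintype.sum_prod_type, Fintype.sum_sigma]
  refine Finset.sum_congr rfl fun l _ => ?_
  rw [Finset.sum_comm]
  refine Finset.sum_congr rfl fun k _ => ?_
  unfold fcount
  rw [Finset.card_filter]
  refine Finset.sum_congr rfl fun s _ => ?_
  simp only [RR]

theorem card_block (i : Fin (Finset.univ.sup d + 1)) :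
    Fintype.card {x : Fin t // dd d x = i} =
      (Finset.univ.filter (fun k : Fin t => d k = (i : ℕ))).card := by
  rw [Fintype.card_subtype]
  congr 1
  ext x
  simp [dd, Fin.ext_iff]

include hd in
/-- **Order of the centraliser of a unipotent matrix of given Jordan type in `GL`.** -/
theorem card_centralizer [Fintype F] {q : ℕ} (hF : Fintype.card F = q) :
    Nat.card {g : GL ((k : Fin t) × Fin (d k)) F //
      (g : Matrix ((k : Fin t) × Fin (d k)) ((k : Fin t) × Fin (d k)) F) *
        Cfsg.jordanTypeMatrix d F = Cfsg.jordanTypeMatrix d F *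
        (g : Matrix ((k : Fin t) × Fin (d k)) ((k : Fin t) × Fin (d k)) F)} =
      q ^ (2 * (∑ i ∈ Finset.range (Finset.univ.sup d + 1),
        ∑ j ∈ Finset.range (Finset.univ.sup d + 1),
          if i < j then i * (Finset.univ.filter (fun k : Fin t => d k = i)).card *
            (Finset.univ.filter (fun k : Fin t => d k = j)).card else 0) +
        ∑ i ∈ Finset.range (Finset.univ.sup d + 1),
          (i - 1) * (Finset.univ.filter (fun k : Fin t => d k = i)).card ^ 2) *
      ∏ i ∈ Finset.range (Finset.univ.sup d + 1),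
        ∏ j : Fin ((Finset.univ.filter (fun k : Fin t => d k = i)).card),
          (q ^ (Finset.univ.filter (fun k : Fin t => d k = i)).card - q ^ (j : ℕ)) := by
  classical
  rw [Nat.card_congr (equivMat d), Nat.card_congr (equivPar d hd),
    Nat.card_congr (equivUnc d hd),
    card_split (PP d) (RR d) (fun a h1 h2 => h2.2 h1) (Good d hd),
    Nat.card_congr (equivBlk d hd), Nat.card_pi, card_RR, exponent_eq, hF, mul_comm]
  congr 1
  rw [← Fin.prod_univ_eq_prod_range (fun i => ∏ j : Fin ((Finset.univ.filter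
    (fun k : Fin t => d k = i)).card), (q ^ (Finset.univ.filter
    (fun k : Fin t => d k = i)).card - q ^ (j : ℕ))) (Finset.univ.sup d + 1)]
  refine Finset.prod_congr rfl fun i _ => ?_
  rw [card_isUnit_det, hF]
  exact prod_fin_congr q (card_block d i)

end Cfsg.Agent.Helper21.JCent
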