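import Mathlib
import Cfsg.Agent.Helper83.Steinberg
import Cfsg.Agent.Helper5.SLGen

/-!
# Steinberg presentation of `SL_n` (S2401): definitions shared by the CALL pieces

`stW X Y t = X t * Y (-t⁻¹) * X t`, `stH X Y t = stW X Y t * (stW X Y 1)⁻¹` and `StRel` are
helper83's rank one notions (`Cfsg.Agent.Helper83`).
-/

set_option autoImplicit false

namespace Cfsg.Agent.Helper21.SP

open Cfsg.Agent.Helper83

variable {K : Type*} [Field K]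

/-- The elementary matrix `1 + t E_ij` of `SL_n` (`1` when `i = j`). -/
noncomputable def tv {n : ℕ} (i j : Fin n) (t : K) : Matrix.SpecialLinearGroup (Fin n) K :=
  if h : i ≠ j then Matrix.SpecialLinearGroup.transvection h t else 1

/-- The Steinberg relations for a family `x i j t` (only the values with `i ≠ j` matter). -/
structure StN {n : ℕ} {Γ : Type*} [Group Γ] (x : Fin n → Fin n → K → Γ) : Prop where
  add : ∀ i j, i ≠ j → ∀ t u, x i j t * x i j u = x i j (t + u)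
  comm : ∀ i j k l, i ≠ j → k ≠ l → i ≠ l → j ≠ k → ∀ t u, x i j t * x k l u = x k l u * x i j t
  rel : ∀ i j l, i ≠ j → j ≠ l → i ≠ l → ∀ t u,
    x i j t * x j l u * (x i j t)⁻¹ * (x j l u)⁻¹ = x i l (t * u)

/-- Conjugation by the Weyl elements `w_ij(t) = x_ij(t) x_ji(-t⁻¹) x_ij(t)`. -/
structure WT {n : ℕ} {Γ : Type*} [Group Γ] (x : Fin n → Fin n → K → Γ) : Prop where
  w1 : ∀ i j k, i ≠ j → i ≠ k → j ≠ k → ∀ t u, t ≠ 0 →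
    stW (x i j) (x j i) t * x i k u * (stW (x i j) (x j i) t)⁻¹ = x j k (-(t⁻¹ * u))
  w2 : ∀ i j k, i ≠ j → i ≠ k → j ≠ k → ∀ t u, t ≠ 0 →
    stW (x i j) (x j i) t * x j k u * (stW (x i j) (x j i) t)⁻¹ = x i k (t * u)
  w3 : ∀ i j k, i ≠ j → i ≠ k → j ≠ k → ∀ t u, t ≠ 0 →
    stW (x i j) (x j i) t * x k i u * (stW (x i j) (x j i) t)⁻¹ = x k j (-(t * u))
  w4 : ∀ i j k, i ≠ j → i ≠ k → j ≠ k → ∀ t u, t ≠ 0 →
    stW (x i j) (x j i) t * x k j u * (stW (x i j) (x j i) t)⁻¹ = x k i (t⁻¹ * u)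
  w5 : ∀ i j k l, i ≠ j → k ≠ l → k ≠ i → k ≠ j → l ≠ i → l ≠ j → ∀ t u,
    stW (x i j) (x j i) t * x k l u = x k l u * stW (x i j) (x j i) t

/-- Conjugation by the torus elements `h_ij(c) = w_ij(c) w_ij(1)⁻¹`. -/
structure HA {n : ℕ} {Γ : Type*} [Group Γ] (x : Fin n → Fin n → K → Γ) : Prop where
  h1 : ∀ i j k, i ≠ j → i ≠ k → j ≠ k → ∀ c u, c ≠ 0 →
    stH (x i j) (x j i) c * x i k u * (stH (x i j) (x j i) c)⁻¹ = x i k (c * u)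
  h2 : ∀ i j k, i ≠ j → i ≠ k → j ≠ k → ∀ c u, c ≠ 0 →
    stH (x i j) (x j i) c * x j k u * (stH (x i j) (x j i) c)⁻¹ = x j k (c⁻¹ * u)
  h3 : ∀ i j k, i ≠ j → i ≠ k → j ≠ k → ∀ c u, c ≠ 0 →
    stH (x i j) (x j i) c * x k i u * (stH (x i j) (x j i) c)⁻¹ = x k i (c⁻¹ * u)
  h4 : ∀ i j k, i ≠ j → i ≠ k → j ≠ k → ∀ c u, c ≠ 0 →
    stH (x i j) (x j i) c * x k j u * (stH (x i j) (x j i) c)⁻¹ = x k j (c * u)
  h5 : ∀ i j k l, i ≠ j → k ≠ l → k ≠ i → k ≠ j → l ≠ i → l ≠ j → ∀ c u,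
    stH (x i j) (x j i) c * x k l u = x k l u * stH (x i j) (x j i) c

/-- Everything word-level that is known about a Steinberg family (`n ≥ 3`, `K` finite). -/
structure Base {n : ℕ} {Γ : Type*} [Group Γ] (x : Fin n → Fin n → K → Γ) : Prop where
  st : StN x
  wt : WT x
  rk : ∀ i j, i ≠ j → StRel (x i j) (x j i)
  ha : HA x
  hm : ∀ i j, i ≠ j → ∀ t u, t ≠ 0 → u ≠ 0 →
    stH (x i j) (x j i) (t * u) = stH (x i j) (x j i) t * stH (x i j) (x j i) u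

/-- Rank two torus/Weyl identities. -/
structure Lay2 {n : ℕ} {Γ : Type*} [Group Γ] (x : Fin n → Fin n → K → Γ) : Prop where
  t1 : ∀ i j k, i ≠ j → i ≠ k → j ≠ k → ∀ c, c ≠ 0 →
    stH (x i k) (x k i) c = stH (x i j) (x j i) c * stH (x j k) (x k j) c
  t2 : ∀ i j k, i ≠ j → i ≠ k → j ≠ k → ∀ c, c ≠ 0 →
    stW (x i j) (x j i) 1 * stH (x i k) (x k i) c * (stW (x i j) (x j i) 1)⁻¹ =
      stH (x j k) (x k j) c
  br : ∀ i j k, i ≠ j → i ≠ k → j ≠ k →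
    (stW (x i j) (x j i) 1)⁻¹ * stW (x j k) (x k j) 1 * stW (x i j) (x j i) 1 =
      stW (x j k) (x k j) 1 * stW (x i j) (x j i) 1 * (stW (x j k) (x k j) 1)⁻¹

section Par

variable {k : ℕ} {Γ : Type*} [Group Γ]

/-- `α(r) = ∏_j x_{0,j+1}(r_j)` (ordered product). -/
def alpha (x : Fin (k + 3) → Fin (k + 3) → K → Γ) (r : Fin (k + 2) → K) : Γ :=
  ((List.finRange (k + 2)).map (fun j => x 0 (Fin.succ j) (r j))).prod

/-- The matrix `[[1, r], [0, 1]]`. -/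
def amat (r : Fin (k + 2) → K) : Matrix (Fin (k + 3)) (Fin (k + 3)) K :=
  fun a b => Fin.cases (Fin.cases 1 r b) (fun a' => if Fin.succ a' = b then 1 else 0) a

/-- The block matrix `[[1, 0], [0, M]]`. -/
def emb (M : Matrix (Fin (k + 2)) (Fin (k + 2)) K) : Matrix (Fin (k + 3)) (Fin (k + 3)) K :=
  fun a b => Fin.cases (Fin.cases 1 (fun _ => 0) b) (fun a' => Fin.cases 0 (fun b' => M a' b') b) a

/-- The lift `Q` of the stabiliser of the vector `e₀`: generated by the `x_ij(t)`, `j ≠ 0`. -/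
def Qg (x : Fin (k + 3) → Fin (k + 3) → K → Γ) : Subgroup Γ :=
  Subgroup.closure {g | ∃ i j t, i ≠ j ∧ j ≠ 0 ∧ g = x i j t}

/-- The lift `Q₀` of the stabiliser of `e₀` and `e₁`: generated by the `x_ij(t)`, `j ≠ 0, 1`. -/
def Q0g (x : Fin (k + 3) → Fin (k + 3) → K → Γ) : Subgroup Γ :=
  Subgroup.closure {g | ∃ i j t, i ≠ j ∧ j ≠ 0 ∧ j ≠ 1 ∧ g = x i j t}

/-- `D = ⋃_c h_01(c) Q ∪ Q w_01 Q`. -/
def Dset (x : Fin (k + 3) → Fin (k + 3) → K → Γ) : Set Γ :=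
  {g | (∃ c, c ≠ 0 ∧ ∃ q ∈ Qg x, g = stH (x 0 1) (x 1 0) c * q) ∨
    (∃ q₁ ∈ Qg x, ∃ q₂ ∈ Qg x, g = q₁ * stW (x 0 1) (x 1 0) 1 * q₂)}

/-- The setting of the inductive step. -/
structure Ctx (x : Fin (k + 3) → Fin (k + 3) → K → Γ)
    (π : Γ →* Matrix.SpecialLinearGroup (Fin (k + 3)) K)
    (ψ : Matrix.SpecialLinearGroup (Fin (k + 2)) K →* Γ) : Prop where
  base : Base x
  hπ : ∀ i j, i ≠ j → ∀ t, π (x i j t) = tv i j t
  hψ : ∀ i j, i ≠ j → ∀ t, ψ (tv i j t) = x (Fin.succ i) (Fin.succ j) t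

/-- Structure of `Q = α(K^{n-1}) ⋊ ψ(SL_{n-1})`. -/
structure Lay3 (x : Fin (k + 3) → Fin (k + 3) → K → Γ)
    (π : Γ →* Matrix.SpecialLinearGroup (Fin (k + 3)) K)
    (ψ : Matrix.SpecialLinearGroup (Fin (k + 2)) K →* Γ) : Prop where
  al_add : ∀ r s, alpha x (r + s) = alpha x r * alpha x s
  al_single : ∀ j t, alpha x (Pi.single j t) = x 0 (Fin.succ j) t
  conjA : ∀ (g : Matrix.SpecialLinearGroup (Fin (k + 2)) K) (r : Fin (k + 2) → K),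
    ψ g * alpha x r * (ψ g)⁻¹ =
      alpha x (Matrix.vecMul r ((g⁻¹ : Matrix.SpecialLinearGroup (Fin (k + 2)) K) :
        Matrix (Fin (k + 2)) (Fin (k + 2)) K))
  pi_al : ∀ r, ((π (alpha x r) : Matrix.SpecialLinearGroup (Fin (k + 3)) K) :
    Matrix (Fin (k + 3)) (Fin (k + 3)) K) = amat r
  beta : ∀ g : Matrix.SpecialLinearGroup (Fin (k + 2)) K,
    ((π (ψ g) : Matrix.SpecialLinearGroup (Fin (k + 3)) K) :
      Matrix (Fin (k + 3)) (Fin (k + 3)) K) =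
      emb (g : Matrix (Fin (k + 2)) (Fin (k + 2)) K)

/-- Column `c` of `M` is the basis vector `e_c`. -/
def ColE {n : ℕ} (M : Matrix.SpecialLinearGroup (Fin n) K) (c : Fin n) : Prop :=
  ∀ a, (M : Matrix (Fin n) (Fin n) K) a c = if a = c then 1 else 0

/-- Facts about `Q` obtained through `π`. -/
structure QF (x : Fin (k + 3) → Fin (k + 3) → K → Γ)
    (π : Γ →* Matrix.SpecialLinearGroup (Fin (k + 3)) K) : Prop where
  qinj : ∀ q ∈ Qg x, π q = 1 → q = 1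
  qsurj : ∀ M : Matrix.SpecialLinearGroup (Fin (k + 3)) K, ColE M 0 → ∃ q ∈ Qg x, π q = M
  qcol : ∀ q ∈ Qg x, ColE (π q) 0
  q0 : ∀ q ∈ Qg x, ColE (π q) 1 → q ∈ Q0g x

/-- `h_01(c)` normalises `Q`. -/
def D1P (x : Fin (k + 3) → Fin (k + 3) → K → Γ) : Prop :=
  ∀ c, c ≠ 0 → ∀ q ∈ Qg x,
    stH (x 0 1) (x 1 0) c * q * (stH (x 0 1) (x 1 0) c)⁻¹ ∈ Qg x ∧
    (stH (x 0 1) (x 1 0) c)⁻¹ * q * stH (x 0 1) (x 1 0) c ∈ Qg x

/-- `w_01 h_01(c) ∈ Q w_01 Q`. -/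
def D2P (x : Fin (k + 3) → Fin (k + 3) → K → Γ) : Prop :=
  ∀ c, c ≠ 0 → stW (x 0 1) (x 1 0) 1 * stH (x 0 1) (x 1 0) c =
    stH (x 1 2) (x 2 1) c * stW (x 0 1) (x 1 0) 1 * (stH (x 1 2) (x 2 1) c)⁻¹

/-- `w_01` conjugates `Q₀` into `Q`. -/
def D3P (x : Fin (k + 3) → Fin (k + 3) → K → Γ) : Prop :=
  ∀ q ∈ Q0g x,
    stW (x 0 1) (x 1 0) 1 * q * (stW (x 0 1) (x 1 0) 1)⁻¹ ∈ Qg x ∧
    (stW (x 0 1) (x 1 0) 1)⁻¹ * q * stW (x 0 1) (x 1 0) 1 ∈ Qg x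

/-- The `(Q₀, Q₀)` double cosets of `Q`. -/
def D4P (x : Fin (k + 3) → Fin (k + 3) → K → Γ) : Prop :=
  ∀ q ∈ Qg x,
    (∃ s d, d ≠ 0 ∧ ∃ q₀ ∈ Q0g x, q = x 0 1 s * stH (x 1 2) (x 2 1) d * q₀) ∨
    (∃ d, d ≠ 0 ∧ ∃ q₀ ∈ Q0g x, ∃ q₀' ∈ Q0g x,
      q = q₀ * stW (x 1 2) (x 2 1) 1 * stH (x 1 2) (x 2 1) d * q₀')

/-- The matrix version of `D4P`. -/
def D4MP (K : Type*) [Field K] (k : ℕ) : Prop :=
  ∀ M : Matrix.SpecialLinearGroup (Fin (k + 3)) K, ColE M 0 →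
    (∃ s d, d ≠ 0 ∧ ∃ M₀ : Matrix.SpecialLinearGroup (Fin (k + 3)) K, ColE M₀ 0 ∧ ColE M₀ 1 ∧
      M = tv 0 1 s * stH (tv 1 2) (tv 2 1) d * M₀) ∨
    (∃ d, d ≠ 0 ∧ ∃ M₀ M₀' : Matrix.SpecialLinearGroup (Fin (k + 3)) K,
      ColE M₀ 0 ∧ ColE M₀ 1 ∧ ColE M₀' 0 ∧ ColE M₀' 1 ∧
      M = M₀ * stW (tv 1 2) (tv 2 1) 1 * stH (tv 1 2) (tv 2 1) d * M₀')

/-- The rank one part of `w Q w ⊆ D`. -/
def D5SP (x : Fin (k + 3) → Fin (k + 3) → K → Γ) : Prop :=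
  ∀ s d, d ≠ 0 →
    stW (x 0 1) (x 1 0) 1 * x 0 1 s * stW (x 0 1) (x 1 0) 1 * stH (x 0 1) (x 1 0) d ∈ Dset x

def D5aP (x : Fin (k + 3) → Fin (k + 3) → K → Γ) : Prop :=
  ∀ s d, d ≠ 0 →
    stW (x 0 1) (x 1 0) 1 * (x 0 1 s * stH (x 1 2) (x 2 1) d) * stW (x 0 1) (x 1 0) 1 ∈ Dset x

def D5bP (x : Fin (k + 3) → Fin (k + 3) → K → Γ) : Prop :=
  ∀ d, d ≠ 0 →
    stW (x 0 1) (x 1 0) 1 * (stW (x 1 2) (x 2 1) 1 * stH (x 1 2) (x 2 1) d) *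
      stW (x 0 1) (x 1 0) 1 ∈ Dset x

end Par

section Pres

/-- The relators of the statement S2401. -/
def rels (n : ℕ) (K : Type*) [Field K] :
    Set (FreeGroup ({ij : Fin n × Fin n // ij.1 ≠ ij.2} × K)) :=
  {g : FreeGroup ({ij : Fin n × Fin n // ij.1 ≠ ij.2} × K) | ∃ (a : {ij : Fin n × Fin n // ij.1 ≠ ij.2}) (t u : K),
            g = FreeGroup.of (a, t) * FreeGroup.of (a, u) * (FreeGroup.of (a, t + u))⁻¹} ∪
          {g | ∃ (a b : {ij : Fin n × Fin n // ij.1 ≠ ij.2}) (t u : K), a.1.1 ≠ b.1.2 ∧ a.1.2 ≠ b.1.1 ∧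
            g = FreeGroup.of (a, t) * FreeGroup.of (b, u) * (FreeGroup.of (a, t))⁻¹ * (FreeGroup.of (b, u))⁻¹} ∪
          {g | ∃ (a b : {ij : Fin n × Fin n // ij.1 ≠ ij.2}) (h : a.1.1 ≠ b.1.2) (t u : K), a.1.2 = b.1.1 ∧
            g = FreeGroup.of (a, t) * FreeGroup.of (b, u) * (FreeGroup.of (a, t))⁻¹ * (FreeGroup.of (b, u))⁻¹ *
              (FreeGroup.of (⟨(a.1.1, b.1.2), h⟩, t * u))⁻¹}

/-- The generators of the presented group, as a family (`1` when `i = j`). -/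
noncomputable def xP (n : ℕ) (K : Type*) [Field K] (i j : Fin n) (t : K) : PresentedGroup (rels n K) :=
  if h : i ≠ j then PresentedGroup.of (⟨(i, j), h⟩, t) else 1

end Pres

end Cfsg.Agent.Helper21.SP
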