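import Mathlib
import Cfsg.Agent.Helper21.SPDefs

set_option autoImplicit false

namespace Cfsg.Agent.Helper21.SPT

open Cfsg.Agent.Helper83 Cfsg.Agent.Helper21.SP

variable {K : Type*} [Field K] {n : ℕ} {Γ : Type*} [Group Γ] {x : Fin n → Fin n → K → Γ}

/-- Conjugating a Weyl element by `g` acting by the scalars `a`, `a⁻¹` on the two root groups. -/
theorem stW_scale (g : Γ) (X Y X' Y' : K → Γ) (a : K)
    (hX : ∀ u, g * X u * g⁻¹ = X' (a * u)) (hY : ∀ u, g * Y u * g⁻¹ = Y' (a⁻¹ * u)) (s : K) :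
    g * stW X Y s * g⁻¹ = stW X' Y' (a * s) := by
  unfold stW
  have e : g * (X s * Y (-s⁻¹) * X s) * g⁻¹ =
      (g * X s * g⁻¹) * (g * Y (-s⁻¹) * g⁻¹) * (g * X s * g⁻¹) := by group
  rw [e, hX, hY]
  have e2 : a⁻¹ * -s⁻¹ = -(a * s)⁻¹ := by rw [mul_inv]; ring
  rw [e2]

/-- rank one: `w(-c) w(-1)⁻¹ = h(c)`. -/
theorem w_neg_ratio {X Y : K → Γ} (hr : StRel X Y)
    (hm : ∀ t u : K, t ≠ 0 → u ≠ 0 → stH X Y (t * u) = stH X Y t * stH X Y u) (c : K)
    (hc : c ≠ 0) : stW X Y (-1 * c) * (stW X Y (-1 * 1))⁻¹ = stH X Y c := by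
  have e1 := hm c (-1) hc (neg_ne_zero.mpr one_ne_zero)
  rw [hr.w_eq (-1 * c), hr.w_eq (-1 * 1), mul_one, mul_comm (-1 : K) c, e1]
  group

/-- `w_jk(1) w_ij(s) w_jk(1)⁻¹ = w_ik(-s)`. -/
theorem conj_a (hb : Base x) {i j k : Fin n} (hij : i ≠ j) (hik : i ≠ k) (hjk : j ≠ k) (s : K) :
    stW (x j k) (x k j) 1 * stW (x i j) (x j i) s * (stW (x j k) (x k j) 1)⁻¹ =
      stW (x i k) (x k i) (-1 * s) := by
  apply stW_scale
  · intro u
    rw [hb.wt.w3 j k i hjk hij.symm hik.symm 1 u one_ne_zero]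
    congr 1; ring
  · intro u
    rw [hb.wt.w1 j k i hjk hij.symm hik.symm 1 u one_ne_zero]
    congr 1; field_simp

theorem t1_of_base {K : Type*} [Field K] {n : ℕ} {Γ : Type*} [Group Γ]
    {x : Fin n → Fin n → K → Γ} (hb : Base x) :
    ∀ i j k, i ≠ j → i ≠ k → j ≠ k → ∀ c, c ≠ 0 →
      stH (x i k) (x k i) c = stH (x i j) (x j i) c * stH (x j k) (x k j) c := by
  intro i j k hij hik hjk c hc
  -- (A) w_jk h_ij(c) w_jk⁻¹ = h_ik(c)
  have hA : stW (x j k) (x k j) 1 * stH (x i j) (x j i) c * (stW (x j k) (x k j) 1)⁻¹ =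
      stH (x i k) (x k i) c := by
    have e : stW (x j k) (x k j) 1 * stH (x i j) (x j i) c * (stW (x j k) (x k j) 1)⁻¹ =
        (stW (x j k) (x k j) 1 * stW (x i j) (x j i) c * (stW (x j k) (x k j) 1)⁻¹) *
        (stW (x j k) (x k j) 1 * stW (x i j) (x j i) 1 * (stW (x j k) (x k j) 1)⁻¹)⁻¹ := by
      unfold stH; group
    rw [e, conj_a hb hij hik hjk, conj_a hb hij hik hjk]
    exact w_neg_ratio (hb.rk i k hik) (hb.hm i k hik) c hc
  -- (B) h_ij(c) w_jk(c) h_ij(c)⁻¹ = w_jk(1)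
  have hB : stH (x i j) (x j i) c * stW (x j k) (x k j) c * (stH (x i j) (x j i) c)⁻¹ =
      stW (x j k) (x k j) (c⁻¹ * c) := by
    apply stW_scale
    · intro u
      exact hb.ha.h2 i j k hij hik hjk c u hc
    · intro u
      rw [hb.ha.h4 i j k hij hik hjk c u hc, inv_inv]
  rw [inv_mul_cancel₀ hc] at hB
  rw [← hA]
  have e : stH (x j k) (x k j) c = stW (x j k) (x k j) c * (stW (x j k) (x k j) 1)⁻¹ := rfl
  rw [e, ← hB]
  group

theorem t2_of_base {K : Type*} [Field K] {n : ℕ} {Γ : Type*} [Group Γ]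
    {x : Fin n → Fin n → K → Γ} (hb : Base x) :
    ∀ i j k, i ≠ j → i ≠ k → j ≠ k → ∀ c, c ≠ 0 →
      stW (x i j) (x j i) 1 * stH (x i k) (x k i) c * (stW (x i j) (x j i) 1)⁻¹ =
        stH (x j k) (x k j) c := by
  intro i j k hij hik hjk c hc
  have hS : ∀ s, stW (x i j) (x j i) 1 * stW (x i k) (x k i) s * (stW (x i j) (x j i) 1)⁻¹ =
      stW (x j k) (x k j) (-1 * s) := by
    intro s
    apply stW_scale
    · intro u
      rw [hb.wt.w1 i j k hij hik hjk 1 u one_ne_zero]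
      congr 1; field_simp
    · intro u
      rw [hb.wt.w3 i j k hij hik hjk 1 u one_ne_zero]
      congr 1; field_simp
  have e : stW (x i j) (x j i) 1 * stH (x i k) (x k i) c * (stW (x i j) (x j i) 1)⁻¹ =
      (stW (x i j) (x j i) 1 * stW (x i k) (x k i) c * (stW (x i j) (x j i) 1)⁻¹) *
      (stW (x i j) (x j i) 1 * stW (x i k) (x k i) 1 * (stW (x i j) (x j i) 1)⁻¹)⁻¹ := by
    unfold stH; group
  rw [e, hS, hS]
  exact w_neg_ratio (hb.rk j k hjk) (hb.hm j k hjk) c hc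

theorem br_of_base {K : Type*} [Field K] {n : ℕ} {Γ : Type*} [Group Γ]
    {x : Fin n → Fin n → K → Γ} (hb : Base x) :
    ∀ i j k, i ≠ j → i ≠ k → j ≠ k →
      (stW (x i j) (x j i) 1)⁻¹ * stW (x j k) (x k j) 1 * stW (x i j) (x j i) 1 =
        stW (x j k) (x k j) 1 * stW (x i j) (x j i) 1 * (stW (x j k) (x k j) 1)⁻¹ := by
  intro i j k hij hik hjk
  rw [conj_a hb hij hik hjk]
  have hinv : (stW (x i j) (x j i) 1)⁻¹ = stW (x i j) (x j i) (-1) := (hb.rk i j hij).w_inv 1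
  have e : (stW (x i j) (x j i) 1)⁻¹ * stW (x j k) (x k j) 1 * stW (x i j) (x j i) 1 =
      stW (x i j) (x j i) (-1) * stW (x j k) (x k j) 1 * (stW (x i j) (x j i) (-1))⁻¹ := by
    rw [← hinv, inv_inv]
  rw [e]
  apply stW_scale
  · intro u
    exact hb.wt.w2 i j k hij hik hjk (-1) u (neg_ne_zero.mpr one_ne_zero)
  · intro u
    exact hb.wt.w4 i j k hij hik hjk (-1) u (neg_ne_zero.mpr one_ne_zero)

end Cfsg.Agent.Helper21.SPT
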