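import Mathlib
import Cfsg.Agent.Helper21.SPDefs
import Cfsg.Agent.Helper21.SPT

set_option autoImplicit false

namespace Cfsg.Agent.Helper21.SPD

open Cfsg.Agent.Helper83 Cfsg.Agent.Helper21.SP

variable {K : Type*} [Field K] {k : ℕ} {Γ : Type*} [Group Γ]
  {x : Fin (k + 3) → Fin (k + 3) → K → Γ}

omit [Field K] in
theorem ne01 : (0 : Fin (k + 3)) ≠ 1 := by
  intro h; have := congrArg Fin.val h; simp at this

omit [Field K] in
theorem ne02 : (0 : Fin (k + 3)) ≠ 2 := by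
  intro h; have := congrArg Fin.val h; simp at this
  rw [Nat.mod_eq_of_lt (by omega)] at this; omega

omit [Field K] in
theorem ne12 : (1 : Fin (k + 3)) ≠ 2 := by
  intro h; have := congrArg Fin.val h; simp at this
  rw [Nat.mod_eq_of_lt (by omega)] at this; omega

omit [Field K] in
theorem x_mem_Qg (x : Fin (k + 3) → Fin (k + 3) → K → Γ) {i j : Fin (k + 3)} (hij : i ≠ j)
    (hj : j ≠ 0) (t : K) : x i j t ∈ Qg x :=
  Subgroup.subset_closure ⟨i, j, t, hij, hj, rfl⟩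

/-- Conjugation by `g` maps a closure into a subgroup as soon as it does so on generators. -/
theorem conj_closure {G : Type*} [Group G] (g : G) (S : Set G) (H : Subgroup G)
    (h : ∀ s ∈ S, g * s * g⁻¹ ∈ H) : ∀ q ∈ Subgroup.closure S, g * q * g⁻¹ ∈ H := by
  intro q hq
  induction hq using Subgroup.closure_induction with
  | mem y hy => exact h y hy
  | one => simp
  | mul a b _ _ ha hb =>
    have e : g * (a * b) * g⁻¹ = (g * a * g⁻¹) * (g * b * g⁻¹) := by group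
    rw [e]; exact mul_mem ha hb
  | inv a _ ha =>
    have e : g * a⁻¹ * g⁻¹ = (g * a * g⁻¹)⁻¹ := by group
    rw [e]; exact inv_mem ha

theorem d1_aux (hb : Base x) (c : K) (hc : c ≠ 0) :
    ∀ q ∈ Qg x, stH (x 0 1) (x 1 0) c * q * (stH (x 0 1) (x 1 0) c)⁻¹ ∈ Qg x := by
  apply conj_closure
  rintro _ ⟨i, j, t, hij, hj, rfl⟩
  by_cases hi0 : i = 0
  · subst hi0
    by_cases hj1 : j = 1
    · subst hj1
      rw [(hb.rk 0 1 ne01).hX hc]
      exact x_mem_Qg x ne01 ne01.symm _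
    · rw [hb.ha.h1 0 1 j ne01 hij (Ne.symm hj1) c t hc]
      exact x_mem_Qg x hij hj _
  · by_cases hi1 : i = 1
    · subst hi1
      rw [hb.ha.h2 0 1 j ne01 (Ne.symm hj) hij c t hc]
      exact x_mem_Qg x hij hj _
    · by_cases hj1 : j = 1
      · subst hj1
        rw [hb.ha.h4 0 1 i ne01 (Ne.symm hi0) (Ne.symm hi1) c t hc]
        exact x_mem_Qg x hij hj _
      · rw [hb.ha.h5 0 1 i j ne01 hij hi0 hi1 hj hj1 c t, mul_assoc, mul_inv_cancel, mul_one]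
        exact x_mem_Qg x hij hj _

theorem d1 {K : Type*} [Field K] {k : ℕ} {Γ : Type*} [Group Γ]
    {x : Fin (k + 3) → Fin (k + 3) → K → Γ} (hb : Base x) : D1P x := by
  intro c hc q hq
  refine ⟨d1_aux hb c hc q hq, ?_⟩
  have hr := hb.rk 0 1 ne01
  have e := hb.hm 0 1 ne01 c c⁻¹ hc (inv_ne_zero hc)
  rw [mul_inv_cancel₀ hc, hr.h_one] at e
  have hinv : (stH (x 0 1) (x 1 0) c)⁻¹ = stH (x 0 1) (x 1 0) c⁻¹ :=
    inv_eq_of_mul_eq_one_right e.symm
  have := d1_aux hb c⁻¹ (inv_ne_zero hc) q hq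
  rw [← hinv, inv_inv] at this
  exact this

theorem d2 {K : Type*} [Field K] {k : ℕ} {Γ : Type*} [Group Γ]
    {x : Fin (k + 3) → Fin (k + 3) → K → Γ} (hb : Base x) : D2P x := by
  intro c hc
  have hr := hb.rk 0 1 ne01
  have e : stH (x 1 2) (x 2 1) c * stW (x 0 1) (x 1 0) 1 * (stH (x 1 2) (x 2 1) c)⁻¹ =
      stW (x 0 1) (x 1 0) (c⁻¹ * 1) := by
    apply Cfsg.Agent.Helper21.SPT.stW_scale
    · intro u
      exact hb.ha.h3 1 2 0 ne12 ne01.symm ne02.symm c u hc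
    · intro u
      rw [hb.ha.h1 1 2 0 ne12 ne01.symm ne02.symm c u hc, inv_inv]
  rw [e, mul_one, hr.w_eq c⁻¹, ← hr.w1_h hc]
  group

theorem d3_aux (hb : Base x) (t : K) (ht : t ≠ 0) :
    ∀ q ∈ Q0g x, stW (x 0 1) (x 1 0) t * q * (stW (x 0 1) (x 1 0) t)⁻¹ ∈ Qg x := by
  apply conj_closure
  rintro _ ⟨i, j, u, hij, hj0, hj1, rfl⟩
  by_cases hi0 : i = 0
  · subst hi0
    rw [hb.wt.w1 0 1 j ne01 hij (Ne.symm hj1) t u ht]
    exact x_mem_Qg x (Ne.symm hj1) hj0 _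
  · by_cases hi1 : i = 1
    · subst hi1
      rw [hb.wt.w2 0 1 j ne01 (Ne.symm hj0) hij t u ht]
      exact x_mem_Qg x (Ne.symm hj0) hj0 _
    · rw [hb.wt.w5 0 1 i j ne01 hij hi0 hi1 hj0 hj1 t u, mul_assoc, mul_inv_cancel, mul_one]
      exact x_mem_Qg x hij hj0 _

theorem d3 {K : Type*} [Field K] {k : ℕ} {Γ : Type*} [Group Γ]
    {x : Fin (k + 3) → Fin (k + 3) → K → Γ} (hb : Base x) : D3P x := by
  intro q hq
  refine ⟨d3_aux hb 1 one_ne_zero q hq, ?_⟩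
  have hinv : (stW (x 0 1) (x 1 0) 1)⁻¹ = stW (x 0 1) (x 1 0) (-1) := (hb.rk 0 1 ne01).w_inv 1
  have := d3_aux hb (-1) (neg_ne_zero.mpr one_ne_zero) q hq
  rw [← hinv, inv_inv] at this
  exact this

theorem d6 {K : Type*} [Field K] {k : ℕ} {Γ : Type*} [Group Γ]
    {x : Fin (k + 3) → Fin (k + 3) → K → Γ} (hb : Base x)
    (hgen : Subgroup.closure {g | ∃ i j t, i ≠ j ∧ g = x i j t} = ⊤) :
    Subgroup.closure ((Qg x : Set Γ) ∪ {stW (x 0 1) (x 1 0) 1}) = ⊤ := by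
  have hQ : ∀ q ∈ Qg x, q ∈ Subgroup.closure ((Qg x : Set Γ) ∪ {stW (x 0 1) (x 1 0) 1}) :=
    fun q hq => Subgroup.subset_closure (Or.inl hq)
  have hw : stW (x 0 1) (x 1 0) 1 ∈
      Subgroup.closure ((Qg x : Set Γ) ∪ {stW (x 0 1) (x 1 0) 1}) :=
    Subgroup.subset_closure (Or.inr rfl)
  have h10 : ∀ t, x 1 0 t ∈ Subgroup.closure ((Qg x : Set Γ) ∪ {stW (x 0 1) (x 1 0) 1}) := by
    intro t
    have e := (hb.rk 0 1 ne01).wX (one_ne_zero (α := K)) (-t)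
    have e2 : -((1 : K)⁻¹ ^ 2 * -t) = t := by simp
    rw [e2] at e
    rw [← e]
    exact mul_mem (mul_mem hw (hQ _ (x_mem_Qg x ne01 ne01.symm _))) (inv_mem hw)
  rw [eq_top_iff, ← hgen]
  apply (Subgroup.closure_le _).mpr
  rintro _ ⟨i, j, t, hij, rfl⟩
  by_cases hj : j = 0
  · subst hj
    by_cases hi1 : i = 1
    · subst hi1
      exact h10 t
    · have e := hb.st.rel i 1 0 hi1 ne01.symm hij t 1
      rw [mul_one] at e
      have : x i 0 t ∈ Subgroup.closure ((Qg x : Set Γ) ∪ {stW (x 0 1) (x 1 0) 1}) := by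
        rw [← e]
        exact mul_mem (mul_mem (mul_mem (hQ _ (x_mem_Qg x hi1 ne01.symm _)) (h10 1))
          (inv_mem (hQ _ (x_mem_Qg x hi1 ne01.symm _)))) (inv_mem (h10 1))
      exact this
  · exact hQ _ (x_mem_Qg x hij hj t)

end Cfsg.Agent.Helper21.SPD
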