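import Mathlib
import Cfsg.Agent.Helper21.SPDefs
import Cfsg.Agent.Helper21.SPD

set_option autoImplicit false

namespace Cfsg.Agent.Helper21.SPD5

open Cfsg.Agent.Helper83 Cfsg.Agent.Helper21.SP Cfsg.Agent.Helper21.SPD

variable {K : Type*} [Field K] {k : ℕ} {Γ : Type*} [Group Γ]
  {x : Fin (k + 3) → Fin (k + 3) → K → Γ}

theorem w12_mem (x : Fin (k + 3) → Fin (k + 3) → K → Γ) (t : K) :
    stW (x 1 2) (x 2 1) t ∈ Qg x := by
  unfold stW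
  exact mul_mem (mul_mem (x_mem_Qg x ne12 ne02.symm _) (x_mem_Qg x ne12.symm ne01.symm _))
    (x_mem_Qg x ne12 ne02.symm _)

theorem h12_mem (x : Fin (k + 3) → Fin (k + 3) → K → Γ) (c : K) :
    stH (x 1 2) (x 2 1) c ∈ Qg x := by
  unfold stH
  exact mul_mem (w12_mem x _) (inv_mem (w12_mem x _))

theorem D_mul_Q {g q : Γ} (hg : g ∈ Dset x) (hq : q ∈ Qg x) : g * q ∈ Dset x := by
  rcases hg with ⟨c, hc, q', hq', rfl⟩ | ⟨q₁, h₁, q₂, h₂, rfl⟩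
  · exact Or.inl ⟨c, hc, q' * q, mul_mem hq' hq, by rw [mul_assoc]⟩
  · exact Or.inr ⟨q₁, h₁, q₂ * q, mul_mem h₂ hq, by rw [mul_assoc]⟩

/-- `h_12(d) w = w h_01(d) h_12(d)`. -/
theorem h12_w (hb : Base x) (hl2 : Lay2 x) (d : K) (hd : d ≠ 0) :
    stH (x 1 2) (x 2 1) d * stW (x 0 1) (x 1 0) 1 =
      stW (x 0 1) (x 1 0) 1 * (stH (x 0 1) (x 1 0) d * stH (x 1 2) (x 2 1) d) := by
  have e2 := hl2.t2 0 1 2 ne01 ne02 ne12 d hd
  have e1 := hl2.t1 0 1 2 ne01 ne02 ne12 d hd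
  rw [← e1, ← e2]
  group

theorem d5a {K : Type*} [Field K] {k : ℕ} {Γ : Type*} [Group Γ]
    {x : Fin (k + 3) → Fin (k + 3) → K → Γ} (hb : Base x) (hl2 : Lay2 x) (hs : D5SP x) :
    D5aP x := by
  intro s d hd
  have e : stW (x 0 1) (x 1 0) 1 * (x 0 1 s * stH (x 1 2) (x 2 1) d) * stW (x 0 1) (x 1 0) 1 =
      (stW (x 0 1) (x 1 0) 1 * x 0 1 s * stW (x 0 1) (x 1 0) 1 * stH (x 0 1) (x 1 0) d) *
        stH (x 1 2) (x 2 1) d := by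
    calc stW (x 0 1) (x 1 0) 1 * (x 0 1 s * stH (x 1 2) (x 2 1) d) * stW (x 0 1) (x 1 0) 1
        = stW (x 0 1) (x 1 0) 1 * x 0 1 s *
            (stH (x 1 2) (x 2 1) d * stW (x 0 1) (x 1 0) 1) := by group
      _ = _ := by rw [h12_w hb hl2 d hd]; group
  rw [e]
  exact D_mul_Q (hs s d hd) (h12_mem x d)

/-- The group-theoretic core of `D5B`. -/
theorem d5b_core {G : Type*} [Group G] (W V a b e f g : G)
    (F1 : a * W = W * (b * a)) (F2 : V * W = W * (V * W * V⁻¹)) (F3 : W * W = e⁻¹)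
    (F4 : b = e * f) (F5 : W * f = g * W * g⁻¹) :
    W * (V * a) * W =
      ((e⁻¹ * V * e) * g) * W * (g⁻¹ * (f⁻¹ * (e⁻¹ * V⁻¹ * e) * f) * a) := by
  have hcomm : e⁻¹ * W = W * e⁻¹ := by rw [← F3]; group
  calc W * (V * a) * W
      = W * V * (a * W) := by group
    _ = W * V * (W * (b * a)) := by rw [F1]
    _ = W * (V * W) * (b * a) := by group
    _ = W * (W * (V * W * V⁻¹)) * (b * a) := by rw [← F2]
    _ = (W * W) * V * W * V⁻¹ * b * a := by group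
    _ = e⁻¹ * V * W * V⁻¹ * (e * f) * a := by rw [F3, F4]
    _ = (e⁻¹ * V * e) * (e⁻¹ * W) * V⁻¹ * e * f * a := by group
    _ = (e⁻¹ * V * e) * (W * e⁻¹) * V⁻¹ * e * f * a := by rw [hcomm]
    _ = (e⁻¹ * V * e) * (W * f) * (f⁻¹ * (e⁻¹ * V⁻¹ * e) * f) * a := by group
    _ = (e⁻¹ * V * e) * (g * W * g⁻¹) * (f⁻¹ * (e⁻¹ * V⁻¹ * e) * f) * a := by rw [F5]
    _ = _ := by group

theorem d5b {K : Type*} [Field K] {k : ℕ} {Γ : Type*} [Group Γ]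
    {x : Fin (k + 3) → Fin (k + 3) → K → Γ} (hb : Base x) (hl2 : Lay2 x) (h1 : D1P x)
    (h2 : D2P x) : D5bP x := by
  intro d hd
  have hr := hb.rk 0 1 ne01
  have hnd : -d ≠ 0 := neg_ne_zero.mpr hd
  have hn1 : (-1 : K) ≠ 0 := neg_ne_zero.mpr one_ne_zero
  have F1 := h12_w hb hl2 d hd
  have F2 : stW (x 1 2) (x 2 1) 1 * stW (x 0 1) (x 1 0) 1 =
      stW (x 0 1) (x 1 0) 1 *
        (stW (x 1 2) (x 2 1) 1 * stW (x 0 1) (x 1 0) 1 * (stW (x 1 2) (x 2 1) 1)⁻¹) := by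
    rw [← hl2.br 0 1 2 ne01 ne02 ne12]; group
  have F3 := hr.w1_sq
  have F4 : stH (x 0 1) (x 1 0) d = stH (x 0 1) (x 1 0) (-1) * stH (x 0 1) (x 1 0) (-d) := by
    rw [← hb.hm 0 1 ne01 (-1) (-d) hn1 hnd]; congr 1; ring
  have F5 := h2 (-d) hnd
  rw [d5b_core _ _ _ _ _ _ _ F1 F2 F3 F4 F5]
  refine Or.inr ⟨_, mul_mem (h1 (-1) hn1 _ (w12_mem x 1)).2 (h12_mem x (-d)), _,
    mul_mem (mul_mem (inv_mem (h12_mem x (-d)))
      (h1 (-d) hnd _ (h1 (-1) hn1 _ (inv_mem (w12_mem x 1))).2).2) (h12_mem x d), rfl⟩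

/-! ### The rank one part -/

theorem sl2_W00 (t : K) (ht : t ≠ 0) :
    (stW (sl2U : K → Matrix.SpecialLinearGroup (Fin 2) K) sl2L t).1 0 0 = 0 := by
  unfold stW
  simp only [sl2_mul_apply, sl2U_00, sl2U_01, sl2U_10, sl2U_11, sl2L_00, sl2L_01, sl2L_10,
    sl2L_11]
  field_simp
  ring

theorem sl2_W01 (t : K) (ht : t ≠ 0) :
    (stW (sl2U : K → Matrix.SpecialLinearGroup (Fin 2) K) sl2L t).1 0 1 = t := by
  unfold stW
  simp only [sl2_mul_apply, sl2U_00, sl2U_01, sl2U_10, sl2U_11, sl2L_00, sl2L_01, sl2L_10,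
    sl2L_11]
  field_simp
  ring

theorem sl2_W10 (t : K) :
    (stW (sl2U : K → Matrix.SpecialLinearGroup (Fin 2) K) sl2L t).1 1 0 = -t⁻¹ := by
  unfold stW
  simp only [sl2_mul_apply, sl2U_00, sl2U_01, sl2U_10, sl2U_11, sl2L_00, sl2L_01, sl2L_10,
    sl2L_11]
  ring

theorem sl2_W11 (t : K) (ht : t ≠ 0) :
    (stW (sl2U : K → Matrix.SpecialLinearGroup (Fin 2) K) sl2L t).1 1 1 = 0 := by
  unfold stW
  simp only [sl2_mul_apply, sl2U_00, sl2U_01, sl2U_10, sl2U_11, sl2L_00, sl2L_01, sl2L_10,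
    sl2L_11]
  field_simp
  ring

theorem sl2_H00 (c : K) (hc : c ≠ 0) :
    (stH (sl2U : K → Matrix.SpecialLinearGroup (Fin 2) K) sl2L c).1 0 0 = c := by
  have hn1 : (-1 : K) ≠ 0 := neg_ne_zero.mpr one_ne_zero
  unfold stH
  rw [(sl2_stRel (K := K)).w_inv 1, sl2_mul_apply, sl2_W00 c hc, sl2_W01 c hc, sl2_W10,
    sl2_W00 _ hn1]
  simp

theorem sl2_H01 (c : K) (hc : c ≠ 0) :
    (stH (sl2U : K → Matrix.SpecialLinearGroup (Fin 2) K) sl2L c).1 0 1 = 0 := by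
  have hn1 : (-1 : K) ≠ 0 := neg_ne_zero.mpr one_ne_zero
  unfold stH
  rw [(sl2_stRel (K := K)).w_inv 1, sl2_mul_apply, sl2_W00 c hc, sl2_W01 c hc, sl2_W01 _ hn1,
    sl2_W11 _ hn1]
  simp

theorem sl2_H10 (c : K) (hc : c ≠ 0) :
    (stH (sl2U : K → Matrix.SpecialLinearGroup (Fin 2) K) sl2L c).1 1 0 = 0 := by
  have hn1 : (-1 : K) ≠ 0 := neg_ne_zero.mpr one_ne_zero
  unfold stH
  rw [(sl2_stRel (K := K)).w_inv 1, sl2_mul_apply, sl2_W10, sl2_W11 c hc, sl2_W10,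
    sl2_W00 _ hn1]
  simp

theorem sl2_H11 (c : K) (hc : c ≠ 0) :
    (stH (sl2U : K → Matrix.SpecialLinearGroup (Fin 2) K) sl2L c).1 1 1 = c⁻¹ := by
  have hn1 : (-1 : K) ≠ 0 := neg_ne_zero.mpr one_ne_zero
  unfold stH
  rw [(sl2_stRel (K := K)).w_inv 1, sl2_mul_apply, sl2_W10, sl2_W11 c hc, sl2_W01 _ hn1,
    sl2_W11 _ hn1]
  simp

theorem sl2_bruhat (g : Matrix.SpecialLinearGroup (Fin 2) K) :
    (∃ a c : K, c ≠ 0 ∧ g = sl2U a * stH sl2U sl2L c) ∨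
    (∃ a c b : K, c ≠ 0 ∧ g = sl2U a * stH sl2U sl2L c * stW sl2U sl2L 1 * sl2U b) := by
  have hdet := sl2_det g
  have h1 : (1 : K) ≠ 0 := one_ne_zero
  by_cases h10 : g.1 1 0 = 0
  · left
    rw [h10, mul_zero, sub_zero] at hdet
    have h00 : g.1 0 0 ≠ 0 := by
      intro h
      rw [h, zero_mul] at hdet
      exact zero_ne_one hdet
    refine ⟨g.1 0 1 * g.1 0 0, g.1 0 0, h00, ?_⟩
    apply sl2_ext
    · simp only [sl2_mul_apply, sl2U_00, sl2U_01, sl2U_10, sl2U_11, sl2_H00 _ h00,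
        sl2_H01 _ h00, sl2_H10 _ h00, sl2_H11 _ h00]
      ring
    · simp only [sl2_mul_apply, sl2U_00, sl2U_01, sl2U_10, sl2U_11, sl2_H00 _ h00,
        sl2_H01 _ h00, sl2_H10 _ h00, sl2_H11 _ h00]
      field_simp
      ring
    · simp only [sl2_mul_apply, sl2U_00, sl2U_01, sl2U_10, sl2U_11, sl2_H00 _ h00,
        sl2_H01 _ h00, sl2_H10 _ h00, sl2_H11 _ h00]
      rw [h10]; ring
    · simp only [sl2_mul_apply, sl2U_00, sl2U_01, sl2U_10, sl2U_11, sl2_H00 _ h00,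
        sl2_H01 _ h00, sl2_H10 _ h00, sl2_H11 _ h00]
      field_simp
      linear_combination hdet
  · right
    have hc : -(g.1 1 0)⁻¹ ≠ 0 := neg_ne_zero.mpr (inv_ne_zero h10)
    refine ⟨g.1 0 0 / g.1 1 0, -(g.1 1 0)⁻¹, g.1 1 1 / g.1 1 0, hc, ?_⟩
    apply sl2_ext
    · simp only [sl2_mul_apply, sl2U_00, sl2U_01, sl2U_10, sl2U_11, sl2_H00 _ hc,
        sl2_H01 _ hc, sl2_H10 _ hc, sl2_H11 _ hc, sl2_W00 _ h1, sl2_W01 _ h1, sl2_W10,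
        sl2_W11 _ h1]
      field_simp
      ring
    · simp only [sl2_mul_apply, sl2U_00, sl2U_01, sl2U_10, sl2U_11, sl2_H00 _ hc,
        sl2_H01 _ hc, sl2_H10 _ hc, sl2_H11 _ hc, sl2_W00 _ h1, sl2_W01 _ h1, sl2_W10,
        sl2_W11 _ h1]
      field_simp
      linear_combination (-(g.1 1 0)) * hdet
    · simp only [sl2_mul_apply, sl2U_00, sl2U_01, sl2U_10, sl2U_11, sl2_H00 _ hc,
        sl2_H01 _ hc, sl2_H10 _ hc, sl2_H11 _ hc, sl2_W00 _ h1, sl2_W01 _ h1, sl2_W10,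
        sl2_W11 _ h1]
      field_simp
      ring
    · simp only [sl2_mul_apply, sl2U_00, sl2U_01, sl2U_10, sl2U_11, sl2_H00 _ hc,
        sl2_H01 _ hc, sl2_H10 _ hc, sl2_H11 _ hc, sl2_W00 _ h1, sl2_W01 _ h1, sl2_W10,
        sl2_W11 _ h1]
      field_simp
      ring

theorem d5s {K : Type*} [Field K] [Finite K] {k : ℕ} {Γ : Type*} [Group Γ]
    {x : Fin (k + 3) → Fin (k + 3) → K → Γ} (hb : Base x) (h1 : D1P x) (h2 : D2P x) :
    D5SP x := by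
  intro s d hd
  have hr := hb.rk 0 1 ne01
  obtain ⟨φ, hU, hL⟩ := st_exists_hom hr
  have hW : ∀ t, φ (stW sl2U sl2L t) = stW (x 0 1) (x 1 0) t := by
    intro t; unfold stW; rw [map_mul, map_mul, hU, hL]
  have hH : ∀ t, φ (stH sl2U sl2L t) = stH (x 0 1) (x 1 0) t := by
    intro t; unfold stH; rw [map_mul, map_inv, hW, hW]
  have e : stW (x 0 1) (x 1 0) 1 * x 0 1 s * stW (x 0 1) (x 1 0) 1 * stH (x 0 1) (x 1 0) d =
      φ (stW sl2U sl2L 1 * sl2U s * stW sl2U sl2L 1 * stH sl2U sl2L d) := by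
    rw [map_mul, map_mul, map_mul, hW, hU, hH]
  rw [e]
  rcases sl2_bruhat (stW sl2U sl2L 1 * sl2U s * stW sl2U sl2L 1 * stH sl2U sl2L d) with
    ⟨a, c, hc, hg⟩ | ⟨a, c, b, hc, hg⟩
  · rw [hg, map_mul, hU, hH]
    refine Or.inl ⟨c, hc, (stH (x 0 1) (x 1 0) c)⁻¹ * x 0 1 a * stH (x 0 1) (x 1 0) c,
      (h1 c hc _ (x_mem_Qg x ne01 ne01.symm a)).2, by group⟩
  · rw [hg, map_mul, map_mul, map_mul, hU, hH, hW, hU]
    have hci : c⁻¹ ≠ 0 := inv_ne_zero hc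
    have e1 := hr.w1_h hci
    rw [inv_inv] at e1
    have e2 := h2 c⁻¹ hci
    refine Or.inr ⟨x 0 1 a * stH (x 1 2) (x 2 1) c⁻¹,
      mul_mem (x_mem_Qg x ne01 ne01.symm a) (h12_mem x _),
      (stH (x 1 2) (x 2 1) c⁻¹)⁻¹ * x 0 1 b,
      mul_mem (inv_mem (h12_mem x _)) (x_mem_Qg x ne01 ne01.symm b), ?_⟩
    calc x 0 1 a * stH (x 0 1) (x 1 0) c * stW (x 0 1) (x 1 0) 1 * x 0 1 b
        = x 0 1 a * (stW (x 0 1) (x 1 0) 1 * stH (x 0 1) (x 1 0) c⁻¹ *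
            (stW (x 0 1) (x 1 0) 1)⁻¹) * stW (x 0 1) (x 1 0) 1 * x 0 1 b := by rw [e1]
      _ = x 0 1 a * (stW (x 0 1) (x 1 0) 1 * stH (x 0 1) (x 1 0) c⁻¹) * x 0 1 b := by group
      _ = _ := by rw [e2]; group

end Cfsg.Agent.Helper21.SPD5
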