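import Mathlib
import Cfsg.Agent.Helper21.SPDefs

set_option autoImplicit false

namespace Cfsg.Agent.Helper21.SPWT

open Cfsg.Agent.Helper83 Cfsg.Agent.Helper21.SP

variable {K : Type*} [Field K] {n : ℕ} {Γ : Type*} [Group Γ] {x : Fin n → Fin n → K → Γ}

theorem x_zero (hx : StN x) {i j : Fin n} (hij : i ≠ j) : x i j 0 = 1 := by
  have e := hx.add i j hij 0 0
  rw [add_zero] at e
  exact mul_eq_left.mp e

theorem x_inv (hx : StN x) {i j : Fin n} (hij : i ≠ j) (t : K) : (x i j t)⁻¹ = x i j (-t) := by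
  apply inv_eq_of_mul_eq_one_right
  rw [hx.add i j hij, add_neg_cancel, x_zero hx hij]

/-- Conjugation. -/
def cj (g y : Γ) : Γ := g * y * g⁻¹

theorem cj_mul (g h y : Γ) : cj (g * h) y = cj g (cj h y) := by unfold cj; group

theorem cj_prod (g y z : Γ) : cj g (y * z) = cj g y * cj g z := by unfold cj; group

theorem cj_comm (hx : StN x) {i j k l : Fin n} (hij : i ≠ j) (hkl : k ≠ l) (hil : i ≠ l)
    (hjk : j ≠ k) (t u : K) : cj (x i j t) (x k l u) = x k l u := by
  unfold cj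
  rw [hx.comm i j k l hij hkl hil hjk t u, mul_assoc, mul_inv_cancel, mul_one]

theorem cj_rel (hx : StN x) {i j l : Fin n} (hij : i ≠ j) (hjl : j ≠ l) (hil : i ≠ l)
    (t u : K) : cj (x i j t) (x j l u) = x i l (t * u) * x j l u := by
  unfold cj
  rw [← hx.rel i j l hij hjl hil t u]; group

theorem cj_rel' (hx : StN x) {i j l : Fin n} (hij : i ≠ j) (hjl : j ≠ l) (hil : i ≠ l)
    (t u : K) : cj (x j l u) (x i j t) = x i l (-(t * u)) * x i j t := by
  unfold cj
  rw [← x_inv hx hil, ← hx.rel i j l hij hjl hil t u]; group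

theorem w1 (hx : StN x) {i j k : Fin n} (hij : i ≠ j) (hik : i ≠ k) (hjk : j ≠ k) (t u : K)
    (ht : t ≠ 0) :
    stW (x i j) (x j i) t * x i k u * (stW (x i j) (x j i) t)⁻¹ = x j k (-(t⁻¹ * u)) := by
  change cj (x i j t * x j i (-t⁻¹) * x i j t) (x i k u) = _
  rw [cj_mul, cj_mul, cj_comm hx hij hik hik hij.symm, cj_rel hx hij.symm hik hjk, cj_prod,
    cj_rel hx hij hjk hik, cj_comm hx hij hik hik hij.symm,
    hx.comm i k j k hik hjk hik hjk.symm, mul_assoc, hx.add i k hik]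
  have e : t * (-t⁻¹ * u) + u = 0 := by field_simp; ring
  rw [e, x_zero hx hik, mul_one, neg_mul]

theorem w2 (hx : StN x) {i j k : Fin n} (hij : i ≠ j) (hik : i ≠ k) (hjk : j ≠ k) (t u : K)
    (ht : t ≠ 0) :
    stW (x i j) (x j i) t * x j k u * (stW (x i j) (x j i) t)⁻¹ = x i k (t * u) := by
  change cj (x i j t * x j i (-t⁻¹) * x i j t) (x j k u) = _
  rw [cj_mul, cj_mul, cj_rel hx hij hjk hik, cj_prod, cj_rel hx hij.symm hik hjk,
    cj_comm hx hij.symm hjk hjk hij, hx.comm j k i k hjk hik hjk hik.symm, mul_assoc,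
    hx.add j k hjk]
  have e : -t⁻¹ * (t * u) + u = 0 := by field_simp; ring
  rw [e, x_zero hx hjk, mul_one, cj_comm hx hij hik hik hij.symm]

theorem w3 (hx : StN x) {i j k : Fin n} (hij : i ≠ j) (hik : i ≠ k) (hjk : j ≠ k) (t u : K)
    (ht : t ≠ 0) :
    stW (x i j) (x j i) t * x k i u * (stW (x i j) (x j i) t)⁻¹ = x k j (-(t * u)) := by
  change cj (x i j t * x j i (-t⁻¹) * x i j t) (x k i u) = _
  rw [cj_mul, cj_mul, cj_rel' hx hik.symm hij hjk.symm, cj_prod,
    cj_rel' hx hjk.symm hij.symm hik.symm, cj_comm hx hij.symm hik.symm hij.symm hik,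
    hx.comm k i k j hik.symm hjk.symm hjk.symm hik, mul_assoc, hx.add k i hik.symm]
  have e : -(-(u * t) * -t⁻¹) + u = 0 := by field_simp; ring
  rw [e, x_zero hx hik.symm, mul_one, cj_comm hx hij hjk.symm hij hjk, mul_comm u t]

theorem w4 (hx : StN x) {i j k : Fin n} (hij : i ≠ j) (hik : i ≠ k) (hjk : j ≠ k) (t u : K)
    (ht : t ≠ 0) :
    stW (x i j) (x j i) t * x k j u * (stW (x i j) (x j i) t)⁻¹ = x k i (t⁻¹ * u) := by
  change cj (x i j t * x j i (-t⁻¹) * x i j t) (x k j u) = _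
  rw [cj_mul, cj_mul, cj_comm hx hij hjk.symm hij hjk, cj_rel' hx hjk.symm hij.symm hik.symm,
    cj_prod, cj_rel' hx hik.symm hij hjk.symm, cj_comm hx hij hjk.symm hij hjk,
    hx.comm k j k i hjk.symm hik.symm hik.symm hjk, mul_assoc, hx.add k j hjk.symm]
  have e : -(-(u * -t⁻¹) * t) + u = 0 := by field_simp; ring
  have e2 : -(u * -t⁻¹) = t⁻¹ * u := by ring
  rw [e, x_zero hx hjk.symm, mul_one, e2]

theorem w5 (hx : StN x) {i j k l : Fin n} (hij : i ≠ j) (hkl : k ≠ l) (hki : k ≠ i)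
    (hkj : k ≠ j) (hli : l ≠ i) (hlj : l ≠ j) (t u : K) :
    stW (x i j) (x j i) t * x k l u = x k l u * stW (x i j) (x j i) t := by
  unfold stW
  have a := hx.comm i j k l hij hkl hli.symm hkj.symm t u
  have b := hx.comm j i k l hij.symm hkl hlj.symm hki.symm (-t⁻¹) u
  calc x i j t * x j i (-t⁻¹) * x i j t * x k l u
      = x i j t * x j i (-t⁻¹) * (x i j t * x k l u) := by group
    _ = x i j t * (x j i (-t⁻¹) * x k l u) * x i j t := by rw [a]; group
    _ = (x i j t * x k l u) * x j i (-t⁻¹) * x i j t := by rw [b]; group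
    _ = _ := by rw [a]; group

theorem wt_of_stN {K : Type*} [Field K] {n : ℕ} {Γ : Type*} [Group Γ]
    {x : Fin n → Fin n → K → Γ} (hx : StN x) : WT x :=
  ⟨fun _ _ _ hij hik hjk t u ht => w1 hx hij hik hjk t u ht,
   fun _ _ _ hij hik hjk t u ht => w2 hx hij hik hjk t u ht,
   fun _ _ _ hij hik hjk t u ht => w3 hx hij hik hjk t u ht,
   fun _ _ _ hij hik hjk t u ht => w4 hx hij hik hjk t u ht,
   fun _ _ _ _ hij hkl hki hkj hli hlj t u => w5 hx hij hkl hki hkj hli hlj t u⟩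

end Cfsg.Agent.Helper21.SPWT
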