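import Mathlib
import Cfsg.Agent.Helper21.SPDefs
import Cfsg.Agent.Helper21.SPD
import Cfsg.Agent.Helper21.SPD5
import Cfsg.Agent.Helper21.SPT
import Cfsg.Agent.Helper21.SPWT
import Cfsg.Agent.Helper45.SPGENP
import Cfsg.Agent.Helper45.SPQINJ
import Cfsg.Agent.Helper45.SPQSURJ
import Cfsg.Agent.Helper58.SPD4L
import Cfsg.Agent.Helper58.SPPG
import Cfsg.Agent.Helper58.SPQ0
import Cfsg.Agent.Helper58.SPSLST
import Cfsg.Agent.Helper61.SPD4M
import Cfsg.Agent.Helper61.SPMAT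
import Cfsg.Agent.Helper92.SPAL
import Cfsg.Agent.Helper92.SPBETA
import Cfsg.Agent.Helper92.SPPIAL
import Cfsg.Agent.Helper92.SPQCOL
import Cfsg.Agent.Helper99.SPCONJA
import Cfsg.Agent.Helper99.SPHA
import Cfsg.Agent.Helper99.SPHMUL
import Cfsg.Agent.Helper99.SPQFORM
import Cfsg.Agent.Helper99.SPRK1

/-!
# S2401: assembly of the Steinberg presentation of `SL_n`, `n ≥ 3`
-/

set_option autoImplicit false

namespace Cfsg.Agent.Helper21.SPMain

open Cfsg.Agent.Helper83 Cfsg.Agent.Helper21.SP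

theorem base_of_stN {K : Type*} [Field K] [Finite K] {n : ℕ} (hn : 3 ≤ n) {Γ : Type*} [Group Γ]
    {x : Fin n → Fin n → K → Γ} (hx : StN x) : Base x := by
  have hw := Cfsg.Agent.Helper21.SPWT.wt_of_stN hx
  have hr := fun i j hij => Cfsg.Agent.Helper99.SPRK1.rk_of_wt hn hx hw i j hij
  exact ⟨hx, hw, hr, Cfsg.Agent.Helper99.SPHA.ha_of_wt hx hw hr,
    fun i j hij t u ht hu => Cfsg.Agent.Helper99.SPHMUL.stRel_h_mul (hr i j hij) ht hu⟩

theorem lay2_of_base {K : Type*} [Field K] {n : ℕ} {Γ : Type*} [Group Γ]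
    {x : Fin n → Fin n → K → Γ} (hb : Base x) : Lay2 x :=
  ⟨Cfsg.Agent.Helper21.SPT.t1_of_base hb, Cfsg.Agent.Helper21.SPT.t2_of_base hb, Cfsg.Agent.Helper21.SPT.br_of_base hb⟩

section Step

variable {K : Type*} [Field K] {k : ℕ} {Γ : Type*} [Group Γ]
  {x : Fin (k + 3) → Fin (k + 3) → K → Γ}
  {π : Γ →* Matrix.SpecialLinearGroup (Fin (k + 3)) K}
  {ψ : Matrix.SpecialLinearGroup (Fin (k + 2)) K →* Γ}

theorem lay3_of_ctx (hc : Ctx x π ψ) : Lay3 x π ψ :=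
  ⟨Cfsg.Agent.Helper92.SPAL.alpha_add hc.base.st, Cfsg.Agent.Helper92.SPAL.alpha_single hc.base.st,
    Cfsg.Agent.Helper99.SPCONJA.conjA hc.base.st hc.hψ (Cfsg.Agent.Helper92.SPAL.alpha_add hc.base.st) (Cfsg.Agent.Helper92.SPAL.alpha_single hc.base.st),
    Cfsg.Agent.Helper92.SPPIAL.pi_alpha hc.hπ, Cfsg.Agent.Helper92.SPBETA.beta hc.hπ hc.hψ⟩

theorem qf_of_ctx (hc : Ctx x π ψ) : QF x π := by
  have hl := lay3_of_ctx hc
  have hform := Cfsg.Agent.Helper99.SPQFORM.q_form hc hl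
  exact ⟨Cfsg.Agent.Helper45.SPQINJ.q_inj hc hl hform, Cfsg.Agent.Helper45.SPQSURJ.q_surj hc hl (Cfsg.Agent.Helper99.SPQFORM.q_mem hc hl), Cfsg.Agent.Helper92.SPQCOL.q_col hc.hπ,
    Cfsg.Agent.Helper58.SPQ0.q_zero hc hl hform (Cfsg.Agent.Helper45.SPGENP.gen_p k)⟩

theorem ne01 : (0 : Fin (k + 3)) ≠ 1 := by
  intro h; have := congrArg Fin.val h; simp at this

theorem ne02 : (0 : Fin (k + 3)) ≠ 2 := by
  intro h; have := congrArg Fin.val h; simp at this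
  rw [Nat.mod_eq_of_lt (by omega)] at this; omega

theorem ne12 : (1 : Fin (k + 3)) ≠ 2 := by
  intro h; have := congrArg Fin.val h; simp at this
  rw [Nat.mod_eq_of_lt (by omega)] at this; omega

omit [Field K] in
theorem x_mem_Qg (x : Fin (k + 3) → Fin (k + 3) → K → Γ) {i j : Fin (k + 3)} (hij : i ≠ j)
    (hj : j ≠ 0) (t : K) : x i j t ∈ Qg x :=
  Subgroup.subset_closure ⟨i, j, t, hij, hj, rfl⟩

theorem w12_mem (x : Fin (k + 3) → Fin (k + 3) → K → Γ) (t : K) :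
    stW (x 1 2) (x 2 1) t ∈ Qg x := by
  unfold stW
  exact mul_mem (mul_mem (x_mem_Qg x ne12 ne02.symm _) (x_mem_Qg x ne12.symm ne01.symm _))
    (x_mem_Qg x ne12 ne02.symm _)

theorem h12_mem (x : Fin (k + 3) → Fin (k + 3) → K → Γ) (c : K) :
    stH (x 1 2) (x 2 1) c ∈ Qg x := by
  unfold stH
  exact mul_mem (w12_mem x _) (inv_mem (w12_mem x _))

theorem D_mul_Q {g q : Γ} (hg : g ∈ Dset x) (hq : q ∈ Qg x) : g * q ∈ Dset x := by
  rcases hg with ⟨c, hc, q', hq', rfl⟩ | ⟨q₁, h₁, q₂, h₂, rfl⟩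
  · exact Or.inl ⟨c, hc, q' * q, mul_mem hq' hq, by rw [mul_assoc]⟩
  · exact Or.inr ⟨q₁, h₁, q₂ * q, mul_mem h₂ hq, by rw [mul_assoc]⟩

theorem Q_mul_D (h1 : D1P x) {g q : Γ} (hq : q ∈ Qg x) (hg : g ∈ Dset x) : q * g ∈ Dset x := by
  rcases hg with ⟨c, hc, q', hq', rfl⟩ | ⟨q₁, h₁, q₂, h₂, rfl⟩
  · refine Or.inl ⟨c, hc, (stH (x 0 1) (x 1 0) c)⁻¹ * q * stH (x 0 1) (x 1 0) c * q',
      mul_mem (h1 c hc q hq).2 hq', by group⟩
  · exact Or.inr ⟨q * q₁, mul_mem hq h₁, q₂, h₂, by group⟩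

theorem w_mul_D (h1 : D1P x) (h2 : D2P x) (h3 : D3P x) (h4 : D4P x) (h5a : D5aP x)
    (h5b : D5bP x) {g : Γ} (hg : g ∈ Dset x) : stW (x 0 1) (x 1 0) 1 * g ∈ Dset x := by
  rcases hg with ⟨c, hc, q', hq', rfl⟩ | ⟨q₁, h₁, q₂, h₂, rfl⟩
  · refine Or.inr ⟨stH (x 1 2) (x 2 1) c, h12_mem x c, (stH (x 1 2) (x 2 1) c)⁻¹ * q',
      mul_mem (inv_mem (h12_mem x c)) hq', ?_⟩
    rw [← mul_assoc, h2 c hc]; group
  · rcases h4 q₁ h₁ with ⟨s, d, hd, q₀, hq₀, rfl⟩ | ⟨d, hd, q₀, hq₀, q₀', hq₀', rfl⟩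
    · have e : stW (x 0 1) (x 1 0) 1 *
          (x 0 1 s * stH (x 1 2) (x 2 1) d * q₀ * stW (x 0 1) (x 1 0) 1 * q₂) =
          (stW (x 0 1) (x 1 0) 1 * (x 0 1 s * stH (x 1 2) (x 2 1) d) * stW (x 0 1) (x 1 0) 1) *
            ((stW (x 0 1) (x 1 0) 1)⁻¹ * q₀ * stW (x 0 1) (x 1 0) 1 * q₂) := by group
      rw [e]
      exact D_mul_Q (h5a s d hd) (mul_mem (h3 q₀ hq₀).2 h₂)
    · have e : stW (x 0 1) (x 1 0) 1 *
          (q₀ * stW (x 1 2) (x 2 1) 1 * stH (x 1 2) (x 2 1) d * q₀' * stW (x 0 1) (x 1 0) 1 * q₂) =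
          (stW (x 0 1) (x 1 0) 1 * q₀ * (stW (x 0 1) (x 1 0) 1)⁻¹) *
          ((stW (x 0 1) (x 1 0) 1 * (stW (x 1 2) (x 2 1) 1 * stH (x 1 2) (x 2 1) d) *
            stW (x 0 1) (x 1 0) 1) *
            ((stW (x 0 1) (x 1 0) 1)⁻¹ * q₀' * stW (x 0 1) (x 1 0) 1 * q₂)) := by group
      rw [e]
      exact Q_mul_D h1 (h3 q₀ hq₀).1 (D_mul_Q (h5b d hd) (mul_mem (h3 q₀' hq₀').2 h₂))

theorem w_inv_eq (hb : Base x) :
    (stW (x 0 1) (x 1 0) 1)⁻¹ =
      stW (x 0 1) (x 1 0) 1 * (stW (x 0 1) (x 1 0) 1 * stW (x 0 1) (x 1 0) 1) := by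
  have hr := hb.rk 0 1 ne01
  have e1 := hr.w1_sq
  have e2 := hb.hm 0 1 ne01 (-1) (-1) (neg_ne_zero.mpr one_ne_zero) (neg_ne_zero.mpr one_ne_zero)
  rw [neg_mul_neg, one_mul, hr.h_one] at e2
  have e3 : stW (x 0 1) (x 1 0) 1 * stW (x 0 1) (x 1 0) 1 *
      (stW (x 0 1) (x 1 0) 1 * stW (x 0 1) (x 1 0) 1) = 1 := by
    rw [e1, ← mul_inv_rev, ← e2, inv_one]
  apply inv_eq_of_mul_eq_one_right
  rw [← mul_assoc]
  exact e3

theorem D_univ (hb : Base x) (h1 : D1P x) (h2 : D2P x) (h3 : D3P x) (h4 : D4P x)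
    (h5a : D5aP x) (h5b : D5bP x)
    (h6 : Subgroup.closure ((Qg x : Set Γ) ∪ {stW (x 0 1) (x 1 0) 1}) = ⊤) (g : Γ) :
    g ∈ Dset x := by
  have hw : ∀ d ∈ Dset x, stW (x 0 1) (x 1 0) 1 * d ∈ Dset x :=
    fun d hd => w_mul_D h1 h2 h3 h4 h5a h5b hd
  have key : ∀ g ∈ Subgroup.closure ((Qg x : Set Γ) ∪ {stW (x 0 1) (x 1 0) 1}),
      (∀ d ∈ Dset x, g * d ∈ Dset x) ∧ (∀ d ∈ Dset x, g⁻¹ * d ∈ Dset x) := by
    intro g hg
    induction hg using Subgroup.closure_induction with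
    | mem y hy =>
      rcases hy with hy | hy
      · exact ⟨fun d hd => Q_mul_D h1 hy hd, fun d hd => Q_mul_D h1 (inv_mem hy) hd⟩
      · rw [Set.mem_singleton_iff] at hy
        subst hy
        refine ⟨hw, fun d hd => ?_⟩
        rw [w_inv_eq hb, mul_assoc, mul_assoc]
        exact hw _ (hw _ (hw _ hd))
    | one => exact ⟨fun d hd => by rwa [one_mul], fun d hd => by rwa [inv_one, one_mul]⟩
    | mul a b _ _ ha hb' =>
      refine ⟨fun d hd => ?_, fun d hd => ?_⟩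
      · rw [mul_assoc]; exact ha.1 _ (hb'.1 d hd)
      · rw [mul_inv_rev, mul_assoc]; exact hb'.2 _ (ha.2 d hd)
    | inv a _ ha => exact ⟨ha.2, fun d hd => by rw [inv_inv]; exact ha.1 d hd⟩
  have h1D : (1 : Γ) ∈ Dset x :=
    Or.inl ⟨1, one_ne_zero, 1, one_mem _, by rw [(hb.rk 0 1 ne01).h_one, one_mul]⟩
  have := (key g (by rw [h6]; trivial)).1 1 h1D
  rwa [mul_one] at this

theorem pi_stW (hπ : ∀ i j, i ≠ j → ∀ t, π (x i j t) = tv i j t) {i j : Fin (k + 3)}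
    (hij : i ≠ j) (t : K) : π (stW (x i j) (x j i) t) = stW (tv i j) (tv j i) t := by
  unfold stW
  rw [map_mul, map_mul, hπ i j hij, hπ j i hij.symm]

theorem pi_stH (hπ : ∀ i j, i ≠ j → ∀ t, π (x i j t) = tv i j t) {i j : Fin (k + 3)}
    (hij : i ≠ j) (t : K) : π (stH (x i j) (x j i) t) = stH (tv i j) (tv j i) t := by
  unfold stH
  rw [map_mul, map_inv, pi_stW hπ hij, pi_stW hπ hij]

/-- The inductive step: `π` is injective. -/
theorem step [Finite K] (hc : Ctx x π ψ)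
    (hgen : Subgroup.closure {g | ∃ i j t, i ≠ j ∧ g = x i j t} = ⊤) :
    Function.Injective π := by
  have hb := hc.base
  have hl2 := lay2_of_base hb
  have hq := qf_of_ctx hc
  have h1 := Cfsg.Agent.Helper21.SPD.d1 hb
  have h2 := Cfsg.Agent.Helper21.SPD.d2 hb
  have h3 := Cfsg.Agent.Helper21.SPD.d3 hb
  have h4 := Cfsg.Agent.Helper58.SPD4L.d4l hc.hπ hq (Cfsg.Agent.Helper61.SPD4M.d4m K k)
  have h5s := Cfsg.Agent.Helper21.SPD5.d5s hb h1 h2
  have h5a := Cfsg.Agent.Helper21.SPD5.d5a hb hl2 h5s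
  have h5b := Cfsg.Agent.Helper21.SPD5.d5b hb hl2 h1 h2
  have h6 := Cfsg.Agent.Helper21.SPD.d6 hb hgen
  rw [injective_iff_map_eq_one]
  intro g hg
  rcases D_univ hb h1 h2 h3 h4 h5a h5b h6 g with ⟨c, hc0, q, hq', rfl⟩ | ⟨q₁, hq₁, q₂, hq₂, rfl⟩
  · have hcol := hq.qcol q hq'
    have e00 : ((π (stH (x 0 1) (x 1 0) c * q) : Matrix.SpecialLinearGroup (Fin (k + 3)) K) :
        Matrix (Fin (k + 3)) (Fin (k + 3)) K) 0 0 = c := by
      rw [map_mul, pi_stH hc.hπ ne01, Matrix.SpecialLinearGroup.coe_mul, Matrix.mul_apply]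
      have : ∀ a, ((stH (tv 0 1) (tv 1 0) c : Matrix.SpecialLinearGroup (Fin (k + 3)) K) :
          Matrix (Fin (k + 3)) (Fin (k + 3)) K) 0 a *
          ((π q : Matrix.SpecialLinearGroup (Fin (k + 3)) K) :
            Matrix (Fin (k + 3)) (Fin (k + 3)) K) a 0 =
          if a = 0 then c else 0 := by
        intro a
        rw [hcol a, Cfsg.Agent.Helper61.SPMAT.mat_h 0 1 ne01 c hc0]
        by_cases ha : a = 0
        · subst ha
          simp [Matrix.diagonal, Function.update]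
        · simp [ha]
      simp [this]
    rw [hg] at e00
    have hc1 : c = 1 := by rw [← e00]; simp
    subst hc1
    rw [(hb.rk 0 1 ne01).h_one, one_mul] at hg ⊢
    exact hq.qinj q hq' hg
  · exfalso
    have e : π (stW (x 0 1) (x 1 0) 1) = π (q₁⁻¹ * q₂⁻¹) := by
      rw [map_mul, map_mul] at hg
      rw [map_mul, map_inv, map_inv]
      calc π (stW (x 0 1) (x 1 0) 1)
          = (π q₁)⁻¹ * (π q₁ * π (stW (x 0 1) (x 1 0) 1) * π q₂) * (π q₂)⁻¹ := by group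
        _ = _ := by rw [hg, mul_one]
    have hcol := hq.qcol _ (mul_mem (inv_mem hq₁) (inv_mem hq₂)) 0
    rw [← e, pi_stW hc.hπ ne01, Cfsg.Agent.Helper61.SPMAT.mat_w 0 1 ne01] at hcol
    simp at hcol

end Step

section Pres

universe u

variable {K : Type u} [Field K]

theorem stN_succ {m : ℕ} {Γ : Type*} [Group Γ] {x : Fin (m + 1) → Fin (m + 1) → K → Γ}
    (hx : StN x) : StN (fun (i j : Fin m) (t : K) => x (Fin.succ i) (Fin.succ j) t) where
  add := fun i j hij t u => hx.add _ _ (fun h => hij (Fin.succ_injective _ h)) t u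
  comm := fun i j k l hij hkl hil hjk t u =>
    hx.comm _ _ _ _ (fun h => hij (Fin.succ_injective _ h)) (fun h => hkl (Fin.succ_injective _ h))
      (fun h => hil (Fin.succ_injective _ h)) (fun h => hjk (Fin.succ_injective _ h)) t u
  rel := fun i j l hij hjl hil t u =>
    hx.rel _ _ _ (fun h => hij (Fin.succ_injective _ h)) (fun h => hjl (Fin.succ_injective _ h))
      (fun h => hil (Fin.succ_injective _ h)) t u

theorem tv01 (t : K) : (tv (0 : Fin 2) 1 t : Matrix.SpecialLinearGroup (Fin 2) K) = sl2U t := by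
  apply Subtype.ext
  ext a b
  fin_cases a <;> fin_cases b <;>
    simp [tv, Matrix.SpecialLinearGroup.transvection, Matrix.transvection, sl2U]

theorem tv10 (t : K) : (tv (1 : Fin 2) 0 t : Matrix.SpecialLinearGroup (Fin 2) K) = sl2L t := by
  apply Subtype.ext
  ext a b
  fin_cases a <;> fin_cases b <;>
    simp [tv, Matrix.SpecialLinearGroup.transvection, Matrix.transvection, sl2L]

/-- The presentation, given the homomorphism `ψ` from `SL_{n-1}`. -/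
theorem pres_of_psi [Finite K] (k : ℕ)
    (ψ : Matrix.SpecialLinearGroup (Fin (k + 2)) K →* PresentedGroup (rels (k + 3) K))
    (hψ : ∀ i j, i ≠ j → ∀ t, ψ (tv i j t) = xP (k + 3) K (Fin.succ i) (Fin.succ j) t) :
    ∃ e : PresentedGroup (rels (k + 3) K) ≃* Matrix.SpecialLinearGroup (Fin (k + 3)) K,
      ∀ i j, i ≠ j → ∀ t, e (xP (k + 3) K i j t) = tv i j t := by
  obtain ⟨π, hπ⟩ := Cfsg.Agent.Helper58.SPPG.xP_lift (K := K) (k + 3) tv (Cfsg.Agent.Helper58.SPSLST.tv_stN (k + 3))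
  have hb : Base (xP (k + 3) K) := base_of_stN (by omega) (Cfsg.Agent.Helper58.SPPG.xP_stN (k + 3))
  have hc : Ctx (xP (k + 3) K) π ψ := ⟨hb, hπ, hψ⟩
  have hinj := step hc (Cfsg.Agent.Helper58.SPPG.xP_gen (k + 3))
  have hsurj : Function.Surjective π := by
    intro M
    refine Cfsg.Agent.Helper5.SL_transvection_induction (fun M => ∃ g, π g = M) ?_ ?_ M
    · intro i j hij a
      exact ⟨xP (k + 3) K i j a, by rw [hπ i j hij, tv, dif_pos hij]⟩
    · rintro A B ⟨a, rfl⟩ ⟨b, rfl⟩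
      exact ⟨a * b, map_mul _ _ _⟩
  exact ⟨MulEquiv.ofBijective π ⟨hinj, hsurj⟩, hπ⟩

/-- The Steinberg presentation of `SL_{k+3}` over a finite field. -/
theorem pres [Finite K] (k : ℕ) :
    ∃ e : PresentedGroup (rels (k + 3) K) ≃* Matrix.SpecialLinearGroup (Fin (k + 3)) K,
      ∀ i j, i ≠ j → ∀ t, e (xP (k + 3) K i j t) = tv i j t := by
  induction k with
  | zero =>
    have hb : Base (xP 3 K) := base_of_stN (le_refl 3) (Cfsg.Agent.Helper58.SPPG.xP_stN 3)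
    have h12 : (1 : Fin 3) ≠ 2 := by decide
    obtain ⟨φ, hU, hL⟩ := st_exists_hom (hb.rk 1 2 h12)
    refine pres_of_psi 0 φ ?_
    intro i j hij t
    fin_cases i <;> fin_cases j
    · exact absurd rfl hij
    · have := hU t
      rw [← tv01] at this
      exact this
    · have := hL t
      rw [← tv10] at this
      exact this
    · exact absurd rfl hij
  | succ k ih =>
    obtain ⟨e, he⟩ := ih
    obtain ⟨f, hf⟩ := Cfsg.Agent.Helper58.SPPG.xP_lift (K := K) (k + 3)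
      (fun (i j : Fin (k + 3)) (t : K) => xP (k + 1 + 3) K (Fin.succ i) (Fin.succ j) t)
      (stN_succ (Cfsg.Agent.Helper58.SPPG.xP_stN (k + 1 + 3)))
    refine pres_of_psi (k + 1) (f.comp e.symm.toMonoidHom) ?_
    intro i j hij t
    have e1 : e.symm (tv i j t) = xP (k + 3) K i j t := by
      rw [← he i j hij t, MulEquiv.symm_apply_apply]
    change f (e.symm (tv i j t)) = _
    rw [e1, hf i j hij t]

/-- The presentation in the form of the statement S2401. -/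
theorem pres_final [Finite K] (k : ℕ) :
    ∃ e : PresentedGroup (rels (k + 3) K) ≃* Matrix.SpecialLinearGroup (Fin (k + 3)) K,
      ∀ (a : {ij : Fin (k + 3) × Fin (k + 3) // ij.1 ≠ ij.2}) (t : K),
        ((e (PresentedGroup.of (a, t)) : Matrix (Fin (k + 3)) (Fin (k + 3)) K)) =
          Matrix.transvection a.1.1 a.1.2 t := by
  obtain ⟨e, he⟩ := pres (K := K) k
  refine ⟨e, fun a t => ?_⟩
  have h := he a.1.1 a.1.2 a.2 t
  have h1 : xP (k + 3) K a.1.1 a.1.2 t = PresentedGroup.of (a, t) := by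
    unfold xP
    rw [dif_pos a.2]
  rw [h1] at h
  rw [h]
  unfold tv
  rw [dif_pos a.2]
  rfl

end Pres

end Cfsg.Agent.Helper21.SPMain
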