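import Mathlib
import Cfsg.Agent.Helper21.SPMain

/-!
# Central extensions of `SL_n(F_q)` split (towards S2086): shared definitions

`tv i j t` is the elementary matrix `1 + t E_ij` (`Cfsg.Agent.Helper21.SP.tv`), `SP.StN` the Steinberg
relations.  `hh i j c` is the torus element `diag(c, c⁻¹)` in positions `i, j`, `ww i j` the Weyl
element, `cm a b = a b a⁻¹ b⁻¹`.
-/

set_option autoImplicit false

namespace Cfsg.Agent.Helper21.SM

open Cfsg.Agent.Helper83 Cfsg.Agent.Helper21.SP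

variable {F : Type*} [Field F] {n : ℕ} {E : Type*} [Group E] {G : Type*} [Group G]

/-- The commutator `a b a⁻¹ b⁻¹`. -/
def cm (a b : E) : E := a * b * a⁻¹ * b⁻¹

/-- A central extension `π : E → G`. -/
structure CE (π : E →* G) : Prop where
  surj : Function.Surjective π
  cent : ∀ z, π z = 1 → ∀ g, z * g = g * z

/-- Lifts of commuting elementary matrices commute. -/
def FP (π : E →* Matrix.SpecialLinearGroup (Fin n) F) : Prop :=
  ∀ i j k l : Fin n, i ≠ j → k ≠ l → j ≠ k → i ≠ l → ∀ (t u : F) (a b : E),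
    π a = tv i j t → π b = tv k l u → a * b = b * a

/-- A chosen lift. -/
noncomputable def lft {π : E →* G} (hπ : CE π) (g : G) : E := Classical.choose (hπ.surj g)

theorem pi_lft {π : E →* G} (hπ : CE π) (g : G) : π (lft hπ g) = g :=
  Classical.choose_spec (hπ.surj g)

theorem pi_cm (π : E →* G) (a b : E) : π (cm a b) = cm (π a) (π b) := by
  simp [cm]

/-- The commutator of two lifts does not depend on the lifts. -/
theorem l0 {π : E →* G} (hπ : CE π) {a a' b b' : E} (ha : π a = π a') (hb : π b = π b') :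
    cm a b = cm a' b' := by
  have hz1 : π (a'⁻¹ * a) = 1 := by rw [map_mul, map_inv, ha, inv_mul_cancel]
  have hz2 : π (b'⁻¹ * b) = 1 := by rw [map_mul, map_inv, hb, inv_mul_cancel]
  have c1 := hπ.cent _ hz1
  have c2 := hπ.cent _ hz2
  have ea : a = a' * (a'⁻¹ * a) := by group
  have eb : b = b' * (b'⁻¹ * b) := by group
  generalize a'⁻¹ * a = z1 at c1 ea
  generalize b'⁻¹ * b = z2 at c2 eb
  subst ea eb
  unfold cm
  have k1 : z1 * b' = b' * z1 := c1 b'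
  have k2 : z1 * z2 = z2 * z1 := c1 z2
  have k3 : z2 * a' = a' * z2 := c2 a'
  have k4 : z2 * b' = b' * z2 := c2 b'
  have k5 : z1 * a' = a' * z1 := c1 a'
  calc a' * z1 * (b' * z2) * (a' * z1)⁻¹ * (b' * z2)⁻¹
      = a' * (z1 * b') * z2 * z1⁻¹ * a'⁻¹ * z2⁻¹ * b'⁻¹ := by group
    _ = a' * b' * (z1 * z2) * z1⁻¹ * a'⁻¹ * z2⁻¹ * b'⁻¹ := by rw [k1]; group
    _ = a' * b' * z2 * a'⁻¹ * z2⁻¹ * b'⁻¹ := by rw [k2]; group
    _ = a' * b' * (z2 * a'⁻¹ * z2⁻¹) * b'⁻¹ := by group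
    _ = a' * b' * a'⁻¹ * b'⁻¹ := by
        have : z2 * a'⁻¹ * z2⁻¹ = a'⁻¹ := by
          rw [mul_inv_eq_iff_eq_mul]
          have := c2 a'⁻¹
          exact this
        rw [this]

/-- The commutator identity behind Milnor's argument. -/
theorem gi (u v w : E) (h1 : u * w = w * u) (h2 : cm v w * w = w * cm v w)
    (h3 : cm v w * cm u v = cm u v * cm v w) : cm u (cm v w) = cm (cm u v) w := by
  -- u r u⁻¹ = p r w p⁻¹ w⁻¹ where p = cm u v, r = cm v w
  have e1 : u * cm v w * u⁻¹ = cm u v * cm v w * w * (cm u v)⁻¹ * w⁻¹ := by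
    have hw : u * w * u⁻¹ = w := by rw [h1]; group
    have hw' : u * w⁻¹ * u⁻¹ = w⁻¹ := by
      have : u * w⁻¹ * u⁻¹ = (u * w * u⁻¹)⁻¹ := by group
      rw [this, hw]
    calc u * cm v w * u⁻¹ = (u * v * u⁻¹) * (u * w * u⁻¹) * (u * v⁻¹ * u⁻¹) * (u * w⁻¹ * u⁻¹) := by
          unfold cm; group
      _ = (u * v * u⁻¹) * w * (u * v⁻¹ * u⁻¹) * w⁻¹ := by rw [hw, hw']
      _ = cm u v * cm v w * w * (cm u v)⁻¹ * w⁻¹ := by unfold cm; group
  have h2' : cm v w * w⁻¹ = w⁻¹ * cm v w := by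
    have : w⁻¹ * (cm v w * w) * w⁻¹ = w⁻¹ * (w * cm v w) * w⁻¹ := by rw [h2]
    calc cm v w * w⁻¹ = w⁻¹ * (w * cm v w) * w⁻¹ := by group
      _ = w⁻¹ * (cm v w * w) * w⁻¹ := by rw [h2]
      _ = w⁻¹ * cm v w := by group
  have h3' : cm v w * (cm u v)⁻¹ = (cm u v)⁻¹ * cm v w := by
    calc cm v w * (cm u v)⁻¹ = (cm u v)⁻¹ * (cm u v * cm v w) * (cm u v)⁻¹ := by group
      _ = (cm u v)⁻¹ * (cm v w * cm u v) * (cm u v)⁻¹ := by rw [h3]
      _ = (cm u v)⁻¹ * cm v w := by group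
  generalize cm u v = p at *
  generalize hr : cm v w = r at *
  calc cm u r = (u * r * u⁻¹) * r⁻¹ := by unfold cm; group
    _ = p * r * w * p⁻¹ * w⁻¹ * r⁻¹ := by rw [e1]
    _ = p * (r * w) * p⁻¹ * w⁻¹ * r⁻¹ := by group
    _ = p * w * (r * p⁻¹) * w⁻¹ * r⁻¹ := by rw [h2]; group
    _ = p * w * p⁻¹ * (r * w⁻¹) * r⁻¹ := by rw [h3']; group
    _ = p * w * p⁻¹ * w⁻¹ := by rw [h2']; group
    _ = cm p w := by unfold cm; rfl

/-- The torus element `diag(c, c⁻¹)` in positions `i, j`. -/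
noncomputable def hh (i j : Fin n) (c : F) : Matrix.SpecialLinearGroup (Fin n) F :=
  stH (tv i j) (tv j i) c

/-- The Weyl element in positions `i, j`. -/
noncomputable def ww (i j : Fin n) : Matrix.SpecialLinearGroup (Fin n) F :=
  stW (tv i j) (tv j i) 1

theorem tvBase [Finite F] (hn : 3 ≤ n) :
    Base (tv : Fin n → Fin n → F → Matrix.SpecialLinearGroup (Fin n) F) :=
  Cfsg.Agent.Helper21.SPMain.base_of_stN hn (Cfsg.Agent.Helper58.SPSLST.tv_stN n)

section Tor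

variable [Finite F] (hn : 3 ≤ n)
include hn

theorem tor_ij {i j : Fin n} (hij : i ≠ j) {c : F} (hc : c ≠ 0) (u : F) :
    hh i j c * tv i j u * (hh i j c)⁻¹ = tv i j (c ^ 2 * u) :=
  ((tvBase hn).rk i j hij).hX hc u

theorem tor_ji {i j : Fin n} (hij : i ≠ j) {c : F} (hc : c ≠ 0) (u : F) :
    hh i j c * tv j i u * (hh i j c)⁻¹ = tv j i (c⁻¹ ^ 2 * u) :=
  ((tvBase hn).rk i j hij).hY hc u

theorem tor_ik {i j k : Fin n} (hij : i ≠ j) (hik : i ≠ k) (hjk : j ≠ k) {c : F} (hc : c ≠ 0)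
    (u : F) : hh i j c * tv i k u * (hh i j c)⁻¹ = tv i k (c * u) :=
  (tvBase hn).ha.h1 i j k hij hik hjk c u hc

theorem tor_jk {i j k : Fin n} (hij : i ≠ j) (hik : i ≠ k) (hjk : j ≠ k) {c : F} (hc : c ≠ 0)
    (u : F) : hh i j c * tv j k u * (hh i j c)⁻¹ = tv j k (c⁻¹ * u) :=
  (tvBase hn).ha.h2 i j k hij hik hjk c u hc

theorem tor_ki {i j k : Fin n} (hij : i ≠ j) (hik : i ≠ k) (hjk : j ≠ k) {c : F} (hc : c ≠ 0)
    (u : F) : hh i j c * tv k i u * (hh i j c)⁻¹ = tv k i (c⁻¹ * u) :=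
  (tvBase hn).ha.h3 i j k hij hik hjk c u hc

theorem tor_kj {i j k : Fin n} (hij : i ≠ j) (hik : i ≠ k) (hjk : j ≠ k) {c : F} (hc : c ≠ 0)
    (u : F) : hh i j c * tv k j u * (hh i j c)⁻¹ = tv k j (c * u) :=
  (tvBase hn).ha.h4 i j k hij hik hjk c u hc

theorem tor_kl {i j k l : Fin n} (hij : i ≠ j) (hkl : k ≠ l) (hki : k ≠ i) (hkj : k ≠ j)
    (hli : l ≠ i) (hlj : l ≠ j) (c u : F) : hh i j c * tv k l u = tv k l u * hh i j c :=
  (tvBase hn).ha.h5 i j k l hij hkl hki hkj hli hlj c u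

theorem wey1 {i j k : Fin n} (hij : i ≠ j) (hik : i ≠ k) (hjk : j ≠ k) (u : F) :
    ww i j * tv i k u * (ww i j)⁻¹ = tv j k (-u) := by
  have h := (tvBase (F := F) hn).wt.w1 i j k hij hik hjk 1 u one_ne_zero
  simpa [ww] using h

theorem wey2 {i j k : Fin n} (hij : i ≠ j) (hik : i ≠ k) (hjk : j ≠ k) (u : F) :
    ww i j * tv j k u * (ww i j)⁻¹ = tv i k u := by
  have h := (tvBase (F := F) hn).wt.w2 i j k hij hik hjk 1 u one_ne_zero
  simpa [ww] using h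

theorem wey3 {i j k : Fin n} (hij : i ≠ j) (hik : i ≠ k) (hjk : j ≠ k) (u : F) :
    ww i j * tv k i u * (ww i j)⁻¹ = tv k j (-u) := by
  have h := (tvBase (F := F) hn).wt.w3 i j k hij hik hjk 1 u one_ne_zero
  simpa [ww] using h

theorem wey4 {i j k : Fin n} (hij : i ≠ j) (hik : i ≠ k) (hjk : j ≠ k) (u : F) :
    ww i j * tv k j u * (ww i j)⁻¹ = tv k i u := by
  have h := (tvBase (F := F) hn).wt.w4 i j k hij hik hjk 1 u one_ne_zero
  simpa [ww] using h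

end Tor

end Cfsg.Agent.Helper21.SM
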