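import Mathlib
import Cfsg.Prelude.Def_KGroupFacts
import Cfsg.Agent.Helper21.SMDefs
import Cfsg.Agent.Helper66.Schur

set_option autoImplicit false

namespace Cfsg.Agent.Helper21.SMTRIV

open Cfsg.Agent.Helper21.SM

universe u

/-- PIECE TRIV: a finite group all of whose central extensions split has trivial Schur multiplier. -/
theorem sm_triv {Q : Type u} [Group Q] [Finite Q]
    (hsec : ∀ (Γ : Type u) [Group Γ] (σ : Γ →* Q), CE σ → ∃ s : Q →* Γ, ∀ g, σ (s g) = g) :
    Cfsg.HasCyclicSchurMultiplier Q 1 := by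
  apply Cfsg.Agent.Helper66.hasCyclicSchurMultiplier_one_of_forall_ker
  intro Γ _ _ σ hσ
  obtain ⟨hsurj, hcen, hcomm⟩ := hσ
  have hCE : CE σ := ⟨hsurj, fun z hz g => (Subgroup.mem_center_iff.mp (hcen hz) g).symm⟩
  obtain ⟨s, hs⟩ := hsec Γ σ hCE
  have hcr : commutator Γ ≤ s.range := by
    rw [commutator_eq_closure, Subgroup.closure_le]
    rintro g ⟨a, b, rfl⟩
    have h0 := l0 hCE (a := a) (a' := s (σ a)) (b := b) (b' := s (σ b)) (by rw [hs]) (by rw [hs])
    refine ⟨σ a * σ b * (σ a)⁻¹ * (σ b)⁻¹, ?_⟩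
    rw [commutatorElement_def]
    simp only [map_mul, map_inv]
    exact h0.symm
  rw [eq_bot_iff]
  intro z hz
  obtain ⟨q, rfl⟩ := hcr (hcomm hz)
  have h1 : q = 1 := by
    have h2 := hs q
    rw [MonoidHom.mem_ker.mp hz] at h2
    exact h2.symm
  rw [h1, map_one]
  exact Subgroup.mem_bot.mpr rfl

end Cfsg.Agent.Helper21.SMTRIV
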