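import Mathlib

set_option autoImplicit false

/-!
# Subgroups isomorphic to a dihedral group (helper21)

`S ≤ X` with `e : S ≃* DihedralGroup m`: the rotation subgroup `rot e`, its basic properties,
generation of `S` by two involutions, the central involution.
-/

namespace Cfsg.Agent.Helper21

namespace Dih

open DihedralGroup

variable {X : Type*} [Group X] {S : Subgroup X} {m : ℕ}

/-- The rotation subgroup of `S ≃* DihedralGroup m`, as a subgroup of the ambient group. -/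
def rot (e : ↥S ≃* DihedralGroup m) : Subgroup X where
  carrier := {x | ∃ h : x ∈ S, ∃ i, e ⟨x, h⟩ = r i}
  mul_mem' := by
    rintro a b ⟨ha, i, hi⟩ ⟨hb, j, hj⟩
    refine ⟨S.mul_mem ha hb, i + j, ?_⟩
    have : (⟨a * b, S.mul_mem ha hb⟩ : S) = ⟨a, ha⟩ * ⟨b, hb⟩ := rfl
    rw [this, map_mul, hi, hj, r_mul_r]
  one_mem' := ⟨S.one_mem, 0, by
    have : (⟨1, S.one_mem⟩ : S) = 1 := rfl
    rw [this, map_one]; rfl⟩
  inv_mem' := by
    rintro a ⟨ha, i, hi⟩
    refine ⟨S.inv_mem ha, -i, ?_⟩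
    have : (⟨a⁻¹, S.inv_mem ha⟩ : S) = ⟨a, ha⟩⁻¹ := rfl
    rw [this, map_inv, hi, inv_r]

variable (e : ↥S ≃* DihedralGroup m)

theorem mem_rot {x : X} : x ∈ rot e ↔ ∃ h : x ∈ S, ∃ i, e ⟨x, h⟩ = r i := Iff.rfl

theorem rot_le : rot e ≤ S := fun _ hx => hx.1

theorem cases_mem {x : X} (hx : x ∈ S) :
    (∃ i, e ⟨x, hx⟩ = r i) ∨ (∃ i, e ⟨x, hx⟩ = sr i) := by
  cases h : e ⟨x, hx⟩ with
  | r i => exact Or.inl ⟨i, rfl⟩
  | sr i => exact Or.inr ⟨i, rfl⟩

theorem not_mem_rot_iff {x : X} (hx : x ∈ S) : x ∉ rot e ↔ ∃ i, e ⟨x, hx⟩ = sr i := by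
  constructor
  · intro h
    rcases cases_mem e hx with ⟨i, hi⟩ | ⟨i, hi⟩
    · exact absurd ⟨hx, i, hi⟩ h
    · exact ⟨i, hi⟩
  · rintro ⟨i, hi⟩ ⟨_, j, hj⟩
    rw [hi] at hj
    cases hj

/-- The element of `S` corresponding to `y`. -/
def lift (y : DihedralGroup m) : X := ((e.symm y : ↥S) : X)

theorem lift_mem (y : DihedralGroup m) : lift e y ∈ S := (e.symm y).2

theorem e_lift (y : DihedralGroup m) : e ⟨lift e y, lift_mem e y⟩ = y := e.apply_symm_apply y

theorem lift_mul (y y' : DihedralGroup m) : lift e (y * y') = lift e y * lift e y' := by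
  unfold lift
  rw [map_mul]; rfl

theorem lift_one : lift e 1 = 1 := by
  unfold lift
  rw [map_one]; rfl

theorem lift_inv (y : DihedralGroup m) : lift e y⁻¹ = (lift e y)⁻¹ := by
  unfold lift
  rw [map_inv]; rfl

theorem lift_pow (y : DihedralGroup m) (k : ℕ) : lift e (y ^ k) = lift e y ^ k := by
  unfold lift
  rw [map_pow]; rfl

theorem lift_injective : Function.Injective (lift e) := by
  intro y y' h
  exact e.symm.injective (Subtype.ext h)

theorem eq_lift {x : X} (hx : x ∈ S) : x = lift e (e ⟨x, hx⟩) := by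
  unfold lift
  rw [e.symm_apply_apply]

theorem lift_r_mem (i : ZMod m) : lift e (r i) ∈ rot e :=
  ⟨lift_mem e _, i, e_lift e _⟩

theorem lift_sr_not_mem (i : ZMod m) : lift e (sr i) ∉ rot e :=
  (not_mem_rot_iff e (lift_mem e _)).mpr ⟨i, e_lift e _⟩

theorem mem_rot_iff_lift {x : X} : x ∈ rot e ↔ ∃ i, x = lift e (r i) := by
  constructor
  · rintro ⟨hx, i, hi⟩
    exact ⟨i, by rw [← hi]; exact eq_lift e hx⟩
  · rintro ⟨i, rfl⟩
    exact lift_r_mem e i

theorem not_mem_rot_iff_lift {x : X} (hx : x ∈ S) : x ∉ rot e ↔ ∃ i, x = lift e (sr i) := by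
  rw [not_mem_rot_iff e hx]
  constructor
  · rintro ⟨i, hi⟩
    exact ⟨i, by rw [← hi]; exact eq_lift e hx⟩
  · rintro ⟨i, hi⟩
    refine ⟨i, ?_⟩
    have : (⟨x, hx⟩ : ↥S) = e.symm (sr i) := Subtype.ext hi
    rw [this, e.apply_symm_apply]

/-- The rotation subgroup has index 2 in `S`. -/
theorem rot_relIndex : (rot e).relIndex S = 2 := by
  rw [Subgroup.relIndex_eq_two_iff]
  refine ⟨lift e (sr 0), lift_mem e _, ?_⟩
  intro b hb
  by_cases hbr : b ∈ rot e
  · refine Or.inr ⟨hbr, ?_⟩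
    obtain ⟨i, rfl⟩ := (mem_rot_iff_lift e).mp hbr
    rw [← lift_mul, r_mul_sr]
    exact lift_sr_not_mem e _
  · refine Or.inl ⟨?_, hbr⟩
    obtain ⟨i, rfl⟩ := (not_mem_rot_iff_lift e hb).mp hbr
    rw [← lift_mul, sr_mul_sr]
    exact lift_r_mem e _

/-- Elements of `S` outside the rotation subgroup are involutions. -/
theorem mul_self_of_not_mem {x : X} (hx : x ∈ S) (hxr : x ∉ rot e) : x * x = 1 := by
  obtain ⟨i, rfl⟩ := (not_mem_rot_iff_lift e hx).mp hxr
  rw [← lift_mul, sr_mul_self, lift_one]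

theorem inv_mul_mem_of_not_mem {x y : X} (hx : x ∈ S) (hy : y ∈ S) (hxr : x ∉ rot e)
    (hyr : y ∉ rot e) : x⁻¹ * y ∈ rot e := by
  obtain ⟨i, rfl⟩ := (not_mem_rot_iff_lift e hx).mp hxr
  obtain ⟨j, rfl⟩ := (not_mem_rot_iff_lift e hy).mp hyr
  rw [← lift_inv, ← lift_mul, inv_sr, sr_mul_sr]
  exact lift_r_mem e _

theorem rot_comm {a b : X} (ha : a ∈ rot e) (hb : b ∈ rot e) : a * b = b * a := by
  obtain ⟨i, rfl⟩ := (mem_rot_iff_lift e).mp ha
  obtain ⟨j, rfl⟩ := (mem_rot_iff_lift e).mp hb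
  rw [← lift_mul, ← lift_mul, r_mul_r, r_mul_r, add_comm]

/-- Outer elements invert rotations. -/
theorem conj_rot {x c : X} (hx : x ∈ S) (hxr : x ∉ rot e) (hc : c ∈ rot e) :
    x * c * x⁻¹ = c⁻¹ := by
  obtain ⟨i, rfl⟩ := (not_mem_rot_iff_lift e hx).mp hxr
  obtain ⟨j, rfl⟩ := (mem_rot_iff_lift e).mp hc
  rw [← lift_inv, ← lift_mul, ← lift_mul, ← lift_inv, inv_sr, sr_mul_r, sr_mul_sr, inv_r]
  congr 2
  ring

theorem rot_eq_zpowers [NeZero m] : rot e = Subgroup.zpowers (lift e (r 1)) := by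
  apply le_antisymm
  · intro x hx
    obtain ⟨i, rfl⟩ := (mem_rot_iff_lift e).mp hx
    rw [Subgroup.mem_zpowers_iff]
    refine ⟨(i.val : ℤ), ?_⟩
    rw [zpow_natCast, ← lift_pow, r_one_pow, ZMod.natCast_zmod_val]
  · rw [Subgroup.zpowers_le]
    exact lift_r_mem e 1

theorem rot_isCyclic [NeZero m] : IsCyclic ↥(rot e) := by
  rw [rot_eq_zpowers e]
  infer_instance

/-- A nontrivial element of `ZMod m` of additive order two is unique. -/
theorem zmod_two_torsion_unique [NeZero m] {i j : ZMod m} (hi : i + i = 0) (hi0 : i ≠ 0)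
    (hj : j + j = 0) (hj0 : j ≠ 0) : i = j := by
  have key : ∀ k : ZMod m, k + k = 0 → k ≠ 0 → k.val + k.val = m := by
    intro k hk hk0
    have h1 : (k + k).val = 0 := by rw [hk, ZMod.val_zero]
    rw [ZMod.val_add] at h1
    have h2 : k.val < m := ZMod.val_lt k
    have h3 : k.val ≠ 0 := fun h => hk0 ((ZMod.val_eq_zero k).mp h)
    have h4 : m ∣ k.val + k.val := Nat.dvd_of_mod_eq_zero h1
    obtain ⟨c, hc⟩ := h4
    have hc1 : c = 1 := by
      rcases c with _ | _ | c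
      · omega
      · rfl
      · exfalso
        have : m * (c + 1 + 1) ≥ m * 2 := Nat.mul_le_mul_left m (by omega)
        omega
    rw [hc1, mul_one] at hc
    exact hc
  have h1 := key i hi hi0
  have h2 := key j hj hj0
  apply ZMod.val_injective
  omega

/-- The rotation subgroup has at most one involution. -/
theorem rot_involution_unique [NeZero m] {a b : X} (ha : a ∈ rot e) (hb : b ∈ rot e)
    (ha2 : a * a = 1) (ha1 : a ≠ 1) (hb2 : b * b = 1) (hb1 : b ≠ 1) : a = b := by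
  obtain ⟨i, rfl⟩ := (mem_rot_iff_lift e).mp ha
  obtain ⟨j, rfl⟩ := (mem_rot_iff_lift e).mp hb
  rw [← lift_mul, r_mul_r, ← lift_one e] at ha2 hb2
  have hi := lift_injective e ha2
  have hj := lift_injective e hb2
  rw [one_def] at hi hj
  have hi' : i + i = 0 := by injection hi
  have hj' : j + j = 0 := by injection hj
  have hi0 : i ≠ 0 := by
    rintro rfl
    exact ha1 (by rw [r_zero, lift_one])
  have hj0 : j ≠ 0 := by
    rintro rfl
    exact hb1 (by rw [r_zero, lift_one])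
  rw [zmod_two_torsion_unique hi' hi0 hj' hj0]

/-- `S` is generated by two involutions. -/
theorem le_of_lift_sr_mem [NeZero m] {H : Subgroup X} (h0 : lift e (sr 0) ∈ H)
    (h1 : lift e (sr 1) ∈ H) : S ≤ H := by
  have hr1 : lift e (r 1) ∈ H := by
    have : (r 1 : DihedralGroup m) = sr 0 * sr 1 := by rw [sr_mul_sr, sub_zero]
    rw [this, lift_mul]
    exact H.mul_mem h0 h1
  have hrot : rot e ≤ H := by
    rw [rot_eq_zpowers e, Subgroup.zpowers_le]
    exact hr1
  intro x hx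
  by_cases hxr : x ∈ rot e
  · exact hrot hxr
  · have := inv_mul_mem_of_not_mem e (lift_mem e (sr 0)) hx (lift_sr_not_mem e 0) hxr
    have h2 := H.mul_mem h0 (hrot this)
    rwa [mul_inv_cancel_left] at h2

theorem orderOf_lift (y : DihedralGroup m) : orderOf (lift e y) = orderOf y := by
  have h1 : orderOf (lift e y) = orderOf (e.symm y) := Subgroup.orderOf_coe (e.symm y)
  rw [h1]
  exact e.symm.orderOf_eq y

theorem orderOf_lift_sr (i : ZMod m) : orderOf (lift e (sr i)) = 2 := by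
  rw [orderOf_lift, orderOf_sr]

/-- The half-turn. -/
theorem half_add_half {m : ℕ} (hm : Even m) : ((m / 2 : ℕ) : ZMod m) + ((m / 2 : ℕ) : ZMod m) = 0 := by
  obtain ⟨k, hk⟩ := hm
  have : m / 2 = k := by omega
  rw [this, ← Nat.cast_add, ← hk, ZMod.natCast_self]

theorem half_ne_zero {m : ℕ} (hm2 : 2 ≤ m) : ((m / 2 : ℕ) : ZMod m) ≠ 0 := by
  intro h
  rw [ZMod.natCast_eq_zero_iff] at h
  have h1 : 0 < m / 2 := Nat.div_pos hm2 (by norm_num)
  have h2 : m / 2 < m := Nat.div_lt_self (by omega) (by norm_num)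
  exact absurd (Nat.le_of_dvd h1 h) (by omega)

/-- The central involution of `S` (for even `m ≥ 2`). -/
theorem exists_central_involution (hm : Even m) (hm2 : 2 ≤ m) :
    ∃ z ∈ rot e, orderOf z = 2 ∧ ∀ x ∈ S, x * z = z * x := by
  have hne : NeZero m := ⟨by omega⟩
  refine ⟨lift e (r ((m / 2 : ℕ) : ZMod m)), lift_r_mem e _, ?_, ?_⟩
  · apply orderOf_eq_prime
    · rw [sq, ← lift_mul, r_mul_r, half_add_half hm, r_zero, lift_one]
    · intro h
      rw [← lift_one e] at h
      have h2 := lift_injective e h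
      rw [one_def] at h2
      injection h2 with h3
      exact half_ne_zero hm2 h3
  · intro x hx
    by_cases hxr : x ∈ rot e
    · exact rot_comm e hxr (lift_r_mem e _)
    · obtain ⟨i, rfl⟩ := (not_mem_rot_iff_lift e hx).mp hxr
      rw [← lift_mul, ← lift_mul, sr_mul_r, r_mul_sr]
      congr 2
      have := half_add_half hm
      linear_combination this

end Dih

end Cfsg.Agent.Helper21
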