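import Mathlib
import Cfsg.Agent.Helper21.Basic
import Cfsg.Agent.Helper21.Dih
import Cfsg.Agent.Helper21.Four

set_option autoImplicit false

/-!
# Odd automorphisms of subgroups of dihedral 2-groups (helper21)

An element of odd order normalizing a subgroup `P` of a dihedral 2-group centralizes `P`, unless
`P` is a four-group.
-/

namespace Cfsg.Agent.Helper21

namespace DihAut

variable {X : Type*} [Group X]

/-- An element of `N(P)` whose order is prime to `|Aut P|` centralizes `P`. -/
theorem mem_centralizer_of_coprime [Finite X] {P : Subgroup X} {g : X}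
    (hg : g ∈ Subgroup.normalizer (P : Set X))
    (hco : (orderOf g).Coprime (Nat.card (MulAut ↥P))) : g ∈ Subgroup.centralizer (P : Set X) := by
  have h1 : orderOf (P.normalizerMonoidHom ⟨g, hg⟩) ∣ orderOf g := by
    have := orderOf_map_dvd P.normalizerMonoidHom (⟨g, hg⟩ : Subgroup.normalizer (P : Set X))
    rwa [Subgroup.orderOf_mk] at this
  have h2 : orderOf (P.normalizerMonoidHom ⟨g, hg⟩) ∣ Nat.card (MulAut ↥P) := orderOf_dvd_natCard _
  have h3 : orderOf (P.normalizerMonoidHom ⟨g, hg⟩) = 1 :=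
    Nat.eq_one_of_dvd_coprimes hco h1 h2
  rw [orderOf_eq_one_iff, ← MonoidHom.mem_ker, Subgroup.normalizerMonoidHom_ker,
    Subgroup.mem_subgroupOf] at h3
  exact h3

/-- An element of odd order normalizing a cyclic 2-subgroup centralizes it. -/
theorem mem_centralizer_of_isCyclic [Finite X] {P : Subgroup X} (hP : IsPGroup 2 P)
    (hcyc : IsCyclic ↥P) {g : X} (hg : g ∈ Subgroup.normalizer (P : Set X))
    (hodd : (orderOf g).Coprime 2) : g ∈ Subgroup.centralizer (P : Set X) := by
  have : Fact (Nat.Prime 2) := ⟨Nat.prime_two⟩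
  apply mem_centralizer_of_coprime hg
  obtain ⟨a, ha⟩ := IsPGroup.iff_card.mp hP
  rw [IsCyclic.card_mulAut, ha]
  rcases Nat.eq_zero_or_pos a with rfl | ha0
  · rw [pow_zero, Nat.totient_one]
    exact Nat.coprime_one_right _
  · rw [Nat.totient_prime_pow Nat.prime_two ha0]
    exact Nat.Coprime.mul_right (Nat.Coprime.pow_right _ hodd) (by norm_num)

/-- If `g` acts on `P` like an element `s` of 2-power order, and `g` has odd order, then `g`
centralizes `P`. -/
theorem mem_centralizer_of_eq_two_elt [Finite X] {P : Subgroup X} {g s : X}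
    (hg : g ∈ Subgroup.normalizer (P : Set X)) (hs : s ∈ Subgroup.normalizer (P : Set X))
    (hodd : (orderOf g).Coprime 2) {b : ℕ} (hsb : orderOf s = 2 ^ b)
    (hgs : ∀ x ∈ P, g * x * g⁻¹ = s * x * s⁻¹) : g ∈ Subgroup.centralizer (P : Set X) := by
  have heq : P.normalizerMonoidHom ⟨g, hg⟩ = P.normalizerMonoidHom ⟨s, hs⟩ := by
    apply MulEquiv.ext
    intro x
    apply Subtype.ext
    exact hgs x.1 x.2
  have h1 : orderOf (P.normalizerMonoidHom ⟨g, hg⟩) ∣ orderOf g := by
    have := orderOf_map_dvd P.normalizerMonoidHom (⟨g, hg⟩ : Subgroup.normalizer (P : Set X))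
    rwa [Subgroup.orderOf_mk] at this
  have h2 : orderOf (P.normalizerMonoidHom ⟨g, hg⟩) ∣ 2 ^ b := by
    rw [heq, ← hsb]
    have := orderOf_map_dvd P.normalizerMonoidHom (⟨s, hs⟩ : Subgroup.normalizer (P : Set X))
    rwa [Subgroup.orderOf_mk] at this
  have h3 : orderOf (P.normalizerMonoidHom ⟨g, hg⟩) = 1 :=
    Nat.eq_one_of_dvd_coprimes (Nat.Coprime.pow_right _ hodd) h1 h2
  rw [orderOf_eq_one_iff, ← MonoidHom.mem_ker, Subgroup.normalizerMonoidHom_ker,
    Subgroup.mem_subgroupOf] at h3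
  exact h3

theorem conj_eq_of_mem_centralizer {P : Subgroup X} {g x : X}
    (hg : g ∈ Subgroup.centralizer (P : Set X)) (hx : x ∈ P) : g * x * g⁻¹ = x := by
  have := (Subgroup.mem_centralizer_iff.mp hg) x hx
  rw [← this, mul_inv_cancel_right]

theorem mem_centralizer_of_conj_eq {P : Subgroup X} {g : X}
    (h : ∀ x ∈ P, g * x * g⁻¹ = x) : g ∈ Subgroup.centralizer (P : Set X) := by
  rw [Subgroup.mem_centralizer_iff]
  intro x hx
  have := h x hx
  calc x * g = (g * x * g⁻¹) * g := by rw [this]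
    _ = g * x := by group

variable {S : Subgroup X} {m : ℕ}

/-- A subgroup of the rotation subgroup is cyclic. -/
theorem isCyclic_of_le_rot [NeZero m] (e : ↥S ≃* DihedralGroup m) {C : Subgroup X}
    (hC : C ≤ Dih.rot e) : IsCyclic ↥C := by
  have := Dih.rot_isCyclic e
  have h1 : IsCyclic ↥(C.subgroupOf (Dih.rot e)) := inferInstance
  exact isCyclic_of_surjective (Subgroup.subgroupOfEquivOfLe hC).toMonoidHom
    (Subgroup.subgroupOfEquivOfLe hC).surjective

/-- The key lemma: odd-order elements of `N(P)` centralize `P ≤ S` (dihedral 2-group), provided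
this holds for the four-subgroups of `S`. -/
theorem odd_centralizes [Finite X] (hS : IsPGroup 2 S) [NeZero m] (e : ↥S ≃* DihedralGroup m)
    (hfour : ∀ U : Subgroup X, U ≤ S → IsKleinFour U → ∀ g ∈ Subgroup.normalizer (U : Set X),
      (orderOf g).Coprime 2 → g ∈ Subgroup.centralizer (U : Set X))
    {P : Subgroup X} (hP : P ≤ S) {g : X} (hg : g ∈ Subgroup.normalizer (P : Set X))
    (hodd : (orderOf g).Coprime 2) : g ∈ Subgroup.centralizer (P : Set X) := by
  have : Fact (Nat.Prime 2) := ⟨Nat.prime_two⟩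
  have hP2 : IsPGroup 2 P := hS.to_le hP
  by_cases hcyc : IsCyclic ↥P
  · exact mem_centralizer_of_isCyclic hP2 hcyc hg hodd
  have hgP : ∀ x ∈ P, g * x * g⁻¹ ∈ P := fun x hx => (Subgroup.mem_normalizer_iff.mp hg x).mp hx
  by_cases hex : ∃ c₀ ∈ P, c₀ * c₀ ≠ 1
  · -- case II
    obtain ⟨c₀, hc₀P, hc₀⟩ := hex
    have hsqR : ∀ x ∈ P, x * x ≠ 1 → x ∈ Dih.rot e := by
      intro x hx hx2
      by_contra hxr
      exact hx2 (Dih.mul_self_of_not_mem e (hP hx) hxr)
    have hc₀R := hsqR c₀ hc₀P hc₀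
    have hconj_sq : ∀ x : X, x * x ≠ 1 → (g * x * g⁻¹) * (g * x * g⁻¹) ≠ 1 := by
      intro x hx h
      apply hx
      have e1 : (g * x * g⁻¹) * (g * x * g⁻¹) = g * (x * x) * g⁻¹ := by group
      rw [e1] at h
      have : x * x = g⁻¹ * (g * (x * x) * g⁻¹) * g := by group
      rw [this, h]; group
    have hCn : g ∈ Subgroup.normalizer ((P ⊓ Dih.rot e : Subgroup X) : Set X) := by
      apply mem_normalizer_of_conj_mem
      rintro c ⟨hcP, hcR⟩
      refine ⟨hgP c hcP, ?_⟩
      by_cases hc2 : c * c = 1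
      · have hd2 : (c * c₀) * (c * c₀) ≠ 1 := by
          have : (c * c₀) * (c * c₀) = (c * c) * (c₀ * c₀) := by
            rw [mul_assoc, ← mul_assoc c₀, Dih.rot_comm e hc₀R hcR]; group
          rw [this, hc2, one_mul]
          exact hc₀
        have h1 := hsqR _ (hgP _ (P.mul_mem hcP hc₀P)) (hconj_sq _ hd2)
        have h2 := hsqR _ (hgP _ hc₀P) (hconj_sq _ hc₀)
        have : g * c * g⁻¹ = (g * (c * c₀) * g⁻¹) * (g * c₀ * g⁻¹)⁻¹ := by group
        rw [this]
        exact Subgroup.mul_mem _ h1 (Subgroup.inv_mem _ h2)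
      · exact hsqR _ (hgP c hcP) (hconj_sq c hc2)
    have hCcyc : IsCyclic ↥(P ⊓ Dih.rot e) := isCyclic_of_le_rot e inf_le_right
    have hCcent := mem_centralizer_of_isCyclic (hP2.to_le inf_le_left) hCcyc hCn hodd
    apply mem_centralizer_of_conj_eq
    intro t ht
    by_cases htR : t ∈ Dih.rot e
    · exact conj_eq_of_mem_centralizer hCcent ⟨ht, htR⟩
    · have ht'P := hgP t ht
      have ht'R : g * t * g⁻¹ ∉ Dih.rot e := by
        intro h
        have h1 : g * t * g⁻¹ ∈ P ⊓ Dih.rot e := ⟨ht'P, h⟩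
        have h2 := (Subgroup.mem_normalizer_iff.mp hCn t).mpr h1
        exact htR h2.2
      have hcR := Dih.inv_mul_mem_of_not_mem e (hP ht) (hP ht'P) htR ht'R
      have hcP : t⁻¹ * (g * t * g⁻¹) ∈ P := P.mul_mem (P.inv_mem ht) ht'P
      have hcfix' := conj_eq_of_mem_centralizer hCcent (⟨hcP, hcR⟩ : _ ∈ P ⊓ Dih.rot e)
      obtain ⟨c, hcdef⟩ : ∃ c : X, c = t⁻¹ * (g * t * g⁻¹) := ⟨_, rfl⟩
      rw [← hcdef] at hcfix' hcP
      have hgt : g * t * g⁻¹ = t * c := by rw [hcdef]; group
      have hpow : ∀ j : ℕ, g ^ j * t * (g ^ j)⁻¹ = t * c ^ j := by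
        intro j
        induction j with
        | zero => simp
        | succ j ih =>
          have e1 : g ^ (j + 1) * t * (g ^ (j + 1))⁻¹ = g * (g ^ j * t * (g ^ j)⁻¹) * g⁻¹ := by
            rw [pow_succ']; group
          rw [e1, ih]
          have e2 : g * (t * c ^ j) * g⁻¹ = (g * t * g⁻¹) * (g * c * g⁻¹) ^ j := by
            rw [conj_pow]; group
          rw [e2, hcfix', hgt, pow_succ', mul_assoc]
      have h1 := hpow (orderOf g)
      rw [pow_orderOf_eq_one, one_mul, inv_one, mul_one] at h1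
      have h2 : c ^ orderOf g = 1 := by
        have : t * c ^ orderOf g = t * 1 := by rw [mul_one]; exact h1.symm
        exact mul_left_cancel this
      have h3 : orderOf c ∣ orderOf g := orderOf_dvd_of_pow_eq_one h2
      obtain ⟨b, hb⟩ := (IsPGroup.iff_orderOf.mp hP2) ⟨_, hcP⟩
      rw [Subgroup.orderOf_mk] at hb
      have h4 : orderOf c = 1 :=
        Nat.eq_one_of_dvd_coprimes (Nat.Coprime.pow_right b hodd) h3 (by rw [hb])
      rw [orderOf_eq_one_iff] at h4
      rw [hgt, h4, mul_one]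
  · -- case III
    push Not at hex
    have hcardC : Nat.card ↥(P ⊓ Dih.rot e) ≤ 2 := by
      have hCcyc : IsCyclic ↥(P ⊓ Dih.rot e) := isCyclic_of_le_rot e inf_le_right
      rw [← IsCyclic.exponent_eq_card]
      apply Nat.le_of_dvd (by norm_num)
      apply Monoid.exponent_dvd_of_forall_pow_eq_one
      intro x
      apply Subtype.ext
      rw [sq]
      exact hex x.1 x.2.1
    have hidx : (P ⊓ Dih.rot e).relIndex P ≤ 2 := by
      rw [Subgroup.inf_relIndex_left, ← Dih.rot_relIndex e]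
      apply Subgroup.relIndex_le_of_le_right hP
      rw [Dih.rot_relIndex e]
      norm_num
    have hcardP : Nat.card P ≤ 4 := by
      have h1 := Subgroup.card_mul_index ((P ⊓ Dih.rot e).subgroupOf P)
      have h2 : Nat.card ((P ⊓ Dih.rot e).subgroupOf P) = Nat.card ↥(P ⊓ Dih.rot e) :=
        Nat.card_congr (Subgroup.subgroupOfEquivOfLe inf_le_left).toEquiv
      rw [h2] at h1
      have h3 : ((P ⊓ Dih.rot e).subgroupOf P).index ≤ 2 := hidx
      calc Nat.card P = Nat.card ↥(P ⊓ Dih.rot e) * ((P ⊓ Dih.rot e).subgroupOf P).index := h1.symm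
        _ ≤ 2 * 2 := Nat.mul_le_mul hcardC h3
    obtain ⟨a, ha⟩ := IsPGroup.iff_card.mp hP2
    have hc4 : Nat.card P = 4 := by
      rcases a with _ | _ | _ | a
      · exfalso
        apply hcyc
        have : Subsingleton ↥P := (Nat.card_eq_one_iff_unique.mp (by rw [ha, pow_zero])).1
        exact isCyclic_of_subsingleton
      · exfalso
        apply hcyc
        exact isCyclic_of_prime_card (p := 2) (by rw [ha]; norm_num)
      · rw [ha]; norm_num
      · exfalso
        rw [ha] at hcardP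
        have : 2 ^ (a + 1 + 1 + 1) = 8 * 2 ^ a := by ring
        have h1 : 1 ≤ 2 ^ a := Nat.one_le_two_pow
        omega
    exact hfour P hP (Four.isKleinFour_of hc4 hex) g hg hodd

end DihAut

end Cfsg.Agent.Helper21
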