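import Mathlib.GroupTheory.Transfer
import Mathlib.GroupTheory.Focal

set_option autoImplicit false

/-!
# Transfer evaluation lemma (helper21)

`transfer_eq_pow_of_key`: if every conjugate `g₀⁻¹ g^k g₀` lying in `H` is sent by `ϕ : H →* A`
to `a ^ k`, then the transfer of `g` is `a ^ [G : H]`.
-/

namespace Cfsg.Agent.Helper21

open MulAction Subgroup

/-- Evaluation of the transfer: if `ϕ (g₀⁻¹ g^k g₀) = a ^ k` whenever the conjugate lies in `H`,
then `transfer ϕ g = a ^ [G : H]`. -/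
theorem transfer_eq_pow_of_key {G : Type*} [Group G] {H : Subgroup G} {A : Type*} [CommGroup A]
    (ϕ : H →* A) [H.FiniteIndex] (g : G) (a : A)
    (key : ∀ (k : ℕ) (g₀ : G) (h : g₀⁻¹ * g ^ k * g₀ ∈ H), ϕ ⟨g₀⁻¹ * g ^ k * g₀, h⟩ = a ^ k) :
    MonoidHom.transfer ϕ g = a ^ H.index := by
  classical
  have : Fintype (Quotient (MulAction.orbitRel (zpowers g) (G ⧸ H))) := Fintype.ofFinite _
  rw [index_eq_sum_minimalPeriod H g, ← Finset.prod_pow_eq_pow_sum,
    MonoidHom.transfer_eq_prod_quotient_orbitRel_zpowers_quot]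
  apply Finset.prod_congr rfl
  intro q _
  exact key _ _ _

end Cfsg.Agent.Helper21
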