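import Mathlib
import Cfsg.Agent.Helper21.Transfer

set_option autoImplicit false

/-!
# Transfer into an abelian Sylow 2-subgroup (helper21)

* `exists_index_two_of_hom`: a nontrivial homomorphism to a finite 2-group gives a subgroup of
  index 2.
* `prod_parity`: parity bookkeeping for products in an index-2 situation.
* `exists_index_two_of_conj_not_mem`: `S` an abelian Sylow 2-subgroup, `W ≤ Ω ≤ S` with
  `W` "of index 2" in `Ω`, `Ω` invariant under `N_G(S)`, `t ∈ Ω` an involution none of whose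
  `N_G(S)`-conjugates lies in `W`.  Then `G` has a subgroup of index 2.
-/

namespace Cfsg.Agent.Helper21

open MulAction Subgroup

theorem exists_index_two_of_hom {G A : Type*} [Group G] [Group A] [Finite A] (hA : IsPGroup 2 A)
    (V : G →* A) {g : G} (hg : V g ≠ 1) : ∃ H : Subgroup G, H.index = 2 := by
  have hI : IsPGroup 2 V.range := hA.to_subgroup _
  have : Fact (Nat.Prime 2) := ⟨Nat.prime_two⟩
  obtain ⟨m, hm⟩ := IsPGroup.iff_card.mp hI
  have hm0 : m ≠ 0 := by
    rintro rfl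
    rw [pow_zero, Nat.card_eq_one_iff_unique] at hm
    have := hm.1
    have h1 : (⟨V g, ⟨g, rfl⟩⟩ : V.range) = 1 := Subsingleton.elim _ _
    exact hg (congrArg Subtype.val h1)
  obtain ⟨K, hK⟩ := Sylow.exists_subgroup_card_pow_prime 2 (n := m - 1) (G := V.range)
    (by rw [hm]; exact pow_dvd_pow 2 (Nat.sub_le m 1))
  have hidx : K.index = 2 := by
    have h1 := K.card_mul_index
    rw [hK, hm] at h1
    have h2 : 2 ^ m = 2 ^ (m - 1) * 2 := by
      rw [← pow_succ]; congr 1; omega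
    rw [h2] at h1
    exact Nat.eq_of_mul_eq_mul_left (by positivity) h1
  refine ⟨K.comap V.rangeRestrict, ?_⟩
  rw [Subgroup.index_comap_of_surjective _ V.rangeRestrict_surjective, hidx]

theorem prod_parity {A ι : Type*} [CommGroup A] (Ω W : Subgroup A)
    (hidx : ∀ a ∈ Ω, ∀ b ∈ Ω, (a * b ∈ W ↔ (a ∈ W ↔ b ∈ W)))
    (s : Finset ι) (c : ι → A) (m : ι → ℕ)
    (h : ∀ i ∈ s, c i ∈ Ω ∧ (c i ∈ W ↔ Even (m i))) :
    ∏ i ∈ s, c i ∈ Ω ∧ (∏ i ∈ s, c i ∈ W ↔ Even (∑ i ∈ s, m i)) := by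
  classical
  induction s using Finset.induction_on with
  | empty => simp
  | insert i s hi ih =>
    rw [Finset.prod_insert hi, Finset.sum_insert hi]
    obtain ⟨h1, h2⟩ := ih (fun j hj => h j (Finset.mem_insert_of_mem hj))
    obtain ⟨h3, h4⟩ := h i (Finset.mem_insert_self i s)
    refine ⟨Ω.mul_mem h3 h1, ?_⟩
    rw [hidx _ h3 _ h1, Nat.even_add, h4, h2]

theorem exists_index_two_of_conj_not_mem {G : Type*} [Group G] [Finite G] (S : Sylow 2 G)
    (hS : IsMulCommutative (S : Subgroup G)) (Ω W : Subgroup G) (hΩS : Ω ≤ S)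
    (hidx : ∀ a ∈ Ω, ∀ b ∈ Ω, (a * b ∈ W ↔ (a ∈ W ↔ b ∈ W)))
    (t : G) (htΩ : t ∈ Ω) (ht2 : t * t = 1)
    (hΩn : ∀ n ∈ Subgroup.normalizer ((S : Subgroup G) : Set G), ∀ x ∈ Ω, n * x * n⁻¹ ∈ Ω)
    (hconj : ∀ n ∈ Subgroup.normalizer ((S : Subgroup G) : Set G), n * t * n⁻¹ ∉ W) :
    ∃ H : Subgroup G, H.index = 2 := by
  classical
  have : Fact (Nat.Prime 2) := ⟨Nat.prime_two⟩
  let _instA : CommGroup ↥(S : Subgroup G) :=
    { (inferInstance : Group ↥(S : Subgroup G)) with mul_comm := hS.is_comm.comm }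
  let ϕ : ↥(S : Subgroup G) →* ↥(S : Subgroup G) := MonoidHom.id _
  have hfin : Fintype (Quotient (MulAction.orbitRel (zpowers t) (G ⧸ (S : Subgroup G)))) :=
    Fintype.ofFinite _
  have hV := MonoidHom.transfer_eq_prod_quotient_orbitRel_zpowers_quot ϕ (H := (S : Subgroup G)) t
  have hsum := index_eq_sum_minimalPeriod (S : Subgroup G) t
  -- parity of each factor
  have hfac : ∀ q : Quotient (MulAction.orbitRel (zpowers t) (G ⧸ (S : Subgroup G))),
      ϕ ⟨q.out.out⁻¹ * t ^ Function.minimalPeriod (t • ·) q.out * q.out.out,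
            QuotientGroup.out_conj_pow_minimalPeriod_mem (S : Subgroup G) t q.out⟩
          ∈ Ω.subgroupOf (S : Subgroup G) ∧
      (ϕ ⟨q.out.out⁻¹ * t ^ Function.minimalPeriod (t • ·) q.out * q.out.out,
            QuotientGroup.out_conj_pow_minimalPeriod_mem (S : Subgroup G) t q.out⟩
          ∈ W.subgroupOf (S : Subgroup G) ↔ Even (Function.minimalPeriod (t • ·) q.out)) := by
    intro q
    have hmem := QuotientGroup.out_conj_pow_minimalPeriod_mem (S : Subgroup G) t q.out
    rw [Subgroup.mem_subgroupOf, Subgroup.mem_subgroupOf]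
    show q.out.out⁻¹ * t ^ Function.minimalPeriod (t • ·) q.out * q.out.out ∈ Ω ∧
      (q.out.out⁻¹ * t ^ Function.minimalPeriod (t • ·) q.out * q.out.out ∈ W ↔
        Even (Function.minimalPeriod (t • ·) q.out))
    generalize Function.minimalPeriod (t • ·) q.out = m at hmem ⊢
    generalize q.out.out = x at hmem ⊢
    rcases Nat.even_or_odd m with hm | hm
    · obtain ⟨k, rfl⟩ := hm
      have e : t ^ (k + k) = 1 := by rw [← two_mul, pow_mul, pow_two, ht2, one_pow]
      have hone : (1 : G) ∈ W := W.one_mem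
      rw [e, mul_one, inv_mul_cancel]
      exact ⟨Ω.one_mem, iff_of_true hone ⟨k, rfl⟩⟩
    · have e : t ^ m = t := by
        obtain ⟨k, rfl⟩ := hm
        rw [pow_succ, pow_mul, pow_two, ht2, one_pow, one_mul]
      rw [e] at hmem ⊢
      obtain ⟨n, hn, he⟩ := S.conj_eq_normalizer_conj_of_mem t x (hΩS htΩ) hmem
      have hn' := (Subgroup.normalizer _).inv_mem hn
      have h1 := hΩn n⁻¹ hn' t htΩ
      have h2 := hconj n⁻¹ hn'
      rw [inv_inv] at h1 h2
      rw [he]
      exact ⟨h1, iff_of_false h2 (Nat.not_even_iff_odd.mpr hm)⟩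
  have hidx' : ∀ a ∈ Ω.subgroupOf (S : Subgroup G), ∀ b ∈ Ω.subgroupOf (S : Subgroup G),
      (a * b ∈ W.subgroupOf (S : Subgroup G) ↔
        (a ∈ W.subgroupOf (S : Subgroup G) ↔ b ∈ W.subgroupOf (S : Subgroup G))) := by
    intro a ha b hb
    simp only [Subgroup.mem_subgroupOf] at ha hb ⊢
    exact hidx _ ha _ hb
  have hpar := prod_parity (Ω.subgroupOf (S : Subgroup G)) (W.subgroupOf (S : Subgroup G)) hidx'
    Finset.univ _ _ (fun q _ => hfac q)
  rw [← hV, ← hsum] at hpar
  have hodd : ¬ Even (S : Subgroup G).index := by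
    rw [even_iff_two_dvd]
    exact S.not_dvd_index
  have hne : MonoidHom.transfer ϕ t ≠ 1 := by
    intro h1
    apply hodd
    rw [← hpar.2, h1]
    have hone : (1 : G) ∈ W := by
      have := (hidx t htΩ t htΩ).mpr Iff.rfl
      rwa [ht2] at this
    exact Subgroup.mem_subgroupOf.mpr hone
  exact exists_index_two_of_hom S.isPGroup' (MonoidHom.transfer ϕ) hne

end Cfsg.Agent.Helper21
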