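import Mathlib
import Cfsg.Prelude.Def_Local
import Cfsg.Prelude.Def_CaseTheorems
import Cfsg.Agent.Helper21.Basic
import Cfsg.Agent.Helper22.Basic
import Cfsg.Agent.Helper22.Fitting
import Cfsg.Agent.Helper22.Bender

set_option autoImplicit false

/-!
# A lemma of Bender on `F*` of a maximal subgroup (helper21)

Inside a finite group `A` with `F = F*(A)`, `S ≤ F` subnormal with `C_F(S) ≤ S`: every `p`-subgroup
of `A` normalized by `S` centralizes `E(A)` and `O_{p'}(F(A))`.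
-/

namespace Cfsg.Agent.Helper21

namespace BL

open Subgroup

variable {A : Type*} [Group A]

/-- Coprime trick: if `y n y⁻¹ = n c` with `c` fixed by `y` and of order prime to that of `y`,
then `c = 1`. -/
theorem eq_one_of_conj_mul {y n c : A} (h1 : y * n * y⁻¹ = n * c) (h2 : y * c * y⁻¹ = c)
    (hco : (orderOf y).Coprime (orderOf c)) : c = 1 := by
  have hpow : ∀ j : ℕ, y ^ j * n * (y ^ j)⁻¹ = n * c ^ j := by
    intro j
    induction j with
    | zero => simp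
    | succ j ih =>
      have e1 : y ^ (j + 1) * n * (y ^ (j + 1))⁻¹ = y * (y ^ j * n * (y ^ j)⁻¹) * y⁻¹ := by
        rw [pow_succ']; group
      rw [e1, ih]
      have e2 : y * (n * c ^ j) * y⁻¹ = (y * n * y⁻¹) * (y * c * y⁻¹) ^ j := by
        rw [conj_pow]; group
      rw [e2, h2, h1, pow_succ', mul_assoc]
  have h3 := hpow (orderOf y)
  rw [pow_orderOf_eq_one, one_mul, inv_one, mul_one] at h3
  have h4 : c ^ orderOf y = 1 := by
    have : n * c ^ orderOf y = n * 1 := by rw [mul_one]; exact h3.symm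
    exact mul_left_cancel this
  have h5 : orderOf c ∣ orderOf y := orderOf_dvd_of_pow_eq_one h4
  have h6 : orderOf c = 1 := Nat.eq_one_of_dvd_coprimes hco h5 dvd_rfl
  exact orderOf_eq_one_iff.mp h6

/-- A nilpotent variant of the `A × B` lemma: `Y` acts coprimely on the nilpotent group `N`,
centralizes `R ≤ N` and `C_N(R)`; then `Y` centralizes `N`. -/
theorem nilpotent_AxB [Finite A] (N Y : Subgroup A) (hN : Group.IsNilpotent N)
    (hYN : ∀ y ∈ Y, ∀ n ∈ N, y * n * y⁻¹ ∈ N)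
    (hco : ∀ y ∈ Y, ∀ n ∈ N, (orderOf y).Coprime (orderOf n)) :
    ∀ (k : ℕ) (R : Subgroup A), R ≤ N → Nat.card N - Nat.card R ≤ k →
      (∀ y ∈ Y, ∀ r ∈ R, y * r * y⁻¹ = r) →
      (∀ x ∈ N, (∀ r ∈ R, x * r * x⁻¹ = r) → ∀ y ∈ Y, y * x * y⁻¹ = x) →
      ∀ y ∈ Y, ∀ n ∈ N, y * n * y⁻¹ = n := by
  intro k
  induction k with
  | zero =>
    intro R hRN hk hYR _ y hy n hn
    have hle : Nat.card R ≤ Nat.card N := Subgroup.card_le_of_le hRN
    have : R = N := Subgroup.eq_of_le_of_card_ge hRN (by omega)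
    exact hYR y hy n (this ▸ hn)
  | succ k ih =>
    intro R hRN hk hYR hC y hy n hn
    by_cases hRN' : R = N
    · exact hYR y hy n (hRN' ▸ hn)
    have hlt : R.subgroupOf N < ⊤ := by
      rw [lt_top_iff_ne_top]
      intro h
      rw [Subgroup.subgroupOf_eq_top] at h
      exact hRN' (le_antisymm hRN h)
    have hnc := Group.normalizerCondition_of_isNilpotent (G := N) (R.subgroupOf N) hlt
    obtain ⟨n₀, hn₀norm, hn₀R⟩ := SetLike.exists_of_lt hnc
    have hRR₁ : R ≤ N ⊓ normalizer (R : Set A) := le_inf hRN le_normalizer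
    have hn₀R₁ : (n₀ : A) ∈ N ⊓ normalizer (R : Set A) := by
      refine ⟨n₀.2, ?_⟩
      apply mem_normalizer_of_conj_mem
      intro r hr
      have h1 : (⟨r, hRN hr⟩ : N) ∈ R.subgroupOf N := Subgroup.mem_subgroupOf.mpr hr
      have h2 := (Subgroup.mem_normalizer_iff.mp hn₀norm ⟨r, hRN hr⟩).mp h1
      exact Subgroup.mem_subgroupOf.mp h2
    have hne : R ≠ N ⊓ normalizer (R : Set A) := by
      intro h
      apply hn₀R
      rw [Subgroup.mem_subgroupOf, h]
      exact hn₀R₁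
    have hlt' : Nat.card R < Nat.card ↥(N ⊓ normalizer (R : Set A)) := by
      by_contra hcon
      exact hne (Subgroup.eq_of_le_of_card_ge hRR₁ (not_lt.mp hcon))
    have hle : Nat.card ↥(N ⊓ normalizer (R : Set A)) ≤ Nat.card N :=
      Subgroup.card_le_of_le inf_le_left
    have hYR₁ : ∀ y ∈ Y, ∀ r ∈ N ⊓ normalizer (R : Set A), y * r * y⁻¹ = r := by
      rintro y hy r ⟨hrN, hrn⟩
      have hcN : r⁻¹ * (y * r * y⁻¹) ∈ N := N.mul_mem (N.inv_mem hrN) (hYN y hy r hrN)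
      have hcC : ∀ s ∈ R, (r⁻¹ * (y * r * y⁻¹)) * s * (r⁻¹ * (y * r * y⁻¹))⁻¹ = s := by
        intro s hs
        have h1 : r * s * r⁻¹ ∈ R := (mem_normalizer_iff.mp hrn s).mp hs
        have h2 := hYR y hy s hs
        have h3 := hYR y hy _ h1
        have h2' : y⁻¹ * s * y = s := by
          calc y⁻¹ * s * y = y⁻¹ * (y * s * y⁻¹) * y := by rw [h2]
            _ = s := by group
        calc (r⁻¹ * (y * r * y⁻¹)) * s * (r⁻¹ * (y * r * y⁻¹))⁻¹
            = r⁻¹ * (y * (r * (y⁻¹ * s * y) * r⁻¹) * y⁻¹) * r := by group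
          _ = r⁻¹ * (y * (r * s * r⁻¹) * y⁻¹) * r := by rw [h2']
          _ = r⁻¹ * (r * s * r⁻¹) * r := by rw [h3]
          _ = s := by group
      have hyc := hC _ hcN hcC y hy
      have h1 : y * r * y⁻¹ = r * (r⁻¹ * (y * r * y⁻¹)) := by group
      have h5 := eq_one_of_conj_mul h1 hyc (hco y hy _ hcN)
      rw [h1, h5, mul_one]
    exact ih (N ⊓ normalizer (R : Set A)) inf_le_left (by omega) hYR₁
      (fun x hx hxR => hC x hx (fun r hr => hxR r (hRR₁ hr))) y hy n hn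

/-- If a product of two commuting elements of coprime orders lies in `H`, so do both factors. -/
theorem mem_of_mul_coprime {H : Subgroup A} {a b : A} (hab : a * b ∈ H) (hc : a * b = b * a)
    (hco : (orderOf a).Coprime (orderOf b)) : a ∈ H ∧ b ∈ H := by
  have h1 : (a * b) ^ orderOf b = a ^ orderOf b := by
    rw [(show Commute a b from hc).mul_pow, pow_orderOf_eq_one, mul_one]
  have h2 : a ^ orderOf b ∈ H := h1 ▸ H.pow_mem hab _
  obtain ⟨m, hm⟩ := exists_pow_eq_self_of_coprime hco.symm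
  have ha : a ∈ H := hm ▸ H.pow_mem h2 m
  refine ⟨ha, ?_⟩
  have : b = a⁻¹ * (a * b) := by group
  rw [this]
  exact H.mul_mem (H.inv_mem ha) hab

/-- `O_{p'}(F(A))`. -/
def fitP' (p : ℕ) (A : Type*) [Group A] : Subgroup A :=
  Cfsg.fittingSubgroup A ⊓ Cfsg.pPrimeCore p A

theorem fitP'_normal (p : ℕ) (A : Type*) [Group A] : (fitP' p A).Normal := by
  have := Cfsg.Agent.Helper22.fittingSubgroup_normal A
  unfold fitP'
  infer_instance

theorem fitP'_le_fitting (p : ℕ) (A : Type*) [Group A] : fitP' p A ≤ Cfsg.fittingSubgroup A :=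
  inf_le_left

theorem orderOf_coprime_of_mem_pPrimeCore [Finite A] {p : ℕ} {b : A}
    (hb : b ∈ Cfsg.pPrimeCore p A) : (orderOf b).Coprime p := by
  have h1 : orderOf b ∣ Nat.card (Cfsg.pPrimeCore p A) := by
    have := orderOf_dvd_natCard (⟨b, hb⟩ : Cfsg.pPrimeCore p A)
    rwa [Subgroup.orderOf_mk] at this
  exact Nat.Coprime.coprime_dvd_left h1 (Cfsg.Agent.Helper22.card_pPrimeCore_coprime p A)

theorem orderOf_of_mem_pCore {p : ℕ} [Fact p.Prime] {a : A} (ha : a ∈ Cfsg.pCore p A) :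
    ∃ k : ℕ, orderOf a = p ^ k := by
  obtain ⟨k, hk⟩ := (IsPGroup.iff_orderOf.mp (Cfsg.Agent.Helper22.pCore_isPGroup p A)) ⟨a, ha⟩
  rw [Subgroup.orderOf_mk] at hk
  exact ⟨k, hk⟩

theorem coprime_orders [Finite A] {p : ℕ} [Fact p.Prime] {a b : A} (ha : a ∈ Cfsg.pCore p A)
    (hb : b ∈ Cfsg.pPrimeCore p A) : (orderOf a).Coprime (orderOf b) := by
  obtain ⟨k, hk⟩ := orderOf_of_mem_pCore ha
  rw [hk]
  exact Nat.Coprime.pow_left k (orderOf_coprime_of_mem_pPrimeCore hb).symm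

/-- An element of a `p`-group whose order is prime to `p` is trivial. -/
theorem eq_one_of_pow_of_coprime {p : ℕ} {c : A} (h1 : ∃ k : ℕ, orderOf c = p ^ k)
    (h2 : (orderOf c).Coprime p) : c = 1 := by
  obtain ⟨k, hk⟩ := h1
  rw [hk] at h2
  rw [← orderOf_eq_one_iff, hk]
  exact Nat.Coprime.eq_one_of_dvd (Nat.Coprime.pow_right k h2) dvd_rfl

theorem pCore_inf_pPrimeCore [Finite A] (p : ℕ) [Fact p.Prime] : Cfsg.pCore p A ⊓ Cfsg.pPrimeCore p A = ⊥ := by
  rw [eq_bot_iff]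
  rintro c ⟨h1, h2⟩
  exact eq_one_of_pow_of_coprime (orderOf_of_mem_pCore h1) (orderOf_coprime_of_mem_pPrimeCore h2)

/-- `O_p(A)` and `O_{p'}(A)` commute. -/
theorem comm_pCore_pPrimeCore [Finite A] {p : ℕ} [Fact p.Prime] {a b : A} (ha : a ∈ Cfsg.pCore p A)
    (hb : b ∈ Cfsg.pPrimeCore p A) : a * b = b * a := by
  have h1 : a * b * a⁻¹ * b⁻¹ ∈ Cfsg.pCore p A ⊓ Cfsg.pPrimeCore p A := by
    constructor
    · have : a * b * a⁻¹ * b⁻¹ = a * (b * a⁻¹ * b⁻¹) := by group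
      rw [this]
      exact Subgroup.mul_mem _ ha ((Cfsg.pCore_normal p A).conj_mem _ (Subgroup.inv_mem _ ha) b)
    · exact Subgroup.mul_mem _ ((Cfsg.pPrimeCore_normal p A).conj_mem _ hb a) (Subgroup.inv_mem _ hb)
  rw [pCore_inf_pPrimeCore, Subgroup.mem_bot] at h1
  calc a * b = (a * b * a⁻¹ * b⁻¹) * (b * a) := by group
    _ = b * a := by rw [h1, one_mul]

/-- `F(A) = O_p(A) × O_{p'}(F(A))`. -/
theorem fitting_le_sup [Finite A] (p : ℕ) [hp : Fact p.Prime] :
    Cfsg.fittingSubgroup A ≤ Cfsg.pCore p A ⊔ fitP' p A := by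
  have heq := Cfsg.Agent.Helper22.fittingSubgroup_eq_iSup_pCore A
  rw [heq]
  apply iSup_le
  intro r
  by_cases hr : (r : ℕ) = p
  · rw [hr]; exact le_sup_left
  · refine le_trans (le_inf ?_ ?_) le_sup_right
    · rw [heq]; exact le_iSup (fun q : Nat.Primes => Cfsg.pCore (q : ℕ) A) r
    · apply le_sSup
      refine ⟨Cfsg.pCore_normal _ A, ?_⟩
      have : Fact (r : ℕ).Prime := ⟨r.2⟩
      obtain ⟨k, hk⟩ := IsPGroup.iff_card.mp (Cfsg.Agent.Helper22.pCore_isPGroup (r : ℕ) A)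
      rw [hk]
      exact Nat.Coprime.pow_left k ((Nat.coprime_primes r.2 hp.out).mpr hr)

/-- Elements of `F(A)` as products. -/
theorem exists_mul_of_mem_fitting [Finite A] (p : ℕ) [Fact p.Prime] {f : A}
    (hf : f ∈ Cfsg.fittingSubgroup A) :
    ∃ a ∈ Cfsg.pCore p A, ∃ b ∈ fitP' p A, f = a * b := by
  have := fitP'_normal p A
  have h1 := fitting_le_sup p hf
  rw [← SetLike.mem_coe, Subgroup.mul_normal] at h1
  obtain ⟨a, ha, b, hb, rfl⟩ := Set.mem_mul.mp h1
  exact ⟨a, ha, b, hb, rfl⟩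

end BL

end Cfsg.Agent.Helper21
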