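import Mathlib
import Cfsg.Prelude.Def_Local
import Cfsg.Prelude.Def_CaseTheorems
import Cfsg.Agent.Helper21.Basic
import Cfsg.Agent.Helper21.BenderLemma
import Cfsg.Agent.Helper22.Basic
import Cfsg.Agent.Helper22.Fitting
import Cfsg.Agent.Helper22.Bender

set_option autoImplicit false

/-!
# A lemma of Bender on `F*` of a maximal subgroup, part 2 (helper21)
-/

namespace Cfsg.Agent.Helper21

namespace BL

open Subgroup
open scoped commutatorElement

set_option linter.unusedSectionVars false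

variable {A : Type*} [Group A] [Finite A]

theorem conj_eq_of_comm {y e : A} (h : y * e = e * y) : y * e * y⁻¹ = e := by
  rw [h, mul_inv_cancel_right]

theorem comm_of_conj_eq {y e : A} (h : y * e * y⁻¹ = e) : y * e = e * y := by
  calc y * e = (y * e * y⁻¹) * y := by group
    _ = e * y := by rw [h]

/-- A nilpotent subgroup normalized by the layer centralizes it. -/
theorem comm_layer {Y : Subgroup A} (hY : Group.IsNilpotent Y)
    (hEY : Cfsg.layer A ≤ normalizer (Y : Set A)) :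
    ∀ y ∈ Y, ∀ e ∈ Cfsg.layer A, y * e = e * y := by
  have key : Cfsg.layer A ≤ centralizer (Y : Set A) := by
    apply sSup_le
    intro L hL
    have hL' : Cfsg.IsComponent L := hL
    have hLM : L ≤ L ⊔ Y := le_sup_left
    have hYM : Y ≤ L ⊔ Y := le_sup_right
    have hc := Cfsg.Agent.Helper22.isComponent_subgroupOf hL' hLM
    have hMn : L ⊔ Y ≤ normalizer (Y : Set A) :=
      sup_le ((Cfsg.Agent.Helper22.component_le_layer hL').trans hEY) le_normalizer
    have hYn : (Y.subgroupOf (L ⊔ Y)).Normal :=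
      (Subgroup.normal_subgroupOf_iff_le_normalizer hYM).mpr hMn
    have hYnil : Group.IsNilpotent (Y.subgroupOf (L ⊔ Y)) :=
      (Group.isNilpotent_congr (Subgroup.subgroupOfEquivOfLe hYM)).mpr hY
    have h1 := Cfsg.Agent.Helper22.component_commutator_nilpotent_normal hc hYn hYnil
    intro l hl
    rw [Subgroup.mem_centralizer_iff]
    intro y hy
    have h2 : ⁅(⟨l, hLM hl⟩ : ↥(L ⊔ Y)), (⟨y, hYM hy⟩ : ↥(L ⊔ Y))⁆ ∈
        ⁅L.subgroupOf (L ⊔ Y), Y.subgroupOf (L ⊔ Y)⁆ :=
      Subgroup.commutator_mem_commutator (Subgroup.mem_subgroupOf.mpr hl)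
        (Subgroup.mem_subgroupOf.mpr hy)
    rw [h1, Subgroup.mem_bot] at h2
    have h3 : l * y * l⁻¹ * y⁻¹ = 1 := congrArg Subtype.val h2
    calc y * l = (l * y * l⁻¹ * y⁻¹)⁻¹ * (l * y) := by group
      _ = l * y := by rw [h3, inv_one, one_mul]
  intro y hy e he
  exact ((Subgroup.mem_centralizer_iff.mp (key he)) y hy)

/-- The standing hypotheses on `S`. -/
structure Hyp (S : Subgroup A) : Prop where
  le : S ≤ Cfsg.generalizedFittingSubgroup A
  sn : S.IsSubnormal
  cent : Cfsg.generalizedFittingSubgroup A ⊓ centralizer (S : Set A) ≤ S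

theorem layer_le {S : Subgroup A} (h : Hyp S) : Cfsg.layer A ≤ S := by
  apply sSup_le
  intro L hL
  have hL' : Cfsg.IsComponent L := hL
  rcases Cfsg.Agent.Helper22.component_le_or_le_centralizer hL' h.sn with h1 | h1
  · exact h1
  · exact le_trans (le_inf ((Cfsg.Agent.Helper22.component_le_layer hL').trans
      (Cfsg.Agent.Helper22.layer_le_generalizedFittingSubgroup A)) h1) h.cent

theorem lemmaK_layer {S : Subgroup A} (h : Hyp S) {Y : Subgroup A} (hY : Group.IsNilpotent Y)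
    (hSY : S ≤ normalizer (Y : Set A)) : ∀ y ∈ Y, ∀ e ∈ Cfsg.layer A, y * e = e * y :=
  comm_layer hY ((layer_le h).trans hSY)

theorem layer_comm_fitting {e f : A} (he : e ∈ Cfsg.layer A) (hf : f ∈ Cfsg.fittingSubgroup A) :
    f * e = e * f := by
  have h1 := Subgroup.commutator_eq_bot_iff_le_centralizer.mp
    (Cfsg.Agent.Helper22.layer_commutator_fitting A)
  exact (Subgroup.mem_centralizer_iff.mp (h1 he)) f hf

theorem fitP'_isNilpotent (p : ℕ) : Group.IsNilpotent ↥(fitP' p A) := by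
  have := Cfsg.Agent.Helper22.fittingSubgroup_isNilpotent A
  have h1 : Group.IsNilpotent ((fitP' p A).subgroupOf (Cfsg.fittingSubgroup A)) := inferInstance
  exact (Group.isNilpotent_congr (Subgroup.subgroupOfEquivOfLe (fitP'_le_fitting p A))).mp h1

theorem orderOf_of_mem_isPGroup {p : ℕ} [Fact p.Prime] {Y : Subgroup A} (hY : IsPGroup p Y) {y : A}
    (hy : y ∈ Y) : ∃ k : ℕ, orderOf y = p ^ k := by
  obtain ⟨k, hk⟩ := (IsPGroup.iff_orderOf.mp hY) ⟨y, hy⟩
  rw [Subgroup.orderOf_mk] at hk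
  exact ⟨k, hk⟩

/-- Elements of `F*(A)` as products. -/
theorem exists_mul_of_mem_fstar {s : A} (hs : s ∈ Cfsg.generalizedFittingSubgroup A) :
    ∃ e ∈ Cfsg.layer A, ∃ f ∈ Cfsg.fittingSubgroup A, s = e * f := by
  have := Cfsg.Agent.Helper22.layer_normal A
  have h1 : s ∈ Cfsg.layer A ⊔ Cfsg.fittingSubgroup A := hs
  rw [← SetLike.mem_coe, Subgroup.normal_mul] at h1
  obtain ⟨e, he, f, hf, rfl⟩ := Set.mem_mul.mp h1
  exact ⟨e, he, f, hf, rfl⟩

/-- The key lemma: a `p`-subgroup normalized by `S` centralizes `O_{p'}(F(A))`. -/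
theorem lemmaK_fit {S : Subgroup A} (h : Hyp S) {p : ℕ} [Fact p.Prime] {Y : Subgroup A}
    (hY : IsPGroup p Y) (hSY : S ≤ normalizer (Y : Set A)) :
    ∀ y ∈ Y, ∀ n ∈ fitP' p A, y * n * y⁻¹ = n := by
  have hNn := fitP'_normal p A
  have hco : ∀ y ∈ Y, ∀ n ∈ fitP' p A, (orderOf y).Coprime (orderOf n) := by
    intro y hy n hn
    obtain ⟨k, hk⟩ := orderOf_of_mem_isPGroup hY hy
    rw [hk]
    exact Nat.Coprime.pow_left k (orderOf_coprime_of_mem_pPrimeCore hn.2).symm
  have hYR : ∀ y ∈ Y, ∀ r ∈ S ⊓ fitP' p A, y * r * y⁻¹ = r := by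
    rintro y hy r ⟨hrS, hrN⟩
    have h1 : y * r * y⁻¹ * r⁻¹ ∈ Y := by
      have h2 : r * y⁻¹ * r⁻¹ ∈ Y :=
        (Subgroup.mem_normalizer_iff.mp (hSY hrS) y⁻¹).mp (Y.inv_mem hy)
      have : y * r * y⁻¹ * r⁻¹ = y * (r * y⁻¹ * r⁻¹) := by group
      rw [this]
      exact Y.mul_mem hy h2
    have h2 : y * r * y⁻¹ * r⁻¹ ∈ fitP' p A :=
      Subgroup.mul_mem _ (hNn.conj_mem r hrN y) (Subgroup.inv_mem _ hrN)
    have h3 := eq_one_of_pow_of_coprime (orderOf_of_mem_isPGroup hY h1)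
      (orderOf_coprime_of_mem_pPrimeCore h2.2)
    calc y * r * y⁻¹ = (y * r * y⁻¹ * r⁻¹) * r := by group
      _ = r := by rw [h3, one_mul]
  have hC : ∀ x ∈ fitP' p A, (∀ r ∈ S ⊓ fitP' p A, x * r * x⁻¹ = r) →
      ∀ y ∈ Y, y * x * y⁻¹ = x := by
    intro x hx hxR y hy
    have hxS : x ∈ S := by
      apply h.cent
      refine Subgroup.mem_inf.mpr
        ⟨(Cfsg.Agent.Helper22.fittingSubgroup_le_generalizedFittingSubgroup A) hx.1, ?_⟩
      rw [Subgroup.mem_centralizer_iff]
      intro s hs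
      obtain ⟨e, he, f, hf, rfl⟩ := exists_mul_of_mem_fstar (h.le hs)
      have hfS : f ∈ S := by
        have : f = e⁻¹ * (e * f) := by group
        rw [this]
        exact S.mul_mem (S.inv_mem (layer_le h he)) hs
      obtain ⟨a, ha, b, hb, rfl⟩ := exists_mul_of_mem_fitting p hf
      have hab := comm_pCore_pPrimeCore ha hb.2
      obtain ⟨haS, hbS⟩ := mem_of_mul_coprime hfS hab (coprime_orders ha hb.2)
      have e1 : x * e = e * x := layer_comm_fitting he hx.1
      have e2 : a * x = x * a := comm_pCore_pPrimeCore ha hx.2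
      have e3 : x * b = b * x := comm_of_conj_eq (hxR b ⟨hbS, hb⟩)
      calc e * (a * b) * x = e * a * (b * x) := by group
        _ = e * a * (x * b) := by rw [e3]
        _ = e * (a * x) * b := by group
        _ = e * (x * a) * b := by rw [e2]
        _ = (e * x) * a * b := by group
        _ = (x * e) * a * b := by rw [e1]
        _ = x * (e * (a * b)) := by group
    exact hYR y hy x ⟨hxS, hx⟩
  exact nilpotent_AxB (fitP' p A) Y (fitP'_isNilpotent p) (fun y _ n hn => hNn.conj_mem n hn y) hco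
    (Nat.card (fitP' p A)) (S ⊓ fitP' p A) inf_le_right (Nat.sub_le _ _) hYR hC

/-- A `p'`-element of `F*(A)` lies in `E(A) O_{p'}(F(A))`. -/
theorem mem_sup_of_coprime {p : ℕ} [Fact p.Prime] {y : A}
    (hy : y ∈ Cfsg.generalizedFittingSubgroup A) (hco : (orderOf y).Coprime p) :
    y ∈ Cfsg.layer A ⊔ fitP' p A := by
  have hLn := Cfsg.Agent.Helper22.layer_normal A
  have hNn := fitP'_normal p A
  have hDn : (Cfsg.layer A ⊔ fitP' p A).Normal := inferInstance
  obtain ⟨e, he, f, hf, rfl⟩ := exists_mul_of_mem_fstar hy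
  obtain ⟨a, ha, b, hb, rfl⟩ := exists_mul_of_mem_fitting p hf
  have hab := comm_pCore_pPrimeCore ha hb.2
  -- `e * (a * b) = (e * b) * a`
  have e1 : e * (a * b) = (e * b) * a := by rw [hab]; group
  have hd : e * b ∈ Cfsg.layer A ⊔ fitP' p A :=
    Subgroup.mul_mem _ (le_sup_left (a := Cfsg.layer A) he) (le_sup_right (b := fitP' p A) hb)
  have h1 : (QuotientGroup.mk' (Cfsg.layer A ⊔ fitP' p A)) (e * (a * b)) =
      (QuotientGroup.mk' (Cfsg.layer A ⊔ fitP' p A)) a := by
    have h0 : (QuotientGroup.mk' (Cfsg.layer A ⊔ fitP' p A)) (e * b) = 1 :=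
      (QuotientGroup.eq_one_iff _).mpr hd
    rw [e1, map_mul, h0, one_mul]
  have h2 : orderOf ((QuotientGroup.mk' (Cfsg.layer A ⊔ fitP' p A)) (e * (a * b))) ∣
      orderOf (e * (a * b)) := orderOf_map_dvd _ _
  have h3 : orderOf ((QuotientGroup.mk' (Cfsg.layer A ⊔ fitP' p A)) a) ∣ orderOf a :=
    orderOf_map_dvd _ _
  obtain ⟨k, hk⟩ := orderOf_of_mem_pCore ha
  rw [← h1, hk] at h3
  have h4 : orderOf ((QuotientGroup.mk' (Cfsg.layer A ⊔ fitP' p A)) (e * (a * b))) = 1 :=
    Nat.eq_one_of_dvd_coprimes (Nat.Coprime.pow_right k hco) h2 h3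
  rw [orderOf_eq_one_iff] at h4
  exact (QuotientGroup.eq_one_iff _).mp h4

/-- A nontrivial normal nilpotent subgroup `N` with `F*(A) ≤ N C_A(N)` meets `Z(F*(A))`. -/
theorem inf_centralizer_ne_bot {N : Subgroup A} (hNn : N.Normal) (hNnil : Group.IsNilpotent N)
    (hNne : N ≠ ⊥)
    (hF : Cfsg.generalizedFittingSubgroup A ≤ N ⊔ centralizer (N : Set A)) :
    N ⊓ centralizer (Cfsg.generalizedFittingSubgroup A : Set A) ≠ ⊥ := by
  have hnt : Nontrivial ↥N := (Subgroup.nontrivial_iff_ne_bot N).mpr hNne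
  have hc := Group.IsNilpotent.center_ne_bot (G := ↥N)
  obtain ⟨zz, hz1⟩ := Subgroup.ne_bot_iff_exists_ne_one.mp hc
  obtain ⟨z, hz⟩ := zz
  intro hbot
  have hzmem : (z : A) ∈ N ⊓ centralizer (Cfsg.generalizedFittingSubgroup A : Set A) := by
    refine Subgroup.mem_inf.mpr ⟨z.2, ?_⟩
    rw [Subgroup.mem_centralizer_iff]
    intro g hg
    have h1 := hF hg
    rw [← SetLike.mem_coe, Subgroup.normal_mul] at h1
    obtain ⟨n, hn, c, hc', rfl⟩ := Set.mem_mul.mp h1
    have e1 : n * (z : A) = (z : A) * n := by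
      have := (Subgroup.mem_center_iff.mp hz) ⟨n, hn⟩
      exact congrArg Subtype.val this
    have e2 : (z : A) * c = c * (z : A) := (Subgroup.mem_centralizer_iff.mp hc') z z.2
    calc n * c * (z : A) = n * (c * (z : A)) := by group
      _ = n * ((z : A) * c) := by rw [e2]
      _ = (n * (z : A)) * c := by group
      _ = (z : A) * n * c := by rw [e1]
      _ = (z : A) * (n * c) := by group
  rw [hbot, Subgroup.mem_bot] at hzmem
  apply hz1
  apply Subtype.ext
  apply Subtype.ext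
  exact hzmem

end BL

end Cfsg.Agent.Helper21
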