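import Mathlib
import Cfsg.Prelude.Def_Local
import Cfsg.Prelude.Def_CaseTheorems
import Cfsg.Agent.Helper21.Basic
import Cfsg.Agent.Helper21.BenderLemma
import Cfsg.Agent.Helper21.BenderLemma2
import Cfsg.Agent.Helper22.Basic
import Cfsg.Agent.Helper22.Fitting
import Cfsg.Agent.Helper22.Bender

set_option autoImplicit false

/-!
# A lemma of Bender on `F*` of a maximal subgroup, part 3 (helper21)

Central subgroups of `F*(A)` and the subgroup generated by the `p'`-elements of the layer.
-/

namespace Cfsg.Agent.Helper21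

namespace BL

open Subgroup

set_option linter.unusedSectionVars false

variable {A : Type*} [Group A] [Finite A]

theorem layer_le_centralizer_of_le_fitting {N : Subgroup A} (hN : N ≤ Cfsg.fittingSubgroup A) :
    Cfsg.layer A ≤ centralizer (N : Set A) := by
  intro e he
  rw [Subgroup.mem_centralizer_iff]
  intro n hn
  exact layer_comm_fitting he (hN hn)

theorem pCore_le_fitting (p : ℕ) [Fact p.Prime] : Cfsg.pCore p A ≤ Cfsg.fittingSubgroup A :=
  le_sSup ⟨Cfsg.pCore_normal p A, (Cfsg.Agent.Helper22.pCore_isPGroup p A).isNilpotent⟩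

theorem fstar_le_sup_centralizer_pCore (p : ℕ) [Fact p.Prime] :
    Cfsg.generalizedFittingSubgroup A ≤
      Cfsg.pCore p A ⊔ centralizer (Cfsg.pCore p A : Set A) := by
  apply sup_le
  · exact (layer_le_centralizer_of_le_fitting (pCore_le_fitting p)).trans le_sup_right
  · refine (fitting_le_sup p).trans (sup_le le_sup_left ?_)
    refine le_trans ?_ le_sup_right
    intro b hb
    rw [Subgroup.mem_centralizer_iff]
    intro a ha
    exact comm_pCore_pPrimeCore ha hb.2

theorem fstar_le_sup_centralizer_fitP' (p : ℕ) [Fact p.Prime] :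
    Cfsg.generalizedFittingSubgroup A ≤
      fitP' p A ⊔ centralizer (fitP' p A : Set A) := by
  apply sup_le
  · exact (layer_le_centralizer_of_le_fitting (fitP'_le_fitting p A)).trans le_sup_right
  · refine (fitting_le_sup p).trans (sup_le ?_ le_sup_left)
    refine le_trans ?_ le_sup_right
    intro a ha
    rw [Subgroup.mem_centralizer_iff]
    intro b hb
    exact (comm_pCore_pPrimeCore ha hb.2).symm

theorem card_fitP'_coprime (p : ℕ) : (Nat.card (fitP' p A)).Coprime p :=
  Nat.Coprime.coprime_dvd_left (Subgroup.card_dvd_of_le inf_le_right)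
    (Cfsg.Agent.Helper22.card_pPrimeCore_coprime p A)

theorem pCore_ne_bot_of_dvd {p : ℕ} [Fact p.Prime]
    (hp : p ∣ Nat.card (Cfsg.fittingSubgroup A)) : Cfsg.pCore p A ≠ ⊥ := by
  intro h
  have h1 : Cfsg.fittingSubgroup A ≤ fitP' p A := by
    have := fitting_le_sup (A := A) p
    rwa [h, bot_sup_eq] at this
  have h2 : Nat.card (Cfsg.fittingSubgroup A) ∣ Nat.card (fitP' p A) := Subgroup.card_dvd_of_le h1
  have h3 := Nat.Coprime.coprime_dvd_left h2 (card_fitP'_coprime (A := A) p)
  have hp1 : 1 < p := (Fact.out : p.Prime).one_lt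
  exact hp1.ne' (Nat.eq_one_of_dvd_coprimes h3 hp dvd_rfl)

/-- `Z_p = O_p(A) ∩ Z(F*(A))`. -/
def zP (p : ℕ) (A : Type*) [Group A] : Subgroup A :=
  Cfsg.pCore p A ⊓ centralizer (Cfsg.generalizedFittingSubgroup A : Set A)

/-- `Z_{p'} = O_{p'}(F(A)) ∩ Z(F*(A))`. -/
def zP' (p : ℕ) (A : Type*) [Group A] : Subgroup A :=
  fitP' p A ⊓ centralizer (Cfsg.generalizedFittingSubgroup A : Set A)

theorem zP_normal (p : ℕ) : (zP p A).Normal := by
  have := Cfsg.Agent.Helper22.generalizedFittingSubgroup_normal A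
  unfold zP
  infer_instance

theorem zP'_normal (p : ℕ) : (zP' p A).Normal := by
  have := Cfsg.Agent.Helper22.generalizedFittingSubgroup_normal A
  have := fitP'_normal p A
  unfold zP'
  infer_instance

theorem zP_ne_bot {p : ℕ} [Fact p.Prime] (hp : p ∣ Nat.card (Cfsg.fittingSubgroup A)) :
    zP p A ≠ ⊥ :=
  inf_centralizer_ne_bot (Cfsg.pCore_normal p A)
    (Cfsg.Agent.Helper22.pCore_isPGroup p A).isNilpotent (pCore_ne_bot_of_dvd hp)
    (fstar_le_sup_centralizer_pCore p)

theorem zP'_ne_bot {p : ℕ} [Fact p.Prime] (h : fitP' p A ≠ ⊥) : zP' p A ≠ ⊥ :=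
  inf_centralizer_ne_bot (fitP'_normal p A) (fitP'_isNilpotent p) h
    (fstar_le_sup_centralizer_fitP' p)

theorem zP_isPGroup (p : ℕ) : IsPGroup p (zP p A) :=
  (Cfsg.Agent.Helper22.pCore_isPGroup p A).to_le inf_le_left

theorem card_zP'_coprime (p : ℕ) : (Nat.card (zP' p A)).Coprime p :=
  Nat.Coprime.coprime_dvd_left (Subgroup.card_dvd_of_le inf_le_left) (card_fitP'_coprime p)

theorem centralizer_fstar_le {S : Subgroup A} (h : Hyp S) {N : Subgroup A}
    (hN : N ≤ Cfsg.generalizedFittingSubgroup A) :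
    N ⊓ centralizer (Cfsg.generalizedFittingSubgroup A : Set A) ≤ S := by
  rintro x ⟨hx1, hx2⟩
  apply h.cent
  refine Subgroup.mem_inf.mpr ⟨hN hx1, ?_⟩
  rw [Subgroup.mem_centralizer_iff]
  intro s hs
  exact (Subgroup.mem_centralizer_iff.mp hx2) s (h.le hs)

theorem zP_le {S : Subgroup A} (h : Hyp S) (p : ℕ) [Fact p.Prime] : zP p A ≤ S :=
  centralizer_fstar_le h ((pCore_le_fitting p).trans
    (Cfsg.Agent.Helper22.fittingSubgroup_le_generalizedFittingSubgroup A))

theorem zP'_le {S : Subgroup A} (h : Hyp S) (p : ℕ) : zP' p A ≤ S :=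
  centralizer_fstar_le h ((fitP'_le_fitting p A).trans
    (Cfsg.Agent.Helper22.fittingSubgroup_le_generalizedFittingSubgroup A))

/-- `Z(F*(A)) ≤ F(A)`. -/
theorem center_fstar_le_fitting :
    Cfsg.generalizedFittingSubgroup A ⊓ centralizer (Cfsg.generalizedFittingSubgroup A : Set A) ≤
      Cfsg.fittingSubgroup A := by
  have hFn := Cfsg.Agent.Helper22.generalizedFittingSubgroup_normal A
  apply le_sSup
  refine ⟨inferInstance, ?_⟩
  let inst : CommGroup ↥(Cfsg.generalizedFittingSubgroup A ⊓
      centralizer (Cfsg.generalizedFittingSubgroup A : Set A)) :=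
    { (inferInstance : Group ↥(Cfsg.generalizedFittingSubgroup A ⊓
        centralizer (Cfsg.generalizedFittingSubgroup A : Set A))) with
      mul_comm := fun a b => by
        apply Subtype.ext
        have := (Subgroup.mem_centralizer_iff.mp b.2.2) a.1 a.2.1
        exact this }
  exact @CommGroup.isNilpotent _ inst

/-- The subgroup generated by the `p'`-elements of the layer. -/
def layerP' (p : ℕ) (A : Type*) [Group A] : Subgroup A :=
  Subgroup.closure {g : A | g ∈ Cfsg.layer A ∧ (orderOf g).Coprime p}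

theorem layerP'_normal (p : ℕ) : (layerP' p A).Normal := by
  have hLn := Cfsg.Agent.Helper22.layer_normal A
  refine ⟨fun n hn g => ?_⟩
  have hle : (layerP' p A).map (MulAut.conj g).toMonoidHom ≤ layerP' p A := by
    rw [layerP', MonoidHom.map_closure, Subgroup.closure_le]
    rintro _ ⟨s, ⟨hs1, hs2⟩, rfl⟩
    apply Subgroup.subset_closure
    refine ⟨hLn.conj_mem s hs1 g, ?_⟩
    show (orderOf ((MulAut.conj g).toMonoidHom s)).Coprime p
    have : orderOf ((MulAut.conj g).toMonoidHom s) = orderOf s :=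
      orderOf_injective (MulAut.conj g).toMonoidHom (MulAut.conj g).injective s
    rw [this]
    exact hs2
  exact hle ⟨n, hn, rfl⟩

theorem layerP'_ne_bot {p : ℕ} [Fact p.Prime] (h : Cfsg.layer A ≠ ⊥) : layerP' p A ≠ ⊥ := by
  have hp : p.Prime := Fact.out
  -- a component
  obtain ⟨L, hL⟩ : ∃ L : Subgroup A, Cfsg.IsComponent L := by
    by_contra hcon
    push Not at hcon
    apply h
    rw [eq_bot_iff]
    apply sSup_le
    intro L hL
    exact absurd hL (hcon L)
  have hnp : ¬ IsPGroup p L := by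
    intro hLp
    exact Cfsg.Agent.Helper22.component_not_isNilpotent hL.2 hLp.isNilpotent
  have hcard : ∃ r : ℕ, r.Prime ∧ r ∣ Nat.card L ∧ r ≠ p := by
    by_contra hcon
    push Not at hcon
    apply hnp
    have h0 : Nat.card L ≠ 0 := Nat.card_pos.ne'
    have := Nat.eq_prime_pow_of_unique_prime_dvd h0 (fun {d} hd hdvd => hcon d hd hdvd)
    exact IsPGroup.of_card this
  obtain ⟨r, hr, hrd, hrp⟩ := hcard
  have : Fact r.Prime := ⟨hr⟩
  obtain ⟨g, hg⟩ := exists_prime_orderOf_dvd_card' r hrd
  have hg' : orderOf (g : A) = r := by rw [Subgroup.orderOf_coe]; exact hg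
  intro hbot
  have hmem : (g : A) ∈ layerP' p A := by
    apply Subgroup.subset_closure
    refine ⟨Cfsg.Agent.Helper22.component_le_layer hL g.2, ?_⟩
    rw [hg']
    exact (Nat.coprime_primes hr hp).mpr hrp
  rw [hbot, Subgroup.mem_bot] at hmem
  rw [hmem, orderOf_one] at hg'
  exact hr.one_lt.ne' hg'.symm

end BL

end Cfsg.Agent.Helper21
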