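import Mathlib
import Cfsg.Prelude.Def_Local
import Cfsg.Prelude.Def_CaseTheorems
import Cfsg.Prelude.Def_Transfer
import Cfsg.Agent.Helper21.Basic
import Cfsg.Agent.Helper21.BenderLemma
import Cfsg.Agent.Helper21.BenderLemma2
import Cfsg.Agent.Helper21.BenderLemma3
import Cfsg.Agent.Helper22.Basic
import Cfsg.Agent.Helper22.Fitting
import Cfsg.Agent.Helper22.Bender
import Cfsg.Agent.Helper24.Coprime

set_option autoImplicit false

/-!
# A lemma of Bender on `F*` of a maximal subgroup, part 4 (helper21)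

`G` finite simple, `A` a maximal subgroup, `F = F*(A)`, `S ≤ F` subnormal with `C_F(S) ≤ S`,
`B ≥ S`: `O_q(B) ∩ A = 1` for `q ∤ |F(A)|`, and `O_p(B)` centralizes `O^p(F)` for `p ∣ |F(A)|`.
-/

namespace Cfsg.Agent.Helper21

namespace BL

open Subgroup

set_option linter.unusedSectionVars false

variable {G : Type*} [Group G] [Finite G]

theorem conj_mem_map_pCore {B : Subgroup G} (p : ℕ) {s x : G} (hs : s ∈ B)
    (hx : x ∈ (Cfsg.pCore p ↥B).map B.subtype) :
    s * x * s⁻¹ ∈ (Cfsg.pCore p ↥B).map B.subtype := by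
  obtain ⟨b, hb, rfl⟩ := hx
  exact ⟨⟨s, hs⟩ * b * ⟨s, hs⟩⁻¹, (Cfsg.pCore_normal p ↥B).conj_mem b hb ⟨s, hs⟩, rfl⟩

theorem le_normalizer_map_pCore (B : Subgroup G) (p : ℕ) :
    B ≤ normalizer (((Cfsg.pCore p ↥B).map B.subtype : Subgroup G) : Set G) := by
  intro s hs
  exact mem_normalizer_of_conj_mem _ s (fun x hx => conj_mem_map_pCore p hs hx)

theorem isPGroup_map_pCore (B : Subgroup G) (p : ℕ) :
    IsPGroup p ((Cfsg.pCore p ↥B).map B.subtype) :=
  (Cfsg.Agent.Helper22.pCore_isPGroup p ↥B).map B.subtype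

/-- The normalizer of a nontrivial normal subgroup of a maximal subgroup of a simple group. -/
theorem normalizer_map_eq [IsSimpleGroup G] {A : Subgroup G} (hA : IsCoatom A) {V : Subgroup A}
    (hVn : V.Normal) (hV : V ≠ ⊥) :
    normalizer ((V.map A.subtype : Subgroup G) : Set G) = A := by
  have hle : A ≤ normalizer ((V.map A.subtype : Subgroup G) : Set G) := by
    intro a ha
    apply mem_normalizer_of_conj_mem
    rintro _ ⟨v, hv, rfl⟩
    exact ⟨⟨a, ha⟩ * v * ⟨a, ha⟩⁻¹, hVn.conj_mem v hv ⟨a, ha⟩, rfl⟩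
  by_contra hne
  have hlt : A < normalizer ((V.map A.subtype : Subgroup G) : Set G) :=
    lt_of_le_of_ne hle (Ne.symm hne)
  have htop := hA.2 _ hlt
  have hnorm : (V.map A.subtype).Normal := normalizer_eq_top_iff.mp htop
  rcases hnorm.eq_bot_or_eq_top with h | h
  · apply hV
    rw [eq_bot_iff]
    intro v hv
    have : (v : G) ∈ V.map A.subtype := ⟨v, hv, rfl⟩
    rw [h, mem_bot] at this
    rw [mem_bot]
    exact Subtype.ext this
  · apply hA.1
    rw [eq_top_iff, ← h]
    exact Subgroup.map_subtype_le V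

/-- Transport of the hypotheses on `S` into the group `A`. -/
theorem hyp_subgroupOf {A S : Subgroup G}
    (hSF : S ≤ (Cfsg.generalizedFittingSubgroup ↥A).map A.subtype)
    (hSsn : (S.subgroupOf ((Cfsg.generalizedFittingSubgroup ↥A).map A.subtype)).IsSubnormal)
    (hSC : (Cfsg.generalizedFittingSubgroup ↥A).map A.subtype ⊓ centralizer (S : Set G) ≤ S) :
    Hyp (S.subgroupOf A) := by
  have hSA : S ≤ A := hSF.trans (Subgroup.map_subtype_le _)
  have hle : S.subgroupOf A ≤ Cfsg.generalizedFittingSubgroup ↥A := by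
    intro s hs
    rw [mem_subgroupOf] at hs
    obtain ⟨f, hf, hfs⟩ := hSF hs
    have : f = s := Subtype.ext hfs
    rw [← this]; exact hf
  refine ⟨hle, ?_, ?_⟩
  · have hFn := Cfsg.Agent.Helper22.generalizedFittingSubgroup_normal ↥A
    apply IsSubnormal.trans hle ?_ hFn.isSubnormal
    have h1 := hSsn.comap ((Cfsg.generalizedFittingSubgroup ↥A).equivMapOfInjective A.subtype
      A.subtype_injective).toMonoidHom
    have h2 : (S.subgroupOf ((Cfsg.generalizedFittingSubgroup ↥A).map A.subtype)).comap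
        ((Cfsg.generalizedFittingSubgroup ↥A).equivMapOfInjective A.subtype
          A.subtype_injective).toMonoidHom =
        (S.subgroupOf A).subgroupOf (Cfsg.generalizedFittingSubgroup ↥A) := by
      ext x
      simp only [mem_comap, mem_subgroupOf]
      rfl
    rw [h2] at h1
    exact h1
  · rintro x ⟨hxF, hxC⟩
    rw [mem_subgroupOf]
    apply hSC
    refine mem_inf.mpr ⟨⟨x, hxF, rfl⟩, ?_⟩
    rw [mem_centralizer_iff]
    intro s hs
    have := (mem_centralizer_iff.mp hxC) ⟨s, hSA hs⟩ (mem_subgroupOf.mpr hs)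
    exact congrArg Subtype.val this

/-- `S` normalizes `X ∩ A` inside `A` when `B ≥ S` normalizes `X`. -/
theorem le_normalizer_subgroupOf {A S X : Subgroup G} (hSX : S ≤ normalizer (X : Set G)) :
    S.subgroupOf A ≤ normalizer ((X.subgroupOf A : Subgroup ↥A) : Set ↥A) := by
  intro s hs
  rw [mem_subgroupOf] at hs
  apply mem_normalizer_of_conj_mem
  intro y hy
  rw [mem_subgroupOf] at hy ⊢
  exact (mem_normalizer_iff.mp (hSX hs) y).mp hy

theorem part_a (A : Subgroup G) (S : Subgroup G)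
    (hyp : Hyp (S.subgroupOf A)) (B : Subgroup G) (hSB : S ≤ B) (q : ℕ) (hq : q.Prime)
    (hqF : ¬ q ∣ Nat.card (Cfsg.fittingSubgroup ↥A)) :
    (Cfsg.pCore q ↥B).map B.subtype ⊓ A = ⊥ := by
  have : Fact q.Prime := ⟨hq⟩
  rw [eq_bot_iff]
  rintro x ⟨hxX, hxA⟩
  rw [mem_bot]
  have hXp : IsPGroup q (((Cfsg.pCore q ↥B).map B.subtype).subgroupOf A) :=
    (isPGroup_map_pCore B q).comap_subtype
  have hSX : S.subgroupOf A ≤
      normalizer ((((Cfsg.pCore q ↥B).map B.subtype).subgroupOf A : Subgroup ↥A) : Set ↥A) :=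
    le_normalizer_subgroupOf (hSB.trans (le_normalizer_map_pCore B q))
  have h1 := lemmaK_layer hyp hXp.isNilpotent hSX
  have h2 := lemmaK_fit hyp hXp hSX
  have hcop : (Nat.card (Cfsg.fittingSubgroup ↥A)).Coprime q :=
    ((Nat.Prime.coprime_iff_not_dvd hq).mpr hqF).symm
  have hfit : Cfsg.fittingSubgroup ↥A ≤ fitP' q ↥A :=
    le_inf le_rfl (le_sSup ⟨Cfsg.Agent.Helper22.fittingSubgroup_normal ↥A, hcop⟩)
  have hx' : (⟨x, hxA⟩ : ↥A) ∈ ((Cfsg.pCore q ↥B).map B.subtype).subgroupOf A :=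
    mem_subgroupOf.mpr hxX
  have hcent : (⟨x, hxA⟩ : ↥A) ∈ centralizer (Cfsg.generalizedFittingSubgroup ↥A : Set ↥A) := by
    rw [mem_centralizer_iff]
    intro g hg
    obtain ⟨e, he, f, hf, rfl⟩ := exists_mul_of_mem_fstar hg
    have e1 := h1 _ hx' e he
    have e2 := comm_of_conj_eq (h2 _ hx' f (hfit hf))
    calc e * f * ⟨x, hxA⟩ = e * (f * ⟨x, hxA⟩) := by group
      _ = e * (⟨x, hxA⟩ * f) := by rw [e2]
      _ = (e * ⟨x, hxA⟩) * f := by group
      _ = (⟨x, hxA⟩ * e) * f := by rw [e1]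
      _ = ⟨x, hxA⟩ * (e * f) := by group
  have hF := Cfsg.Agent.Helper22.centralizer_generalizedFittingSubgroup_le ↥A hcent
  have hfit' := center_fstar_le_fitting (mem_inf.mpr ⟨hF, hcent⟩)
  have ho1 : orderOf (⟨x, hxA⟩ : ↥A) ∣ Nat.card (Cfsg.fittingSubgroup ↥A) := by
    have := orderOf_dvd_natCard (⟨⟨x, hxA⟩, hfit'⟩ : Cfsg.fittingSubgroup ↥A)
    rwa [Subgroup.orderOf_mk] at this
  have hone := eq_one_of_pow_of_coprime (orderOf_of_mem_isPGroup hXp hx')
    (Nat.Coprime.coprime_dvd_left ho1 hcop)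
  exact congrArg Subtype.val hone

/-- `X = O_p(B) ≤ A` as soon as `E(A) O_{p'}(F(A)) ≠ 1`. -/
theorem pCore_le [IsSimpleGroup G] (A : Subgroup G) (hA : IsCoatom A) (S : Subgroup G)
    (hSA : S ≤ A) (hyp : Hyp (S.subgroupOf A)) (B : Subgroup G) (hSB : S ≤ B) (p : ℕ)
    [Fact p.Prime] (hpF : p ∣ Nat.card (Cfsg.fittingSubgroup ↥A))
    (hD : Cfsg.layer ↥A ⊔ fitP' p ↥A ≠ ⊥) : (Cfsg.pCore p ↥B).map B.subtype ≤ A := by
  have hWn := zP_normal (A := ↥A) p
  have hWne := zP_ne_bot (A := ↥A) hpF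
  have hWS := zP_le hyp p
  have hNW := normalizer_map_eq hA hWn hWne
  have hWGS : (zP p ↥A).map A.subtype ≤ S := by
    rintro _ ⟨w, hw, rfl⟩
    exact mem_subgroupOf.mp (hWS hw)
  have hWGp : IsPGroup p ((zP p ↥A).map A.subtype) := (zP_isPGroup p).map A.subtype
  have hXp : IsPGroup p ((Cfsg.pCore p ↥B).map B.subtype) := isPGroup_map_pCore B p
  have hBX := le_normalizer_map_pCore B p
  have hYA : (Cfsg.pCore p ↥B).map B.subtype ⊓
      centralizer (((zP p ↥A).map A.subtype : Subgroup G) : Set G) ≤ A := by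
    intro y hy
    rw [← hNW]
    exact centralizer_le_normalizer _ hy.2
  have hYp : IsPGroup p (((Cfsg.pCore p ↥B).map B.subtype ⊓
      centralizer (((zP p ↥A).map A.subtype : Subgroup G) : Set G)).subgroupOf A) :=
    (hXp.to_le inf_le_left).comap_subtype
  have hSY : S.subgroupOf A ≤ normalizer ((((Cfsg.pCore p ↥B).map B.subtype ⊓
      centralizer (((zP p ↥A).map A.subtype : Subgroup G) : Set G)).subgroupOf A :
        Subgroup ↥A) : Set ↥A) := by
    apply le_normalizer_subgroupOf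
    intro s hs
    apply mem_normalizer_of_conj_mem
    intro y hy
    refine mem_inf.mpr ⟨conj_mem_map_pCore p (hSB hs) hy.1, ?_⟩
    rw [mem_centralizer_iff]
    intro w hw
    have hsN : s ∈ normalizer (((zP p ↥A).map A.subtype : Subgroup G) : Set G) := by
      rw [hNW]; exact hSA hs
    have hw' : s⁻¹ * w * s ∈ (zP p ↥A).map A.subtype := by
      have := (mem_normalizer_iff.mp (inv_mem hsN) w).mp hw
      rwa [inv_inv] at this
    have hc := (mem_centralizer_iff.mp hy.2) _ hw'
    calc w * (s * y * s⁻¹) = s * ((s⁻¹ * w * s) * y) * s⁻¹ := by group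
      _ = s * (y * (s⁻¹ * w * s)) * s⁻¹ := by rw [hc]
      _ = s * y * s⁻¹ * w := by group
  have hY1 := lemmaK_layer hyp hYp.isNilpotent hSY
  have hY2 := lemmaK_fit hyp hYp hSY
  by_cases hE : Cfsg.layer ↥A = ⊥
  · -- `O_{p'}(F(A)) ≠ 1`
    have hfit : fitP' p ↥A ≠ ⊥ := by
      intro h
      apply hD
      rw [hE, h, bot_sup_eq]
    have hVn := zP'_normal (A := ↥A) p
    have hVne := zP'_ne_bot hfit
    have hVS := zP'_le hyp p
    have hNV := normalizer_map_eq hA hVn hVne
    have hVGS : (zP' p ↥A).map A.subtype ≤ S := by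
      rintro _ ⟨w, hw, rfl⟩
      exact mem_subgroupOf.mp (hVS hw)
    have hAB : ⁅(zP' p ↥A).map A.subtype, (zP p ↥A).map A.subtype⁆ = ⊥ := by
      rw [commutator_eq_bot_iff_le_centralizer]
      rintro _ ⟨v, hv, rfl⟩
      rw [mem_centralizer_iff]
      rintro _ ⟨w, hw, rfl⟩
      have hwF : w ∈ Cfsg.generalizedFittingSubgroup ↥A :=
        (Cfsg.Agent.Helper22.fittingSubgroup_le_generalizedFittingSubgroup ↥A)
          (pCore_le_fitting p hw.1)
      have := (mem_centralizer_iff.mp hv.2) w hwF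
      exact congrArg Subtype.val this
    have hcop : (Nat.card ((zP' p ↥A).map A.subtype)).Coprime p := by
      rw [Nat.card_congr ((zP' p ↥A).equivMapOfInjective A.subtype
        A.subtype_injective).toEquiv.symm]
      exact card_zP'_coprime p
    have hkey := Cfsg.Agent.Helper24.thompson_AxB ((zP' p ↥A).map A.subtype)
      ((zP p ↥A).map A.subtype) hWGp hAB hcop (Nat.card ((Cfsg.pCore p ↥B).map B.subtype))
      ((Cfsg.pCore p ↥B).map B.subtype) le_rfl hXp (hVGS.trans (hSB.trans hBX))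
      (hWGS.trans (hSB.trans hBX)) (by
        intro y hy
        rw [mem_centralizer_iff]
        rintro _ ⟨v, hv, rfl⟩
        have hy' : (⟨y, hYA hy⟩ : ↥A) ∈ ((Cfsg.pCore p ↥B).map B.subtype ⊓
            centralizer (((zP p ↥A).map A.subtype : Subgroup G) : Set G)).subgroupOf A :=
          mem_subgroupOf.mpr hy
        have := comm_of_conj_eq (hY2 _ hy' v hv.1)
        exact (congrArg Subtype.val this).symm)
    intro x hx
    rw [← hNV]
    apply centralizer_le_normalizer
    rw [mem_centralizer_iff]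
    intro v hv
    exact ((mem_centralizer_iff.mp (hkey hx)) v hv)
  · -- `E(A) ≠ 1`
    have hTn := layerP'_normal (A := ↥A) p
    have hTne := layerP'_ne_bot (p := p) hE
    have hNT := normalizer_map_eq hA hTn hTne
    have hTX : (layerP' p ↥A).map A.subtype ≤
        centralizer (((Cfsg.pCore p ↥B).map B.subtype : Subgroup G) : Set G) := by
      rw [layerP', MonoidHom.map_closure, closure_le]
      rintro _ ⟨t, ⟨ht1, ht2⟩, rfl⟩
      have htS : (t : G) ∈ S := mem_subgroupOf.mp (layer_le hyp ht1)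
      have htF : t ∈ Cfsg.generalizedFittingSubgroup ↥A :=
        (Cfsg.Agent.Helper22.layer_le_generalizedFittingSubgroup ↥A) ht1
      have hAB : ⁅zpowers (t : G), (zP p ↥A).map A.subtype⁆ = ⊥ := by
        rw [commutator_eq_bot_iff_le_centralizer, zpowers_le, mem_centralizer_iff]
        rintro _ ⟨w, hw, rfl⟩
        have := (mem_centralizer_iff.mp hw.2) t htF
        exact (congrArg Subtype.val this).symm
      have hcop : (Nat.card (zpowers (t : G))).Coprime p := by
        rw [Nat.card_zpowers, Subgroup.orderOf_coe]; exact ht2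
      have hkey := Cfsg.Agent.Helper24.thompson_AxB (zpowers (t : G))
        ((zP p ↥A).map A.subtype) hWGp hAB hcop (Nat.card ((Cfsg.pCore p ↥B).map B.subtype))
        ((Cfsg.pCore p ↥B).map B.subtype) le_rfl hXp (zpowers_le.mpr (hBX (hSB htS)))
        (hWGS.trans (hSB.trans hBX)) (by
          intro y hy
          rw [mem_centralizer_iff]
          intro h hh
          obtain ⟨k, rfl⟩ := mem_zpowers_iff.mp hh
          have hy' : (⟨y, hYA hy⟩ : ↥A) ∈ ((Cfsg.pCore p ↥B).map B.subtype ⊓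
              centralizer (((zP p ↥A).map A.subtype : Subgroup G) : Set G)).subgroupOf A :=
            mem_subgroupOf.mpr hy
          have e1 := hY1 _ hy' t ht1
          have e2 : y * (t : G) = (t : G) * y := congrArg Subtype.val e1
          have e3 : Commute (t : G) y := e2.symm
          exact (e3.zpow_left k).eq)
      show (t : G) ∈ centralizer (((Cfsg.pCore p ↥B).map B.subtype : Subgroup G) : Set G)
      rw [mem_centralizer_iff]
      intro x hx
      exact ((mem_centralizer_iff.mp (hkey hx)) (t : G) (mem_zpowers _)).symm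
    intro x hx
    rw [← hNT]
    apply centralizer_le_normalizer
    rw [mem_centralizer_iff]
    intro t ht
    exact ((mem_centralizer_iff.mp (hTX ht)) x hx).symm

theorem part_b [IsSimpleGroup G] (A : Subgroup G) (hA : IsCoatom A) (S : Subgroup G)
    (hSA : S ≤ A) (hyp : Hyp (S.subgroupOf A)) (B : Subgroup G) (hSB : S ≤ B) (p : ℕ)
    (hp : p.Prime) (hpF : p ∣ Nat.card (Cfsg.fittingSubgroup ↥A)) :
    ∀ x ∈ (Cfsg.pCore p ↥B).map B.subtype,
      ∀ y ∈ (Cfsg.pResidual p ↥(Cfsg.generalizedFittingSubgroup ↥A)).map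
        ((Cfsg.generalizedFittingSubgroup ↥A).subtype), x * (A.subtype y) = (A.subtype y) * x := by
  have : Fact p.Prime := ⟨hp⟩
  intro x hx y hy
  have key : ∀ g : ↥(Cfsg.generalizedFittingSubgroup ↥A), (orderOf g).Coprime p →
      x * ((g : ↥A) : G) = ((g : ↥A) : G) * x := by
    intro g hgo
    have hgA : (orderOf (g : ↥A)).Coprime p := by rw [Subgroup.orderOf_coe]; exact hgo
    have hmem := mem_sup_of_coprime (p := p) g.2 hgA
    by_cases hD : Cfsg.layer ↥A ⊔ fitP' p ↥A = ⊥
    · rw [hD, mem_bot] at hmem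
      rw [hmem]
      simp
    have hXA := pCore_le A hA S hSA hyp B hSB p hpF hD
    have hXp : IsPGroup p (((Cfsg.pCore p ↥B).map B.subtype).subgroupOf A) :=
      (isPGroup_map_pCore B p).comap_subtype
    have hSX : S.subgroupOf A ≤
        normalizer ((((Cfsg.pCore p ↥B).map B.subtype).subgroupOf A : Subgroup ↥A) : Set ↥A) :=
      le_normalizer_subgroupOf (hSB.trans (le_normalizer_map_pCore B p))
    have h1 := lemmaK_layer hyp hXp.isNilpotent hSX
    have h2 := lemmaK_fit hyp hXp hSX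
    have hx' : (⟨x, hXA hx⟩ : ↥A) ∈ ((Cfsg.pCore p ↥B).map B.subtype).subgroupOf A :=
      mem_subgroupOf.mpr hx
    have hLn := Cfsg.Agent.Helper22.layer_normal ↥A
    rw [← SetLike.mem_coe, Subgroup.normal_mul] at hmem
    obtain ⟨e, he, n, hn, hen⟩ := Set.mem_mul.mp hmem
    have e1 := h1 _ hx' e he
    have e2 := comm_of_conj_eq (h2 _ hx' n hn)
    have e3 : (⟨x, hXA hx⟩ : ↥A) * (g : ↥A) = (g : ↥A) * ⟨x, hXA hx⟩ := by
      rw [← hen]
      calc (⟨x, hXA hx⟩ : ↥A) * (e * n) = (⟨x, hXA hx⟩ * e) * n := by group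
        _ = (e * ⟨x, hXA hx⟩) * n := by rw [e1]
        _ = e * (⟨x, hXA hx⟩ * n) := by group
        _ = e * (n * ⟨x, hXA hx⟩) := by rw [e2]
        _ = e * n * ⟨x, hXA hx⟩ := by group
    exact congrArg Subtype.val e3
  have hle : Cfsg.pResidual p ↥(Cfsg.generalizedFittingSubgroup ↥A) ≤
      (centralizer ({x} : Set G)).comap
        (A.subtype.comp (Cfsg.generalizedFittingSubgroup ↥A).subtype) := by
    unfold Cfsg.pResidual
    rw [closure_le]
    intro g hg
    show A.subtype ((Cfsg.generalizedFittingSubgroup ↥A).subtype g) ∈ centralizer ({x} : Set G)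
    rw [mem_centralizer_iff]
    intro h hh
    rw [Set.mem_singleton_iff] at hh
    rw [hh]
    exact key g hg
  obtain ⟨g, hg, rfl⟩ := hy
  have h3 := hle hg
  have h4 : A.subtype ((Cfsg.generalizedFittingSubgroup ↥A).subtype g) ∈
      centralizer ({x} : Set G) := h3
  exact (mem_centralizer_iff.mp h4) x rfl

end BL

end Cfsg.Agent.Helper21
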