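import Mathlib

/-!
# The principal 2-block of a group with dihedral Sylow 2-subgroups (helper21)

Part A: the combinatorial core.  A family of integer vectors `Y k` (`k` a nonzero residue) whose
Gram matrix is `2 + [k = k'] + [k = -k']`, containing a common coordinate equal to one and
orthogonal to a positive "degree" vector, has the shape of Brauer's theorem.
-/

set_option autoImplicit false
set_option linter.unusedSectionVars false

namespace Cfsg.Agent.Helper21.DihBlk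

section small

variable {ι : Type*} [DecidableEq ι]

/-- An integer whose square is at most three is `0`, `1` or `-1`. -/
theorem dbSmall (x : ℤ) (h : x ^ 2 ≤ 3) : x = 0 ∨ x = 1 ∨ x = -1 := by
  have h1 : x ≤ 1 := by nlinarith
  have h2 : -1 ≤ x := by nlinarith
  omega

/-- A function vanishes outside a finite set carrying its whole norm. -/
theorem dbSuppOfNorm [Fintype ι] (f : ι → ℤ) (s : Finset ι)
    (h : ∑ i, f i ^ 2 ≤ ∑ i ∈ s, f i ^ 2) (i : ι) (hi : i ∉ s) : f i = 0 := by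
  have h1 : f i ^ 2 + ∑ i ∈ s, f i ^ 2 ≤ ∑ i, f i ^ 2 := by
    rw [← Finset.sum_insert (f := fun j => f j ^ 2) hi]
    exact Finset.sum_le_sum_of_subset_of_nonneg (Finset.subset_univ _)
      (fun j _ _ => sq_nonneg (f j))
  have h2 : f i ^ 2 ≤ 0 := by linarith
  have h3 : f i ^ 2 = 0 := le_antisymm h2 (sq_nonneg _)
  exact pow_eq_zero_iff (by norm_num) |>.mp h3

omit [DecidableEq ι] in
/-- Sums against a function supported on a finite set. -/
theorem dbSumSupp [Fintype ι] (f g : ι → ℤ) (s : Finset ι)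
    (h : ∀ i, i ∉ s → f i = 0) : ∑ i, f i * g i = ∑ i ∈ s, f i * g i := by
  symm
  apply Finset.sum_subset (Finset.subset_univ _)
  intro i _ hi
  rw [h i hi, zero_mul]

/-- A vector of norm two on a finite set: two entries `±1`. -/
theorem dbNormTwo (f : ι → ℤ) (S : Finset ι) (h : ∑ i ∈ S, f i ^ 2 = 2) :
    ∃ a b, a ∈ S ∧ b ∈ S ∧ a ≠ b ∧ (f a = 1 ∨ f a = -1) ∧ (f b = 1 ∨ f b = -1) ∧
      ∀ i ∈ S, i ≠ a → i ≠ b → f i = 0 := by
  have hle : ∀ i ∈ S, f i ^ 2 ≤ 3 := by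
    intro i hi
    have := Finset.single_le_sum (fun j _ => sq_nonneg (f j)) hi
    linarith
  have hval : ∀ i ∈ S, f i ^ 2 = if f i ≠ 0 then 1 else 0 := by
    intro i hi
    rcases dbSmall (f i) (hle i hi) with h0 | h0 | h0 <;> rw [h0] <;> norm_num
  have hcard : (S.filter (fun i => f i ≠ 0)).card = 2 := by
    have h1 : ∑ i ∈ S, f i ^ 2 = ∑ i ∈ S, if f i ≠ 0 then (1 : ℤ) else 0 :=
      Finset.sum_congr rfl hval
    rw [h1, Finset.sum_boole] at h
    exact_mod_cast h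
  obtain ⟨a, b, hab, hfil⟩ := Finset.card_eq_two.mp hcard
  have ha : a ∈ S.filter (fun i => f i ≠ 0) := by rw [hfil]; simp
  have hb : b ∈ S.filter (fun i => f i ≠ 0) := by rw [hfil]; simp
  rw [Finset.mem_filter] at ha hb
  refine ⟨a, b, ha.1, hb.1, hab, ?_, ?_, ?_⟩
  · rcases dbSmall (f a) (hle a ha.1) with h0 | h0 | h0
    · exact absurd h0 ha.2
    · exact Or.inl h0
    · exact Or.inr h0
  · rcases dbSmall (f b) (hle b hb.1) with h0 | h0 | h0
    · exact absurd h0 hb.2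
    · exact Or.inl h0
    · exact Or.inr h0
  · intro i hi hia hib
    by_contra hne
    have : i ∈ S.filter (fun i => f i ≠ 0) := Finset.mem_filter.mpr ⟨hi, hne⟩
    rw [hfil] at this
    simp at this
    rcases this with h0 | h0
    · exact hia h0
    · exact hib h0

/-- The local shape: a vector with a coordinate one at `o`, norm three and orthogonal to a
positive vector `d` with `d o = 1` is `e_o + e_p - e_q`. -/
theorem dbTwo [Fintype ι] (f d : ι → ℤ) (o : ι) (hfo : f o = 1) (hnorm : ∑ i, f i ^ 2 = 3)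
    (hd : ∀ i, 0 < d i) (hdo : d o = 1) (hdeg : ∑ i, f i * d i = 0) :
    ∃ p q, p ≠ o ∧ q ≠ o ∧ p ≠ q ∧ f p = 1 ∧ f q = -1 ∧
      ∀ i, i ≠ o → i ≠ p → i ≠ q → f i = 0 := by
  have h2 : ∑ i ∈ Finset.univ.erase o, f i ^ 2 = 2 := by
    have := Finset.add_sum_erase Finset.univ (fun i => f i ^ 2) (Finset.mem_univ o)
    rw [hfo] at this
    linarith
  obtain ⟨a, b, ha, hb, hab, hfa, hfb, hrest⟩ := dbNormTwo f (Finset.univ.erase o) h2
  have hao : a ≠ o := Finset.ne_of_mem_erase ha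
  have hbo : b ≠ o := Finset.ne_of_mem_erase hb
  have hsupp : ∀ i, i ∉ ({o, a, b} : Finset ι) → f i = 0 := by
    intro i hi
    simp only [Finset.mem_insert, Finset.mem_singleton, not_or] at hi
    exact hrest i (Finset.mem_erase.mpr ⟨hi.1, Finset.mem_univ _⟩) hi.2.1 hi.2.2
  have hsum := dbSumSupp f d {o, a, b} hsupp
  rw [hdeg, Finset.sum_insert (by simp [hao.symm, hbo.symm]),
    Finset.sum_insert (by simp [hab]), Finset.sum_singleton, hfo, hdo] at hsum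
  have hda := hd a
  have hdb := hd b
  rcases hfa with hfa | hfa <;> rcases hfb with hfb | hfb
  · rw [hfa, hfb] at hsum; exfalso; linarith
  · refine ⟨a, b, hao, hbo, hab, hfa, hfb, ?_⟩
    intro i hio hia hib
    exact hsupp i (by simp [hio, hia, hib])
  · refine ⟨b, a, hbo, hao, hab.symm, hfb, hfa, ?_⟩
    intro i hio hib hia
    exact hsupp i (by simp [hio, hia, hib])
  · rw [hfa, hfb] at hsum; exfalso; linarith

/-- Expansion of a sum along the local shape. -/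
theorem dbExpand [Fintype ι] (f g : ι → ℤ) (o p q : ι) (t : ℤ) (hpo : p ≠ o) (hqo : q ≠ o)
    (hpq : p ≠ q) (hfo : f o = 1) (hfp : f p = t) (hfq : f q = -t)
    (hsupp : ∀ i, i ≠ o → i ≠ p → i ≠ q → f i = 0) :
    ∑ i, f i * g i = g o + t * g p - t * g q := by
  have hs : ∀ i, i ∉ ({o, p, q} : Finset ι) → f i = 0 := by
    intro i hi
    simp only [Finset.mem_insert, Finset.mem_singleton, not_or] at hi
    exact hsupp i hi.1 hi.2.1 hi.2.2
  rw [dbSumSupp f g {o, p, q} hs, Finset.sum_insert (by simp [hpo.symm, hqo.symm]),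
    Finset.sum_insert (by simp [hpq]), Finset.sum_singleton, hfo, hfp, hfq]
  ring

/-- Sign bookkeeping. -/
theorem dbSign (t x y : ℤ) (ht : t = 1 ∨ t = -1) (hx : x = 0 ∨ x = t ∨ x = -t)
    (hy : y = 0 ∨ y = t ∨ y = -t) (h : t * (x - y) = 1) :
    (x = t ∧ y = 0) ∨ (x = 0 ∧ y = -t) := by
  rcases ht with rfl | rfl <;> rcases hx with rfl | rfl | rfl <;> rcases hy with rfl | rfl | rfl <;>
    simp at h ⊢

/-- Four coordinates `1, t, t, t` exhaust a vector of norm four, which then cannot be orthogonal to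
a positive vector. -/
theorem dbFour [Fintype ι] (T d : ι → ℤ) (o a b c : ι) (t : ℤ) (ht : t = 1 ∨ t = -1)
    (hao : a ≠ o) (hbo : b ≠ o) (hco : c ≠ o) (hab : a ≠ b) (hac : a ≠ c) (hbc : b ≠ c)
    (hTo : T o = 1) (hTa : T a = t) (hTb : T b = t) (hTc : T c = t)
    (hnorm : ∑ i, T i ^ 2 = 4) (hd : ∀ i, 0 < d i) (hdo : d o = 1)
    (hdeg : ∑ i, T i * d i = 0) : False := by
  have ht2 : t ^ 2 = 1 := by rcases ht with rfl | rfl <;> norm_num
  have hs4 : ∑ i ∈ ({o, a, b, c} : Finset ι), T i ^ 2 = 4 := by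
    rw [Finset.sum_insert (by simp [hao.symm, hbo.symm, hco.symm]),
      Finset.sum_insert (by simp [hab, hac]), Finset.sum_insert (by simp [hbc]),
      Finset.sum_singleton, hTo, hTa, hTb, hTc, ht2]
    norm_num
  have hsupp : ∀ i, i ∉ ({o, a, b, c} : Finset ι) → T i = 0 :=
    fun i hi => dbSuppOfNorm T _ (by rw [hnorm, hs4]) i hi
  have hsum := dbSumSupp T d {o, a, b, c} hsupp
  rw [hdeg, Finset.sum_insert (by simp [hao.symm, hbo.symm, hco.symm]),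
    Finset.sum_insert (by simp [hab, hac]), Finset.sum_insert (by simp [hbc]),
    Finset.sum_singleton, hTo, hTa, hTb, hTc, hdo] at hsum
  have h1 := hd a
  have h2 := hd b
  have h3 := hd c
  rcases ht with rfl | rfl
  · linarith
  · linarith

/-- Two coordinates carry at most the whole norm. -/
theorem dbPairLe [Fintype ι] (f : ι → ℤ) (o i : ι) (hio : i ≠ o) :
    f o ^ 2 + f i ^ 2 ≤ ∑ j, f j ^ 2 := by
  have h : ∑ j ∈ ({o, i} : Finset ι), f j ^ 2 = f o ^ 2 + f i ^ 2 := by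
    rw [Finset.sum_insert (by simp [hio.symm]), Finset.sum_singleton]
  rw [← h]
  exact Finset.sum_le_sum_of_subset_of_nonneg (Finset.subset_univ _)
    (fun j _ _ => sq_nonneg (f j))

end small

section main

variable {ι K : Type*} [Fintype ι] [DecidableEq ι] [AddGroup K] [DecidableEq K]

/-- The hypotheses of the combinatorial theorem. -/
structure DbHyp (o : ι) (one Nn : K) (Y : K → ι → ℤ) (d : ι → ℤ) : Prop where
  hone0 : one ≠ 0
  honeN : one ≠ Nn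
  hN0 : Nn ≠ 0
  hNneg : Nn = -Nn
  hneg : ∀ k : K, k = -k → k = 0 ∨ k = Nn
  hthird : ∀ k : K, k ≠ 0 → k ≠ Nn → k ≠ one → k ≠ -one →
    ∃ k₃ : K, k₃ ≠ 0 ∧ k₃ ≠ Nn ∧ k₃ ≠ one ∧ k₃ ≠ -one ∧ k₃ ≠ k ∧ k₃ ≠ -k
  hG : ∀ k k' : K, k ≠ 0 → k' ≠ 0 →
    ∑ i, Y k i * Y k' i = 2 + (if k = k' then 1 else 0) + (if k = -k' then 1 else 0)
  ho : ∀ k : K, k ≠ 0 → Y k o = 1
  hd : ∀ i, 0 < d i
  hdo : d o = 1
  hD : ∀ k : K, k ≠ 0 → ∑ i, Y k i * d i = 0
  hall : ∀ i, ∃ k : K, k ≠ 0 ∧ Y k i ≠ 0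

variable {o : ι} {one Nn : K} {Y : K → ι → ℤ} {d : ι → ℤ}

theorem DbHyp.neg_eq (h : DbHyp o one Nn Y d) (k : K) (hk : k ≠ 0) (i : ι) :
    Y (-k) i = Y k i := by
  have hnk : -k ≠ 0 := neg_ne_zero.mpr hk
  have hsum : ∑ i, (Y k i - Y (-k) i) ^ 2 = 0 := by
    have e : ∀ i, (Y k i - Y (-k) i) ^ 2 =
        Y k i * Y k i - 2 * (Y k i * Y (-k) i) + Y (-k) i * Y (-k) i := by
      intro i; ring
    simp only [e, Finset.sum_add_distrib, Finset.sum_sub_distrib, ← Finset.mul_sum]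
    rw [h.hG k k hk hk, h.hG k (-k) hk hnk, h.hG (-k) (-k) hnk hnk, neg_neg]
    by_cases hkk : k = -k
    · have hkk' : -k = k := hkk.symm
      simp [hkk']
    · have hkk' : ¬ -k = k := fun h' => hkk h'.symm
      simp [hkk, hkk']
  have hz := (Finset.sum_eq_zero_iff_of_nonneg (fun j _ => sq_nonneg (Y k j - Y (-k) j))).mp hsum
    i (Finset.mem_univ i)
  have hz' : Y k i - Y (-k) i = 0 := pow_eq_zero_iff (by norm_num) |>.mp hz
  linarith

theorem DbHyp.norm3 (h : DbHyp o one Nn Y d) (k : K) (hk : k ≠ 0) (hkN : k ≠ Nn) :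
    ∑ i, Y k i ^ 2 = 3 := by
  have h1 := h.hG k k hk hk
  have hkk : ¬ k = -k := fun h' => by
    rcases h.hneg k h' with h2 | h2
    · exact hk h2
    · exact hkN h2
  rw [if_pos rfl, if_neg hkk] at h1
  simp only [pow_two]
  rw [h1]
  norm_num

theorem DbHyp.norm4 (h : DbHyp o one Nn Y d) : ∑ i, Y Nn i ^ 2 = 4 := by
  have h1 := h.hG Nn Nn h.hN0 h.hN0
  rw [if_pos rfl, if_pos h.hNneg] at h1
  simp only [pow_two]
  rw [h1]
  norm_num

theorem DbHyp.inner2 (h : DbHyp o one Nn Y d) (k k' : K) (hk : k ≠ 0) (hk' : k' ≠ 0)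
    (h1 : k ≠ k') (h2 : k ≠ -k') : ∑ i, Y k i * Y k' i = 2 := by
  rw [h.hG k k' hk hk', if_neg h1, if_neg h2]
  norm_num

theorem DbHyp.pairN (h : DbHyp o one Nn Y d) (k : K) (hk : k ≠ 0) (hkN : k ≠ Nn) :
    ∑ i, Y k i * Y Nn i = 2 :=
  h.inner2 k Nn hk h.hN0 hkN (fun h' => hkN (h'.trans h.hNneg.symm))

/-- The local shape of `Y k`. -/
theorem DbHyp.local (h : DbHyp o one Nn Y d) (k : K) (hk : k ≠ 0) (hkN : k ≠ Nn) :
    ∃ p q, p ≠ o ∧ q ≠ o ∧ p ≠ q ∧ Y k p = 1 ∧ Y k q = -1 ∧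
      ∀ i, i ≠ o → i ≠ p → i ≠ q → Y k i = 0 :=
  dbTwo (Y k) d o (h.ho k hk) (h.norm3 k hk hkN) h.hd h.hdo (h.hD k hk)

/-- Entries of `Y Nn` away from `o` are `0`, `1` or `-1`. -/
theorem DbHyp.small (h : DbHyp o one Nn Y d) (i : ι) (hi : i ≠ o) :
    Y Nn i = 0 ∨ Y Nn i = 1 ∨ Y Nn i = -1 := by
  apply dbSmall
  have h1 := dbPairLe (Y Nn) o i hi
  rw [h.norm4, h.ho Nn h.hN0] at h1
  linarith

/-- The local shape of `Y k` relative to a sign `t`. -/
theorem DbHyp.localS (h : DbHyp o one Nn Y d) (t : ℤ) (ht : t = 1 ∨ t = -1) (k : K) (hk : k ≠ 0)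
    (hkN : k ≠ Nn) :
    ∃ a b, a ≠ o ∧ b ≠ o ∧ a ≠ b ∧ Y k a = t ∧ Y k b = -t ∧
      (∀ i, i ≠ o → i ≠ a → i ≠ b → Y k i = 0) ∧
      (∀ i, i ≠ o → (Y k i = 0 ∨ Y k i = t ∨ Y k i = -t)) ∧
      (∀ i, i ≠ o → Y k i = t → i = a) ∧ (∀ i, i ≠ o → Y k i = -t → i = b) ∧
      ∀ g : ι → ℤ, ∑ i, Y k i * g i = g o + t * g a - t * g b := by
  obtain ⟨p, q, hpo, hqo, hpq, hYp, hYq, hsupp⟩ := h.local k hk hkN
  have key : ∀ a b, a ≠ o → b ≠ o → a ≠ b → Y k a = t → Y k b = -t →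
      (∀ i, i ≠ o → i ≠ a → i ≠ b → Y k i = 0) →
      ∃ a b, a ≠ o ∧ b ≠ o ∧ a ≠ b ∧ Y k a = t ∧ Y k b = -t ∧
      (∀ i, i ≠ o → i ≠ a → i ≠ b → Y k i = 0) ∧
      (∀ i, i ≠ o → (Y k i = 0 ∨ Y k i = t ∨ Y k i = -t)) ∧
      (∀ i, i ≠ o → Y k i = t → i = a) ∧ (∀ i, i ≠ o → Y k i = -t → i = b) ∧
      ∀ g : ι → ℤ, ∑ i, Y k i * g i = g o + t * g a - t * g b := by
    intro a b hao hbo hab hYa hYb hs
    have ht0 : t ≠ 0 := by rcases ht with rfl | rfl <;> norm_num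
    have htt : t ≠ -t := by rcases ht with rfl | rfl <;> norm_num
    refine ⟨a, b, hao, hbo, hab, hYa, hYb, hs, ?_, ?_, ?_, ?_⟩
    · intro i hi
      by_cases h1 : i = a
      · right; left; rw [h1]; exact hYa
      · by_cases h2 : i = b
        · right; right; rw [h2]; exact hYb
        · left; exact hs i hi h1 h2
    · intro i hi hit
      by_contra h1
      by_cases h2 : i = b
      · rw [h2, hYb] at hit
        exact htt hit.symm
      · rw [hs i hi h1 h2] at hit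
        exact ht0 hit.symm
    · intro i hi hit
      by_contra h2
      by_cases h1 : i = a
      · rw [h1, hYa] at hit
        exact htt hit
      · rw [hs i hi h1 h2] at hit
        have : t = 0 := by linarith
        exact ht0 this
    · intro g
      exact dbExpand (Y k) g o a b t hao hbo hab (h.ho k hk) hYa hYb hs
  rcases ht with rfl | rfl
  · exact key p q hpo hqo hpq hYp hYq hsupp
  · exact key q p hqo hpo hpq.symm hYq (by rw [hYp]; norm_num)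
      (fun i hio hiq hip => hsupp i hio hip hiq)

/-- The heart of the matter: a common coordinate. -/
theorem DbHyp.cruxS (h : DbHyp o one Nn Y d) (t : ℤ) (ht : t = 1 ∨ t = -1) (a₁ b₁ : ι)
    (ha₁o : a₁ ≠ o) (hb₁o : b₁ ≠ o) (hYa₁ : Y one a₁ = t)
    (hexp₁ : ∀ g : ι → ℤ, ∑ i, Y one i * g i = g o + t * g a₁ - t * g b₁)
    (hTa : Y Nn a₁ = t) (hTb : Y Nn b₁ = 0) (k : K) (hk : k ≠ 0) (hkN : k ≠ Nn) :
    Y k a₁ = t := by
  by_cases hk1 : k = one
  · rw [hk1]; exact hYa₁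
  by_cases hk1' : k = -one
  · rw [hk1', h.neg_eq one h.hone0]; exact hYa₁
  by_contra hne
  -- pairing with the base index
  have hpair1 : ∀ k' : K, k' ≠ 0 → k' ≠ Nn → k' ≠ one → k' ≠ -one →
      t * (Y k' a₁ - Y k' b₁) = 1 := by
    intro k' hk' _ h1 h1'
    have e := hexp₁ (Y k')
    rw [h.inner2 one k' h.hone0 hk' (Ne.symm h1) (fun h' => h1' (by rw [h', neg_neg])),
      h.ho k' hk'] at e
    linarith
  obtain ⟨a, b, hao, hbo, hab, hYa, hYb, -, hv, huA, huB, hexp⟩ := h.localS t ht k hk hkN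
  -- step 1: `Y k a₁ = 0`, `Y k b₁ = -t`
  have hp := hpair1 k hk hkN hk1 hk1'
  rcases dbSign t _ _ ht (hv a₁ ha₁o) (hv b₁ hb₁o) hp with ⟨h1, -⟩ | ⟨hka₁, hkb₁⟩
  · exact hne h1
  have hb₁b : b₁ = b := huB b₁ hb₁o hkb₁
  have hTk : t * (Y Nn a - Y Nn b) = 1 := by
    have e := hexp (Y Nn)
    rw [h.pairN k hk hkN, h.ho Nn h.hN0] at e
    linarith
  have hTa' : Y Nn a = t := by
    rw [← hb₁b, hTb, sub_zero] at hTk
    rcases ht with rfl | rfl <;> linarith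
  have haa₁ : a ≠ a₁ := by
    intro h'
    rw [h'] at hYa
    exact hne hYa
  -- the third index
  obtain ⟨k₃, hk₃0, hk₃N, hk₃1, hk₃1', hk₃k, hk₃k'⟩ := h.hthird k hk hkN hk1 hk1'
  obtain ⟨a₃, b₃, ha₃o, hb₃o, hab₃, hYa₃, hYb₃, -, hv₃, huA₃, huB₃, hexp₃⟩ :=
    h.localS t ht k₃ hk₃0 hk₃N
  have hp3 := hpair1 k₃ hk₃0 hk₃N hk₃1 hk₃1'
  have hp3k : t * (Y k₃ a - Y k₃ b) = 1 := by
    have e := hexp (Y k₃)
    rw [h.inner2 k k₃ hk hk₃0 (Ne.symm hk₃k) (fun h' => hk₃k' (by rw [h', neg_neg])),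
      h.ho k₃ hk₃0] at e
    linarith
  have hT3 : t * (Y Nn a₃ - Y Nn b₃) = 1 := by
    have e := hexp₃ (Y Nn)
    rw [h.pairN k₃ hk₃0 hk₃N, h.ho Nn h.hN0] at e
    linarith
  rcases dbSign t _ _ ht (hv₃ a₁ ha₁o) (hv₃ b₁ hb₁o) hp3 with ⟨h3a, h3b⟩ | ⟨h3a, h3b⟩
  · rw [← hb₁b, h3b, sub_zero] at hp3k
    have h3a' : Y k₃ a = t := by rcases ht with rfl | rfl <;> linarith
    have e1 := huA₃ a₁ ha₁o h3a
    have e2 := huA₃ a hao h3a'
    exact haa₁ (e2.trans e1.symm)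
  · have hb₁b₃ : b₁ = b₃ := huB₃ b₁ hb₁o h3b
    have hTa₃ : Y Nn a₃ = t := by
      rw [← hb₁b₃, hTb, sub_zero] at hT3
      rcases ht with rfl | rfl <;> linarith
    have ha₃a₁ : a₃ ≠ a₁ := by
      intro h'
      rw [h', h3a] at hYa₃
      rcases ht with rfl | rfl <;> simp at hYa₃
    have ha₃a : a₃ ≠ a := by
      intro h'
      rw [← hb₁b, h3b, ← h', hYa₃] at hp3k
      rcases ht with rfl | rfl <;> norm_num at hp3k
    exact dbFour (Y Nn) d o a₁ a a₃ t ht ha₁o hao ha₃o (Ne.symm haa₁) (Ne.symm ha₃a₁)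
      (Ne.symm ha₃a) (h.ho Nn h.hN0) hTa hTa' hTa₃ h.norm4 h.hd h.hdo (h.hD Nn h.hN0)

/-- A common coordinate exists. -/
theorem DbHyp.crux (h : DbHyp o one Nn Y d) :
    ∃ (X : ι) (ε : ℤ), (ε = 1 ∨ ε = -1) ∧ X ≠ o ∧ Y Nn X = ε ∧
      ∀ k : K, k ≠ 0 → k ≠ Nn → Y k X = ε := by
  obtain ⟨a, b, hao, hbo, hab, hYa, hYb, -, -, -, -, hexp⟩ :=
    h.localS 1 (Or.inl rfl) one h.hone0 h.honeN
  have hT : 1 * (Y Nn a - Y Nn b) = 1 := by
    have e := hexp (Y Nn)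
    rw [h.pairN one h.hone0 h.honeN, h.ho Nn h.hN0] at e
    linarith
  rcases dbSign 1 _ _ (Or.inl rfl) (h.small a hao) (h.small b hbo) hT with ⟨hTa, hTb⟩ | ⟨hTa, hTb⟩
  · exact ⟨a, 1, Or.inl rfl, hao, hTa, fun k hk hkN =>
      h.cruxS 1 (Or.inl rfl) a b hao hbo hYa hexp hTa hTb k hk hkN⟩
  · refine ⟨b, -1, Or.inr rfl, hbo, hTb, fun k hk hkN =>
      h.cruxS (-1) (Or.inr rfl) b a hbo hao hYb ?_ hTb hTa k hk hkN⟩
    intro g
    rw [hexp g]
    ring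

/-- **The combinatorial theorem.** -/
theorem DbHyp.main (h : DbHyp o one Nn Y d) :
    ∃ (X U V : ι) (Z : K → ι) (ε εU εV : ℤ), (ε = 1 ∨ ε = -1) ∧ (εU = 1 ∨ εU = -1) ∧
      (εV = 1 ∨ εV = -1) ∧ X ≠ o ∧ U ≠ o ∧ V ≠ o ∧ X ≠ U ∧ X ≠ V ∧ U ≠ V ∧
      (∀ k : K, k ≠ 0 → k ≠ Nn → Z k ≠ o ∧ Z k ≠ X ∧ Z k ≠ U ∧ Z k ≠ V) ∧
      (∀ k k' : K, k ≠ 0 → k ≠ Nn → k' ≠ 0 → k' ≠ Nn → Z k = Z k' → k = k' ∨ k = -k') ∧
      (∀ i, i = o ∨ i = X ∨ i = U ∨ i = V ∨ ∃ k : K, k ≠ 0 ∧ k ≠ Nn ∧ i = Z k) ∧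
      (∀ k : K, k ≠ 0 → Y k X = ε) ∧
      (∀ k : K, k ≠ 0 → Y k U = if k = Nn then εU else 0) ∧
      (∀ k : K, k ≠ 0 → Y k V = if k = Nn then εV else 0) ∧
      (∀ k k' : K, k ≠ 0 → k' ≠ 0 → k' ≠ Nn →
        Y k (Z k') = if k = k' ∨ k = -k' then -ε else 0) := by
  obtain ⟨X, ε, hε, hXo, hTX, hcr⟩ := h.crux
  have hε2 : ε * ε = 1 := by rcases hε with rfl | rfl <;> norm_num
  have hε0 : ε ≠ 0 := by rcases hε with rfl | rfl <;> norm_num
  have : Nonempty ι := ⟨o⟩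
  -- the second coordinate of `Y k`
  have hz : ∀ k : K, k ≠ 0 → k ≠ Nn → ∃ z, z ≠ o ∧ z ≠ X ∧ Y k z = -ε ∧
      (∀ i, i ≠ o → i ≠ X → i ≠ z → Y k i = 0) ∧
      ∀ g : ι → ℤ, ∑ i, Y k i * g i = g o + ε * g X - ε * g z := by
    intro k hk hkN
    obtain ⟨a, b, hao, hbo, hab, hYa, hYb, hs, -, huA, -, hexp⟩ := h.localS ε hε k hk hkN
    have hXa : X = a := huA X hXo (hcr k hk hkN)
    subst hXa
    exact ⟨b, hbo, hab.symm, hYb, hs, hexp⟩
  choose! Z hZ using hz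
  -- the vector `Y Nn`
  have hTo := h.ho Nn h.hN0
  have h2 : ∑ i ∈ (Finset.univ.erase o).erase X, Y Nn i ^ 2 = 2 := by
    have e1 := Finset.add_sum_erase Finset.univ (fun i => Y Nn i ^ 2) (Finset.mem_univ o)
    have e2 := Finset.add_sum_erase (Finset.univ.erase o) (fun i => Y Nn i ^ 2)
      (Finset.mem_erase.mpr ⟨hXo, Finset.mem_univ X⟩)
    rw [h.norm4] at e1
    simp only [hTo, hTX] at e1 e2
    have : ε ^ 2 = 1 := by rw [pow_two]; exact hε2
    linarith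
  obtain ⟨U, V, hU, hV, hUV, hTU, hTV, hTrest⟩ := dbNormTwo (Y Nn) _ h2
  have hUX : U ≠ X := Finset.ne_of_mem_erase hU
  have hUo : U ≠ o := Finset.ne_of_mem_erase (Finset.mem_of_mem_erase hU)
  have hVX : V ≠ X := Finset.ne_of_mem_erase hV
  have hVo : V ≠ o := Finset.ne_of_mem_erase (Finset.mem_of_mem_erase hV)
  have hTsupp : ∀ i, i ≠ o → i ≠ X → i ≠ U → i ≠ V → Y Nn i = 0 := by
    intro i hio hiX hiU hiV
    exact hTrest i (Finset.mem_erase.mpr ⟨hiX, Finset.mem_erase.mpr ⟨hio, Finset.mem_univ i⟩⟩)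
      hiU hiV
  -- values at the `Z k`
  have hTZ : ∀ k : K, k ≠ 0 → k ≠ Nn → Y Nn (Z k) = 0 := by
    intro k hk hkN
    have e := (hZ k hk hkN).2.2.2.2 (Y Nn)
    rw [h.pairN k hk hkN, hTo, hTX] at e
    rw [hε2] at e
    have e' : ε * Y Nn (Z k) = 0 := by linarith
    exact (mul_eq_zero.mp e').resolve_left hε0
  have hYZ : ∀ k k' : K, k ≠ 0 → k ≠ Nn → k' ≠ 0 → k' ≠ Nn → k ≠ k' → k ≠ -k' →
      Y k (Z k') = 0 := by
    intro k k' hk hkN hk' hk'N h1 h2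
    have e := (hZ k' hk' hk'N).2.2.2.2 (Y k)
    rw [h.inner2 k' k hk' hk (Ne.symm h1) (fun h' => h2 (by rw [h', neg_neg])), h.ho k hk,
      hcr k hk hkN] at e
    rw [hε2] at e
    have e' : ε * Y k (Z k') = 0 := by linarith
    exact (mul_eq_zero.mp e').resolve_left hε0
  have hnegε : -ε ≠ 0 := neg_ne_zero.mpr hε0
  refine ⟨X, U, V, Z, ε, Y Nn U, Y Nn V, hε, hTU, hTV, hXo, hUo, hVo, hUX.symm, hVX.symm, hUV,
    ?_, ?_, ?_, ?_, ?_, ?_, ?_⟩
  · intro k hk hkN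
    refine ⟨(hZ k hk hkN).1, (hZ k hk hkN).2.1, ?_, ?_⟩
    · intro h'
      have := hTZ k hk hkN
      rw [h'] at this
      rcases hTU with h0 | h0 <;> rw [h0] at this <;> norm_num at this
    · intro h'
      have := hTZ k hk hkN
      rw [h'] at this
      rcases hTV with h0 | h0 <;> rw [h0] at this <;> norm_num at this
  · intro k k' hk hkN hk' hk'N hZZ
    by_contra hcon
    push Not at hcon
    have e := hYZ k k' hk hkN hk' hk'N hcon.1 hcon.2
    rw [← hZZ, (hZ k hk hkN).2.2.1] at e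
    exact hnegε e
  · intro i
    obtain ⟨k, hk, hne⟩ := h.hall i
    by_cases hkN : k = Nn
    · subst hkN
      by_contra hcon
      push Not at hcon
      exact hne (hTsupp i hcon.1 hcon.2.1 hcon.2.2.1 hcon.2.2.2.1)
    · by_contra hcon
      push Not at hcon
      exact hne ((hZ k hk hkN).2.2.2.1 i hcon.1 hcon.2.1 (hcon.2.2.2.2 k hk hkN))
  · intro k hk
    by_cases hkN : k = Nn
    · rw [hkN]; exact hTX
    · exact hcr k hk hkN
  · intro k hk
    by_cases hkN : k = Nn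
    · rw [if_pos hkN, hkN]
    · rw [if_neg hkN]
      apply (hZ k hk hkN).2.2.2.1 U hUo hUX
      intro h'
      have := hTZ k hk hkN
      rw [← h'] at this
      rcases hTU with h0 | h0 <;> rw [h0] at this <;> norm_num at this
  · intro k hk
    by_cases hkN : k = Nn
    · rw [if_pos hkN, hkN]
    · rw [if_neg hkN]
      apply (hZ k hk hkN).2.2.2.1 V hVo hVX
      intro h'
      have := hTZ k hk hkN
      rw [← h'] at this
      rcases hTV with h0 | h0 <;> rw [h0] at this <;> norm_num at this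
  · intro k k' hk hk' hk'N
    by_cases h1 : k = k'
    · rw [if_pos (Or.inl h1), h1]
      exact (hZ k' hk' hk'N).2.2.1
    · by_cases h2 : k = -k'
      · rw [if_pos (Or.inr h2), h2, h.neg_eq k' hk']
        exact (hZ k' hk' hk'N).2.2.1
      · rw [if_neg (by push Not; exact ⟨h1, h2⟩)]
        by_cases hkN : k = Nn
        · rw [hkN]; exact hTZ k' hk' hk'N
        · exact hYZ k k' hk hkN hk' hk'N h1 h2

end main

end Cfsg.Agent.Helper21.DihBlk
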