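import Mathlib

/-!
# Dihedral principal block: finite Fourier analysis on a cyclic group (helper21)

Let `ψ` be a primitive additive character of a finite commutative ring `R` (in the application
`R = ZMod (2 ^ (n - 1))`), and let `A l = ∑ k, c k * ψ (k * l)`.  We express the differences
`c 0 - c k` through the values `A l`, and turn orthogonality relations between the `A`'s into
Gram relations between the difference vectors.
-/

set_option autoImplicit false

namespace Cfsg.Agent.Helper21.DihBlk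

section fourier

variable {R : Type*} [CommRing R] [Fintype R] [DecidableEq R] (ψ : AddChar R ℂ)
  (hψ : ψ.IsPrimitive)

include hψ in
theorem dbSumChar (a : R) : ∑ l : R, ψ (a * l) = if a = 0 then (Fintype.card R : ℂ) else 0 := by
  have h := AddChar.sum_mulShift a hψ
  simp_rw [mul_comm _ a] at h
  rw [h]
  split_ifs <;> simp

/-- the weights `1 - ψ(-kl)` -/
noncomputable def dbW (k l : R) : ℂ := 1 - ψ (-(k * l))

omit [Fintype R] [DecidableEq R] in
theorem dbW_zero (k : R) : dbW ψ k 0 = 0 := by simp [dbW]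

omit [Fintype R] [DecidableEq R] in
theorem dbW_zero_left (l : R) : dbW ψ 0 l = 0 := by simp [dbW]

include hψ in
theorem dbW_total (k : R) (hk : k ≠ 0) : ∑ l : R, dbW ψ k l = (Fintype.card R : ℂ) := by
  unfold dbW
  have h1 : ∀ l : R, ψ (-(k * l)) = ψ ((-k) * l) := fun l => by rw [neg_mul]
  simp_rw [h1]
  rw [Finset.sum_sub_distrib, dbSumChar ψ hψ, if_neg (neg_ne_zero.mpr hk)]
  simp

include hψ in
theorem dbW_sum (k k' : R) (hk : k ≠ 0) (hk' : k' ≠ 0) :
    ∑ l : R, dbW ψ k l * dbW ψ k' l =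
      (Fintype.card R : ℂ) * (1 + if k = -k' then 1 else 0) := by
  have h1 : ∀ l : R, dbW ψ k l * dbW ψ k' l
      = 1 - ψ ((-k) * l) - ψ ((-k') * l) + ψ ((-k - k') * l) := by
    intro l
    unfold dbW
    have h2 : ψ ((-k - k') * l) = ψ (-(k * l)) * ψ (-(k' * l)) := by
      rw [← AddChar.map_add_eq_mul]; congr 1; ring
    rw [h2, neg_mul, neg_mul]; ring
  simp_rw [h1]
  rw [Finset.sum_add_distrib, Finset.sum_sub_distrib, Finset.sum_sub_distrib, dbSumChar ψ hψ,
    dbSumChar ψ hψ, dbSumChar ψ hψ, if_neg (neg_ne_zero.mpr hk), if_neg (neg_ne_zero.mpr hk')]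
  by_cases h : k = -k'
  · rw [if_pos h, if_pos (by rw [h]; ring)]
    simp
    ring
  · rw [if_neg h, if_neg]
    · simp
    · intro h3
      apply h
      have : k = -(-k - k') - k' := by ring
      rw [this, h3]; ring

include hψ in
theorem dbW_sum_neg (k k' : R) (hk : k ≠ 0) (hk' : k' ≠ 0) :
    ∑ l : R, dbW ψ k l * dbW ψ k' (-l) =
      (Fintype.card R : ℂ) * (1 + if k = k' then 1 else 0) := by
  have h1 : ∀ l : R, dbW ψ k' (-l) = dbW ψ (-k') l := by
    intro l; unfold dbW; congr 2; ring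
  simp_rw [h1]
  rw [dbW_sum ψ hψ k (-k') hk (neg_ne_zero.mpr hk'), neg_neg]

include hψ in
/-- Fourier inversion for the differences `c 0 - c k`. -/
theorem dbInv (c A : R → ℂ) (hA : ∀ l, A l = ∑ k, c k * ψ (k * l)) (k : R) :
    (Fintype.card R : ℂ) * (c 0 - c k) = ∑ l, A l * dbW ψ k l := by
  have h1 : ∀ l, A l * dbW ψ k l = ∑ k', c k' * (ψ (k' * l) - ψ ((k' - k) * l)) := by
    intro l
    rw [hA l, Finset.sum_mul]
    refine Finset.sum_congr rfl fun k' _ => ?_
    unfold dbW
    have h2 : ψ ((k' - k) * l) = ψ (k' * l) * ψ (-(k * l)) := by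
      rw [← AddChar.map_add_eq_mul]; congr 1; ring
    rw [h2]; ring
  simp_rw [h1]
  rw [Finset.sum_comm]
  have h2 : ∀ k', ∑ l, c k' * (ψ (k' * l) - ψ ((k' - k) * l))
      = c k' * ((if k' = 0 then (Fintype.card R : ℂ) else 0)
        - (if k' = k then (Fintype.card R : ℂ) else 0)) := by
    intro k'
    rw [← Finset.mul_sum, Finset.sum_sub_distrib, dbSumChar ψ hψ, dbSumChar ψ hψ]
    simp only [sub_eq_zero]
  simp_rw [h2, mul_sub, Finset.sum_sub_distrib, mul_ite, mul_zero, Finset.sum_ite_eq',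
    Finset.mem_univ, if_true]
  ring

include hψ in
/-- The values `A l`, `l ≠ 0`, in terms of the differences. -/
theorem dbVal (c A : R → ℂ) (hA : ∀ l, A l = ∑ k, c k * ψ (k * l)) (l : R) (hl : l ≠ 0) :
    A l = -∑ k, (c 0 - c k) * ψ (k * l) := by
  have h1 : ∑ k, (c 0 - c k) * ψ (k * l) = c 0 * ∑ k, ψ (k * l) - ∑ k, c k * ψ (k * l) := by
    rw [Finset.mul_sum, ← Finset.sum_sub_distrib]
    refine Finset.sum_congr rfl fun k _ => ?_
    ring
  have h2 : ∑ k : R, ψ (k * l) = 0 := by
    have h := AddChar.sum_mulShift l hψ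
    rw [if_neg hl] at h
    simpa using h
  rw [h1, h2, ← hA l]
  ring

include hψ in
/-- The constant function `1` has all differences equal to `1`. -/
theorem dbTriv (c A : R → ℂ) (hA : ∀ l, A l = ∑ k, c k * ψ (k * l)) (h1 : ∀ l, A l = 1)
    (k : R) (hk : k ≠ 0) : c 0 - c k = 1 := by
  have h := dbInv ψ hψ c A hA k
  simp_rw [h1, one_mul] at h
  rw [dbW_total ψ hψ k hk] at h
  have hc : (Fintype.card R : ℂ) ≠ 0 := by
    exact_mod_cast Fintype.card_ne_zero
  exact mul_left_cancel₀ hc (h.trans (mul_one _).symm)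

variable {ι : Type*} [Fintype ι]

include hψ in
/-- Orthogonality to the `A`'s gives orthogonality to the differences. -/
theorem dbOrth (c A : ι → R → ℂ) (hA : ∀ i l, A i l = ∑ k, c i k * ψ (k * l)) (T : ι → ℂ)
    (hT : ∀ l, l ≠ 0 → ∑ i, A i l * T i = 0) (k : R) :
    ∑ i, (c i 0 - c i k) * T i = 0 := by
  have hc : (Fintype.card R : ℂ) ≠ 0 := by
    exact_mod_cast Fintype.card_ne_zero
  apply mul_left_cancel₀ hc
  rw [mul_zero, Finset.mul_sum]
  have h1 : ∀ i, (Fintype.card R : ℂ) * ((c i 0 - c i k) * T i)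
      = ∑ l, dbW ψ k l * (A i l * T i) := by
    intro i
    rw [← mul_assoc, dbInv ψ hψ (c i) (A i) (hA i) k, Finset.sum_mul]
    refine Finset.sum_congr rfl fun l _ => ?_
    ring
  simp_rw [h1]
  rw [Finset.sum_comm]
  refine Finset.sum_eq_zero fun l _ => ?_
  rw [← Finset.mul_sum]
  by_cases hl : l = 0
  · rw [hl, dbW_zero, zero_mul]
  · rw [hT l hl, mul_zero]

include hψ in
/-- The Gram relations of the differences. -/
theorem dbGram (c A : ι → R → ℂ) (hA : ∀ i l, A i l = ∑ k, c i k * ψ (k * l))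
    (hF : ∀ l l', l ≠ 0 → l' ≠ 0 → ∑ i, A i l * A i l'
      = (if l = l' then (Fintype.card R : ℂ) else 0) + (if l = -l' then (Fintype.card R : ℂ) else 0))
    (k k' : R) (hk : k ≠ 0) (hk' : k' ≠ 0) :
    ∑ i, (c i 0 - c i k) * (c i 0 - c i k')
      = 2 + (if k = k' then 1 else 0) + (if k = -k' then 1 else 0) := by
  have hc : (Fintype.card R : ℂ) ≠ 0 := by
    exact_mod_cast Fintype.card_ne_zero
  apply mul_left_cancel₀ hc
  apply mul_left_cancel₀ hc
  rw [Finset.mul_sum, Finset.mul_sum]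
  have h1 : ∀ i, (Fintype.card R : ℂ) * ((Fintype.card R : ℂ) * ((c i 0 - c i k) * (c i 0 - c i k')))
      = ∑ l, ∑ l', dbW ψ k l * dbW ψ k' l' * (A i l * A i l') := by
    intro i
    have e1 := dbInv ψ hψ (c i) (A i) (hA i) k
    have e2 := dbInv ψ hψ (c i) (A i) (hA i) k'
    have e3 : (Fintype.card R : ℂ) * ((Fintype.card R : ℂ) * ((c i 0 - c i k) * (c i 0 - c i k')))
        = ((Fintype.card R : ℂ) * (c i 0 - c i k)) * ((Fintype.card R : ℂ) * (c i 0 - c i k')) := by
      ring
    rw [e3, e1, e2, Finset.sum_mul_sum]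
    refine Finset.sum_congr rfl fun l _ => Finset.sum_congr rfl fun l' _ => ?_
    ring
  simp_rw [h1]
  rw [Finset.sum_comm]
  have h2 : ∀ l, ∑ i, ∑ l', dbW ψ k l * dbW ψ k' l' * (A i l * A i l')
      = (Fintype.card R : ℂ) * (dbW ψ k l * dbW ψ k' l) +
        (Fintype.card R : ℂ) * (dbW ψ k l * dbW ψ k' (-l)) := by
    intro l
    rw [Finset.sum_comm]
    have h3 : ∀ l', ∑ i, dbW ψ k l * dbW ψ k' l' * (A i l * A i l')
        = dbW ψ k l * dbW ψ k' l' * ((if l = l' then (Fintype.card R : ℂ) else 0)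
          + (if l = -l' then (Fintype.card R : ℂ) else 0)) := by
      intro l'
      rw [← Finset.mul_sum]
      by_cases hl : l = 0
      · rw [hl, dbW_zero, zero_mul, zero_mul, zero_mul]
      by_cases hl' : l' = 0
      · rw [hl', dbW_zero, mul_zero, zero_mul, zero_mul]
      rw [hF l l' hl hl']
    simp_rw [h3, mul_add, Finset.sum_add_distrib]
    congr 1
    · rw [Finset.sum_eq_single l]
      · rw [if_pos rfl]; ring
      · intro b _ hb
        rw [if_neg (Ne.symm hb), mul_zero]
      · intro h; exact absurd (Finset.mem_univ l) h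
    · rw [Finset.sum_eq_single (-l)]
      · rw [if_pos (neg_neg l).symm]; ring
      · intro b _ hb
        rw [if_neg, mul_zero]
        intro h
        apply hb
        rw [h, neg_neg]
      · intro h; exact absurd (Finset.mem_univ _) h
  simp_rw [h2]
  rw [Finset.sum_add_distrib, ← Finset.mul_sum, ← Finset.mul_sum, dbW_sum ψ hψ k k' hk hk',
    dbW_sum_neg ψ hψ k k' hk hk']
  ring

end fourier

end Cfsg.Agent.Helper21.DihBlk
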