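import Mathlib
import Cfsg.Agent.Helper21.DihBlkA

/-!
# Dihedral principal block: consequences of the combinatorial theorem (helper21)
-/

set_option autoImplicit false

namespace Cfsg.Agent.Helper21.DihBlk

section out

variable {ι K : Type*} [Fintype ι] [DecidableEq ι] [AddGroup K] [DecidableEq K]

/-- The conclusion of the combinatorial theorem, as a structure. -/
structure DbOut (o : ι) (Nn : K) (Y : K → ι → ℤ) (X U V : ι) (Z : K → ι) (ε εU εV : ℤ) :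
    Prop where
  hε : ε = 1 ∨ ε = -1
  hεU : εU = 1 ∨ εU = -1
  hεV : εV = 1 ∨ εV = -1
  hXo : X ≠ o
  hUo : U ≠ o
  hVo : V ≠ o
  hXU : X ≠ U
  hXV : X ≠ V
  hUV : U ≠ V
  hZ : ∀ k : K, k ≠ 0 → k ≠ Nn → Z k ≠ o ∧ Z k ≠ X ∧ Z k ≠ U ∧ Z k ≠ V
  hZinj : ∀ k k' : K, k ≠ 0 → k ≠ Nn → k' ≠ 0 → k' ≠ Nn → Z k = Z k' → k = k' ∨ k = -k'
  hall : ∀ i, i = o ∨ i = X ∨ i = U ∨ i = V ∨ ∃ k : K, k ≠ 0 ∧ k ≠ Nn ∧ i = Z k
  hYX : ∀ k : K, k ≠ 0 → Y k X = ε
  hYU : ∀ k : K, k ≠ 0 → Y k U = if k = Nn then εU else 0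
  hYV : ∀ k : K, k ≠ 0 → Y k V = if k = Nn then εV else 0
  hYZ : ∀ k k' : K, k ≠ 0 → k' ≠ 0 → k' ≠ Nn →
    Y k (Z k') = if k = k' ∨ k = -k' then -ε else 0

variable {o : ι} {one Nn : K} {Y : K → ι → ℤ} {d : ι → ℤ} {X U V : ι} {Z : K → ι} {ε εU εV : ℤ}

theorem DbHyp.out (h : DbHyp o one Nn Y d) :
    ∃ (X U V : ι) (Z : K → ι) (ε εU εV : ℤ), DbOut o Nn Y X U V Z ε εU εV := by
  obtain ⟨X, U, V, Z, ε, εU, εV, h1, h2, h3, h4, h5, h6, h7, h8, h9, h10, h11, h12, h13, h14,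
    h15, h16⟩ := h.main
  exact ⟨X, U, V, Z, ε, εU, εV, ⟨h1, h2, h3, h4, h5, h6, h7, h8, h9, h10, h11, h12, h13, h14,
    h15, h16⟩⟩

omit [DecidableEq ι] in
theorem DbHyp.ne_neg (h : DbHyp o one Nn Y d) (k : K) (hk : k ≠ 0) (hkN : k ≠ Nn) : k ≠ -k := by
  intro h'
  rcases h.hneg k h' with h2 | h2
  · exact hk h2
  · exact hkN h2

omit [DecidableEq ι] in
theorem DbHyp.neg_ne_N (h : DbHyp o one Nn Y d) (k : K) (hkN : k ≠ Nn) : -k ≠ Nn := by
  intro h'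
  apply hkN
  rw [h.hNneg, ← h', neg_neg]

omit [Fintype ι] [DecidableEq ι] in
theorem DbOut.sq (w : DbOut o Nn Y X U V Z ε εU εV) : ε * ε = 1 := by
  rcases w.hε with h | h <;> rw [h] <;> norm_num

/-- `Z` is even. -/
theorem DbOut.zneg (h : DbHyp o one Nn Y d) (w : DbOut o Nn Y X U V Z ε εU εV) (k : K)
    (hk : k ≠ 0) (hkN : k ≠ Nn) : Z (-k) = Z k := by
  by_contra hne
  have hnk : -k ≠ 0 := neg_ne_zero.mpr hk
  have hnkN : -k ≠ Nn := h.neg_ne_N k hkN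
  obtain ⟨a1, a2, -, -⟩ := w.hZ k hk hkN
  obtain ⟨b1, b2, -, -⟩ := w.hZ (-k) hnk hnkN
  have h3 := h.norm3 k hk hkN
  have hsub : ∑ i ∈ ({o, X, Z k, Z (-k)} : Finset ι), Y k i ^ 2 ≤ ∑ i, Y k i ^ 2 :=
    Finset.sum_le_sum_of_subset_of_nonneg (Finset.subset_univ _) (fun j _ _ => sq_nonneg (Y k j))
  have hval : ∑ i ∈ ({o, X, Z k, Z (-k)} : Finset ι), Y k i ^ 2 = 4 := by
    rw [Finset.sum_insert, Finset.sum_insert, Finset.sum_insert, Finset.sum_singleton,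
      h.ho k hk, w.hYX k hk, w.hYZ k k hk hk hkN, w.hYZ k (-k) hk hnk hnkN, if_pos (Or.inl rfl),
      if_pos (Or.inr (neg_neg k).symm)]
    · have := w.sq
      nlinarith
    · simp only [Finset.mem_singleton]
      exact fun h' => hne h'.symm
    · simp only [Finset.mem_insert, Finset.mem_singleton, not_or]
      exact ⟨Ne.symm a2, Ne.symm b2⟩
    · simp only [Finset.mem_insert, Finset.mem_singleton, not_or]
      exact ⟨Ne.symm w.hXo, Ne.symm a1, Ne.symm b1⟩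
  linarith

/-- The support of `Y k`. -/
theorem DbOut.supp (h : DbHyp o one Nn Y d) (w : DbOut o Nn Y X U V Z ε εU εV) (k : K)
    (hk : k ≠ 0) (hkN : k ≠ Nn) (i : ι) (hio : i ≠ o) (hiX : i ≠ X) (hiZ : i ≠ Z k) :
    Y k i = 0 := by
  rcases w.hall i with h1 | h1 | h1 | h1 | ⟨k', hk', hk'N, h1⟩
  · exact absurd h1 hio
  · exact absurd h1 hiX
  · rw [h1, w.hYU k hk, if_neg hkN]
  · rw [h1, w.hYV k hk, if_neg hkN]
  · rw [h1, w.hYZ k k' hk hk' hk'N, if_neg]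
    rintro (h2 | h2)
    · exact hiZ (by rw [h1, h2])
    · apply hiZ
      rw [h1, h2, DbOut.zneg h w k' hk' hk'N]

omit [DecidableEq ι] in
/-- The support of `Y Nn`. -/
theorem DbOut.suppN (h : DbHyp o one Nn Y d) (w : DbOut o Nn Y X U V Z ε εU εV) (i : ι)
    (hio : i ≠ o) (hiX : i ≠ X) (hiU : i ≠ U) (hiV : i ≠ V) : Y Nn i = 0 := by
  rcases w.hall i with h1 | h1 | h1 | h1 | ⟨k', hk', hk'N, h1⟩
  · exact absurd h1 hio
  · exact absurd h1 hiX
  · exact absurd h1 hiU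
  · exact absurd h1 hiV
  · rw [h1, w.hYZ Nn k' h.hN0 hk' hk'N, if_neg]
    rintro (h2 | h2)
    · exact hk'N h2.symm
    · exact h.neg_ne_N k' hk'N h2.symm

/-- Sums against `Y k`. -/
theorem DbOut.expand (h : DbHyp o one Nn Y d) (w : DbOut o Nn Y X U V Z ε εU εV) (k : K)
    (hk : k ≠ 0) (hkN : k ≠ Nn) (g : ι → ℂ) :
    ∑ i, (Y k i : ℂ) * g i = g o + ε * g X - ε * g (Z k) := by
  obtain ⟨a1, a2, -, -⟩ := w.hZ k hk hkN
  have h1 : ∑ i, (Y k i : ℂ) * g i = ∑ i ∈ ({o, X, Z k} : Finset ι), (Y k i : ℂ) * g i := by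
    symm
    apply Finset.sum_subset (Finset.subset_univ _)
    intro i _ hi
    simp only [Finset.mem_insert, Finset.mem_singleton, not_or] at hi
    rw [DbOut.supp h w k hk hkN i hi.1 hi.2.1 hi.2.2]
    simp
  rw [h1, Finset.sum_insert, Finset.sum_insert, Finset.sum_singleton, h.ho k hk, w.hYX k hk,
    w.hYZ k k hk hk hkN, if_pos (Or.inl rfl)]
  · push_cast; ring
  · simp only [Finset.mem_singleton]
    exact Ne.symm a2
  · simp only [Finset.mem_insert, Finset.mem_singleton, not_or]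
    exact ⟨Ne.symm w.hXo, Ne.symm a1⟩

/-- Sums against `Y Nn`. -/
theorem DbOut.expandN (h : DbHyp o one Nn Y d) (w : DbOut o Nn Y X U V Z ε εU εV)
    (g : ι → ℂ) :
    ∑ i, (Y Nn i : ℂ) * g i = g o + ε * g X + εU * g U + εV * g V := by
  have h1 : ∑ i, (Y Nn i : ℂ) * g i = ∑ i ∈ ({o, X, U, V} : Finset ι), (Y Nn i : ℂ) * g i := by
    symm
    apply Finset.sum_subset (Finset.subset_univ _)
    intro i _ hi
    simp only [Finset.mem_insert, Finset.mem_singleton, not_or] at hi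
    rw [DbOut.suppN h w i hi.1 hi.2.1 hi.2.2.1 hi.2.2.2]
    simp
  rw [h1, Finset.sum_insert, Finset.sum_insert, Finset.sum_insert, Finset.sum_singleton,
    h.ho Nn h.hN0, w.hYX Nn h.hN0, w.hYU Nn h.hN0, w.hYV Nn h.hN0, if_pos rfl, if_pos rfl]
  · push_cast; ring
  · simp only [Finset.mem_singleton]
    exact w.hUV
  · simp only [Finset.mem_insert, Finset.mem_singleton, not_or]
    exact ⟨w.hXU, w.hXV⟩
  · simp only [Finset.mem_insert, Finset.mem_singleton, not_or]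
    exact ⟨Ne.symm w.hXo, Ne.symm w.hUo, Ne.symm w.hVo⟩

end out

section vals

variable {R : Type*} [CommRing R] [Fintype R] [DecidableEq R] (ψ : AddChar R ℂ)
  (hψ : ψ.IsPrimitive)

include hψ in
theorem dbValX (Yi : R → ℂ) (ε : ℂ) (h0 : Yi 0 = 0) (h : ∀ k, k ≠ 0 → Yi k = ε) (l : R)
    (hl : l ≠ 0) : ∑ k, Yi k * ψ (k * l) = -ε := by
  have h2 : ∑ k : R, ψ (k * l) = 0 := by
    have h := AddChar.sum_mulShift l hψ
    rw [if_neg hl] at h
    simpa using h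
  have h3 : ∀ k, Yi k * ψ (k * l) = ε * ψ (k * l) - if k = 0 then ε else 0 := by
    intro k
    by_cases hk : k = 0
    · rw [hk, h0, if_pos rfl, zero_mul, zero_mul, AddChar.map_zero_eq_one, mul_one, sub_self]
    · rw [h k hk, if_neg hk, sub_zero]
  simp_rw [h3]
  rw [Finset.sum_sub_distrib, ← Finset.mul_sum, h2, Finset.sum_ite_eq', if_pos (Finset.mem_univ _)]
  ring

omit [CommRing R] in
theorem dbValU (F : R → ℂ) (Yi : R → ℂ) (εU : ℂ) (Nn : R)
    (h : ∀ k, Yi k = if k = Nn then εU else 0) :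
    ∑ k, Yi k * F k = εU * F Nn := by
  rw [Finset.sum_eq_single Nn]
  · rw [h Nn, if_pos rfl]
  · intro b _ hb
    rw [h b, if_neg hb, zero_mul]
  · intro h'; exact absurd (Finset.mem_univ _) h'

omit [CommRing R] in
theorem dbValZ [Neg R] (F : R → ℂ) (Yi : R → ℂ) (ε : ℂ) (k' : R) (hk' : k' ≠ -k')
    (h : ∀ k, Yi k = if k = k' ∨ k = -k' then -ε else 0) :
    ∑ k, Yi k * F k = -ε * (F k' + F (-k')) := by
  have h1 : ∑ k, Yi k * F k = ∑ k ∈ ({k', -k'} : Finset R), Yi k * F k := by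
    symm
    apply Finset.sum_subset (Finset.subset_univ _)
    intro i _ hi
    simp only [Finset.mem_insert, Finset.mem_singleton, not_or] at hi
    rw [h i, if_neg (by tauto), zero_mul]
  rw [h1, Finset.sum_insert, Finset.sum_singleton, h k', h (-k'), if_pos (Or.inl rfl),
    if_pos (Or.inr rfl)]
  · ring
  · simp only [Finset.mem_singleton]
    exact hk'

end vals

end Cfsg.Agent.Helper21.DihBlk
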