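import Mathlib
import Cfsg.Agent.Helper21.DihOrdL
import Cfsg.Agent.Helper81.KleinFour
import Cfsg.Agent.S0925
import Cfsg.Agent.S0947
import Cfsg.Agent.Helper75.Eigen
import Cfsg.Agent.Helper77.BlockIdem

/-!
# Dihedral principal block: the block-theoretic input (helper21)

For a group with a dihedral Sylow 2-subgroup of order `2^n ≥ 8` we evaluate the sums
`∑_{χ ∈ B₀} χ(x) χ(y)` over the principal 2-block for rotations `x`, `y` of the Sylow subgroup
(and `y` of odd order), and decompose the restriction of a character to the rotation subgroup.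
-/

set_option autoImplicit false

namespace Cfsg.Agent.Helper21.DihBlk

open DihedralGroup Cfsg.Agent.Helper55 Cfsg.Agent.Helper21.DihOrd
open scoped ComplexConjugate

/-- A multiset of `m`-th roots of unity, sorted by exponent. -/
theorem dbSpecM (m : ℕ) [NeZero m] (ζ : ℂ) (hζ : IsPrimitiveRoot ζ m) (s : Multiset ℂ)
    (hs : ∀ μ ∈ s, μ ^ m = 1) :
    ∃ c : ZMod m → ℕ, ∀ l : ℕ,
      (s.map (fun μ => μ ^ l)).sum = ∑ k : ZMod m, (c k : ℂ) * (ζ ^ k.val) ^ l := by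
  classical
  induction s using Multiset.induction_on with
  | empty => exact ⟨fun _ => 0, fun l => by simp⟩
  | cons μ s ih =>
    obtain ⟨c, hc⟩ := ih (fun ν hν => hs ν (Multiset.mem_cons_of_mem hν))
    obtain ⟨i, hi, hiμ⟩ := hζ.eq_pow_of_pow_eq_one (hs μ (Multiset.mem_cons_self μ s))
    refine ⟨fun k => c k + if k = (i : ZMod m) then 1 else 0, fun l => ?_⟩
    rw [Multiset.map_cons, Multiset.sum_cons, hc l]
    have h1 : ∀ k : ZMod m,
        ((c k + if k = (i : ZMod m) then 1 else 0 : ℕ) : ℂ) * (ζ ^ k.val) ^ l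
        = (c k : ℂ) * (ζ ^ k.val) ^ l + if k = (i : ZMod m) then (ζ ^ k.val) ^ l else 0 := by
      intro k
      split_ifs <;> push_cast <;> ring
    simp_rw [h1]
    rw [Finset.sum_add_distrib, Finset.sum_ite_eq', if_pos (Finset.mem_univ _),
      ZMod.val_natCast_of_lt hi, hiμ, add_comm]

/-- The restriction of an irreducible character to a cyclic subgroup. -/
theorem dbSpec {G : Type*} [Group G] (χ : Cfsg.IrrCharacter G) (g : G) (m : ℕ) [NeZero m]
    (hg : g ^ m = 1) (ζ : ℂ) (hζ : IsPrimitiveRoot ζ m) :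
    ∃ c : ZMod m → ℕ, ∀ l : ℕ,
      (χ : G → ℂ) (g ^ l) = ∑ k : ZMod m, (c k : ℂ) * (ζ ^ k.val) ^ l := by
  obtain ⟨χ, n, ρ, -, rfl⟩ := χ
  have hf : (ρ g) ^ m = 1 := by rw [← map_pow, hg, map_one]
  obtain ⟨s, hs1, -, hs3⟩ := Cfsg.Agent.Helper75.exists_eigen_multiset (ρ g) m (NeZero.ne m) hf
  obtain ⟨c, hc⟩ := dbSpecM m ζ hζ s hs1
  refine ⟨c, fun l => ?_⟩
  show ρ.character (g ^ l) = _
  rw [← hc l, ← hs3 l]
  unfold Representation.character
  rw [map_pow]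

section ctx

variable {G : Type*} [Group G] [Finite G] {n : ℕ} (hn : 3 ≤ n) (P : Sylow 2 G)
  (e : ↥(P : Subgroup G) ≃* DihedralGroup (2 ^ (n - 1)))
  (f : ↥(Subgroup.centralizer ({dsJ n e} : Set G)) →* DihedralGroup (2 ^ (n - 1)))
  (hf : ∀ (p : G) (hp : p ∈ (P : Subgroup G))
    (hc : p ∈ Subgroup.centralizer ({dsJ n e} : Set G)), f ⟨p, hc⟩ = e ⟨p, hp⟩)
  (hodd : Odd (Nat.card f.ker))
  (M : Ideal Cfsg.AlgInt) (hM : Cfsg.IsPModular 2 M)

omit [Finite G] in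
theorem dbRot_twoPow (i : ZMod (2 ^ (n - 1))) : ∃ k : ℕ, orderOf (dRot e i) = 2 ^ k := by
  have h := (IsPGroup.iff_orderOf.mp P.isPGroup') ⟨dRot e i, dRot_mem e i⟩
  obtain ⟨k, hk⟩ := h
  exact ⟨k, by rw [← hk, Subgroup.orderOf_mk]⟩

omit [Finite G] in
theorem dbRot_neg_conj (i : ZMod (2 ^ (n - 1))) :
    dRef e 0 * dRot e i * (dRef e 0)⁻¹ = dRot e (-i) := by
  rw [dRef_inv, dRef_mul_dRot, dRef_mul_dRef]
  congr 1
  ring

omit [Finite G] in
theorem dbIrr_rot_neg (χ : Cfsg.IrrCharacter G) (i : ZMod (2 ^ (n - 1))) :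
    (χ : G → ℂ) (dRot e (-i)) = (χ : G → ℂ) (dRot e i) := by
  rw [← dbRot_neg_conj P e i, Cfsg.Agent.Helper81.irr_conj]

theorem dbIrr_rot_real (χ : Cfsg.IrrCharacter G) (i : ZMod (2 ^ (n - 1))) :
    conj ((χ : G → ℂ) (dRot e i)) = (χ : G → ℂ) (dRot e i) := by
  have := Fintype.ofFinite G
  rw [← Cfsg.Agent.Helper77.irr_inv, dRot_inv, dbIrr_rot_neg]

include hn hf hodd hM in
/-- The diagonal sums. -/
theorem dbDiag {i : ZMod (2 ^ (n - 1))} (hi : i ≠ 0) :
    ∑ᶠ χ ∈ Cfsg.principalBlock M G, (χ : G → ℂ) (dRot e i) * (χ : G → ℂ) (dRot e i)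
      = if i + i = 0 then (2 : ℂ) ^ n else (2 : ℂ) ^ (n - 1) := by
  have : Fact (Nat.Prime 2) := ⟨Nat.prime_two⟩
  obtain ⟨K, hKn, hKodd, -, hcard⟩ := dsCentStruct hn P e f hf hodd hi
  set a : ℕ := if i + i = 0 then n else n - 1 with ha
  have hcard' : Nat.card K * 2 ^ a
      = Nat.card ↥(Subgroup.centralizer ({dRot e i} : Set G)) := by
    rw [← hcard, ha]
    split_ifs <;> rfl
  have hidx : K.index = 2 ^ a := by
    have h1 := Subgroup.card_mul_index K
    rw [← hcard'] at h1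
    exact Nat.eq_of_mul_eq_mul_left Nat.card_pos h1
  have hK : ∃ k : ℕ, (Cfsg.pPrimeCore 2 ↥(Subgroup.centralizer ({dRot e i} : Set G))).index
      = 2 ^ k := by
    have hle : K ≤ Cfsg.pPrimeCore 2 ↥(Subgroup.centralizer ({dRot e i} : Set G)) :=
      Cfsg.Agent.Helper76.le_pPrimeCore K hKn (Nat.coprime_two_right.mpr hKodd)
    have hdvd := Subgroup.index_dvd_of_le hle
    rw [hidx] at hdvd
    obtain ⟨k, -, hk⟩ := (Nat.dvd_prime_pow Nat.prime_two).mp hdvd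
    exact ⟨k, hk⟩
  have hfac : (Nat.card ↥(Subgroup.centralizer ({dRot e i} : Set G))).factorization 2 = a := by
    have hnd : ¬ 2 ∣ Nat.card K := hKodd.not_two_dvd_nat
    rw [← hcard', Nat.factorization_mul Nat.card_pos.ne' (pow_ne_zero a two_ne_zero),
      Finsupp.add_apply, Nat.factorization_eq_zero_of_not_dvd hnd,
      Nat.prime_two.factorization_pow, Finsupp.single_eq_same, zero_add]
  have hy : ¬ 2 ∣ orderOf (1 : ↥(Subgroup.centralizer ({dRot e i} : Set G))) := by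
    rw [orderOf_one]; norm_num
  have h := (Cfsg.Agent.S0947.result 2 M hM (dRot e i) (dbRot_twoPow P e i) (dsRot_ne_one e hi)
    1 hy).2 hK
  rw [hfac] at h
  have h2 := Cfsg.Agent.Helper81.finsum_mem_normSq (Cfsg.principalBlock M G)
    (fun χ : Cfsg.IrrCharacter G => (χ : G → ℂ) (dRot e i * ((1 : ↥(Subgroup.centralizer
      ({dRot e i} : Set G))) : G)))
  rw [h] at h2
  have h3 : ∀ χ : Cfsg.IrrCharacter G,
      (χ : G → ℂ) (dRot e i * ((1 : ↥(Subgroup.centralizer ({dRot e i} : Set G))) : G))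
        * conj ((χ : G → ℂ) (dRot e i * ((1 : ↥(Subgroup.centralizer
          ({dRot e i} : Set G))) : G)))
      = (χ : G → ℂ) (dRot e i) * (χ : G → ℂ) (dRot e i) := by
    intro χ
    rw [Subgroup.coe_one, mul_one, dbIrr_rot_real]
  simp_rw [h3] at h2
  rw [← h2, ha]
  split_ifs <;> push_cast <;> rfl

include hn hf in
/-- The off-diagonal sums. -/
theorem dbOff {i : ZMod (2 ^ (n - 1))} (hi : i ≠ 0) (j : ZMod (2 ^ (n - 1))) (hj1 : j ≠ i)
    (hj2 : j ≠ -i) (hM : Cfsg.IsPModular 2 M) :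
    ∑ᶠ χ ∈ Cfsg.principalBlock M G, (χ : G → ℂ) (dRot e i) * (χ : G → ℂ) (dRot e j) = 0 := by
  have : Fact (Nat.Prime 2) := ⟨Nat.prime_two⟩
  have hy : ¬ 2 ∣ orderOf (1 : G) := by
    rw [orderOf_one]; norm_num
  have hpp : ∀ l : ZMod (2 ^ (n - 1)), Cfsg.IsPPart 2 (dRot e l) (dRot e l) := fun l =>
    ⟨1, mul_one _, Commute.one_right _, dbRot_twoPow P e l, hy⟩
  have hnc : ¬ IsConj (dRot e i) (dRot e (-j)) := by
    intro hc
    obtain ⟨c, hc⟩ := isConj_iff.mp hc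
    rcases dsFusion hn P e f hf hi c (-j) hc with h | h
    · apply hj2
      rw [← h, neg_neg]
    · exact hj1 (neg_injective h)
  have h := (Cfsg.Agent.S0925.result 2 M hM).2 (dRot e i) (dRot e (-j)) (dRot e i) (dRot e (-j))
    (hpp i) (hpp (-j)) hnc (Cfsg.principalBlock M G) ⟨Cfsg.Agent.Helper81.trivIrr G, rfl⟩
  rw [dRot_inv, neg_neg] at h
  exact h

include hM in
omit [Finite G] in
/-- The sums against a `2`-regular element. -/
theorem dbReg [Finite G] {i : ZMod (2 ^ (n - 1))} (hi : i ≠ 0) (ρ : G) (hρ : Odd (orderOf ρ)) :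
    ∑ᶠ χ ∈ Cfsg.principalBlock M G, (χ : G → ℂ) (dRot e i) * (χ : G → ℂ) ρ = 0 := by
  have : Fact (Nat.Prime 2) := ⟨Nat.prime_two⟩
  have hy : ¬ 2 ∣ orderOf (1 : G) := by
    rw [orderOf_one]; norm_num
  have hp1 : Cfsg.IsPPart 2 (dRot e i) (dRot e i) :=
    ⟨1, mul_one _, Commute.one_right _, dbRot_twoPow P e i, hy⟩
  have hp2 : Cfsg.IsPPart 2 ρ⁻¹ 1 :=
    ⟨ρ⁻¹, one_mul _, Commute.one_left _, ⟨0, by rw [orderOf_one, pow_zero]⟩,
      by rw [orderOf_inv]; exact hρ.not_two_dvd_nat⟩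
  have hnc : ¬ IsConj (dRot e i) 1 := by
    rw [isConj_one_left]
    exact dsRot_ne_one e hi
  have h := (Cfsg.Agent.S0925.result 2 M hM).2 (dRot e i) ρ⁻¹ (dRot e i) 1
    hp1 hp2 hnc (Cfsg.principalBlock M G) ⟨Cfsg.Agent.Helper81.trivIrr G, rfl⟩
  rw [inv_inv] at h
  exact h

include hn hM in
/-- Characters of the principal block do not vanish at the central involution. -/
theorem dbNonvan (χ : Cfsg.IrrCharacter G) (hχ : χ ∈ Cfsg.principalBlock M G) :
    (χ : G → ℂ) (dsJ n e) ≠ 0 := by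
  have : Fact (Nat.Prime 2) := ⟨Nat.prime_two⟩
  apply Cfsg.Agent.Helper81.ne_zero_of_mem_principalBlock hM χ hχ
  intro h2
  have hle : (P : Subgroup G) ≤ Subgroup.centralizer ({dsJ n e} : Set G) :=
    dsP_le_centJ e (by omega)
  exact P.not_dvd_index (h2.trans (Subgroup.index_dvd_of_le hle))

end ctx

end Cfsg.Agent.Helper21.DihBlk
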