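import Mathlib
import Cfsg.Agent.Helper21.DihBlkB
import Cfsg.Agent.Helper21.DihBlkC
import Cfsg.Agent.Helper21.DihBlkD

/-!
# Dihedral principal block: assembly (helper21)

The principal 2-block of a group with a dihedral Sylow 2-subgroup of order `2^n ≥ 8`, in terms
of a fixed isomorphism `e` of the Sylow subgroup with `DihedralGroup (2 ^ (n - 1))`.
-/

set_option autoImplicit false

namespace Cfsg.Agent.Helper21.DihBlk

open DihedralGroup Cfsg.Agent.Helper55 Cfsg.Agent.Helper21.DihOrd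

section zmod

variable {n : ℕ}

theorem dbZ_one_ne_zero (hn : 3 ≤ n) : (1 : ZMod (2 ^ (n - 1))) ≠ 0 := by
  have : Fact (1 < 2 ^ (n - 1)) := ⟨Nat.one_lt_two_pow (by omega)⟩
  exact one_ne_zero

theorem dbZ_one_ne_half (hn : 3 ≤ n) :
    (1 : ZMod (2 ^ (n - 1))) ≠ ((2 ^ (n - 2) : ℕ) : ZMod (2 ^ (n - 1))) := by
  intro h
  have h1 : ((1 : ℕ) : ZMod (2 ^ (n - 1))) = ((2 ^ (n - 2) : ℕ) : ZMod (2 ^ (n - 1))) := by
    rw [Nat.cast_one]; exact h
  rw [ZMod.natCast_eq_natCast_iff'] at h1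
  have h2 : 2 ^ (n - 2) < 2 ^ (n - 1) := Nat.pow_lt_pow_right (by norm_num) (by omega)
  have h3 : 1 < 2 ^ (n - 1) := Nat.one_lt_two_pow (by omega)
  rw [Nat.mod_eq_of_lt h3, Nat.mod_eq_of_lt h2] at h1
  have h4 : 1 < 2 ^ (n - 2) := Nat.one_lt_two_pow (by omega)
  omega

theorem dbZ_neg (hn : 3 ≤ n) (k : ZMod (2 ^ (n - 1))) (h : k = -k) :
    k = 0 ∨ k = ((2 ^ (n - 2) : ℕ) : ZMod (2 ^ (n - 1))) := by
  have h1 : k + k = 0 := by
    nth_rewrite 1 [h]
    exact neg_add_cancel k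
  have h2 : ((k.val + k.val : ℕ) : ZMod (2 ^ (n - 1))) = 0 := by
    rw [Nat.cast_add, ZMod.natCast_zmod_val, h1]
  rw [ZMod.natCast_eq_zero_iff] at h2
  have h3 : 2 ^ (n - 1) = 2 * 2 ^ (n - 2) := by
    rw [← pow_succ']
    congr 1
    omega
  have h4 : k.val < 2 ^ (n - 1) := ZMod.val_lt k
  obtain ⟨t, ht⟩ := h2
  have ht' : k.val + k.val = 2 * 2 ^ (n - 2) * t := by rw [ht, h3]
  have h4' : k.val < 2 * 2 ^ (n - 2) := lt_of_lt_of_eq h4 h3
  have h5 : k.val = 2 ^ (n - 2) * t := by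
    have : 2 * k.val = 2 * (2 ^ (n - 2) * t) := by rw [← mul_assoc, ← ht']; ring
    omega
  have hpos : 0 < 2 ^ (n - 2) := by positivity
  have h6 : t < 2 := by
    by_contra h7
    push Not at h7
    have : 2 ^ (n - 2) * 2 ≤ 2 ^ (n - 2) * t := Nat.mul_le_mul_left _ h7
    omega
  have h8 : k = ((k.val : ℕ) : ZMod (2 ^ (n - 1))) := (ZMod.natCast_zmod_val k).symm
  interval_cases t
  · left
    rw [h8, h5]
    simp
  · right
    rw [h8, h5, mul_one]

theorem dbZ_third (hn : 3 ≤ n) (k : ZMod (2 ^ (n - 1))) (hk0 : k ≠ 0)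
    (hkN : k ≠ ((2 ^ (n - 2) : ℕ) : ZMod (2 ^ (n - 1)))) (hk1 : k ≠ 1) (hk1' : k ≠ -1) :
    ∃ k₃ : ZMod (2 ^ (n - 1)), k₃ ≠ 0 ∧ k₃ ≠ ((2 ^ (n - 2) : ℕ) : ZMod (2 ^ (n - 1))) ∧ k₃ ≠ 1 ∧
      k₃ ≠ -1 ∧ k₃ ≠ k ∧ k₃ ≠ -k := by
  classical
  have hcard : Fintype.card (ZMod (2 ^ (n - 1))) = 2 ^ (n - 1) := ZMod.card _
  by_cases h4 : 4 ≤ n
  · have h8 : 8 ≤ 2 ^ (n - 1) := by
      have : 2 ^ 3 ≤ 2 ^ (n - 1) := Nat.pow_le_pow_right (by norm_num) (by omega)
      simpa using this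
    have hlt : ({0, ((2 ^ (n - 2) : ℕ) : ZMod (2 ^ (n - 1))), 1, -1, k, -k} :
        Finset (ZMod (2 ^ (n - 1)))).card < (Finset.univ : Finset (ZMod (2 ^ (n - 1)))).card := by
      rw [Finset.card_univ, hcard]
      exact lt_of_le_of_lt Finset.card_le_six (by omega)
    obtain ⟨x, -, hx⟩ := Finset.exists_mem_notMem_of_card_lt_card hlt
    simp only [Finset.mem_insert, Finset.mem_singleton, not_or] at hx
    exact ⟨x, hx.1, hx.2.1, hx.2.2.1, hx.2.2.2.1, hx.2.2.2.2.1, hx.2.2.2.2.2⟩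
  · exfalso
    have hn3 : n = 3 := by omega
    have hN0 : ((2 ^ (n - 2) : ℕ) : ZMod (2 ^ (n - 1))) ≠ 0 := by
      rw [Ne, ZMod.natCast_eq_zero_iff]
      intro hd
      have h2 : 2 ^ (n - 2) < 2 ^ (n - 1) := Nat.pow_lt_pow_right (by norm_num) (by omega)
      have := Nat.le_of_dvd (by positivity) hd
      omega
    have h10 := dbZ_one_ne_zero hn
    have h1N := dbZ_one_ne_half hn
    have hNN : ((2 ^ (n - 2) : ℕ) : ZMod (2 ^ (n - 1)))
        = -((2 ^ (n - 2) : ℕ) : ZMod (2 ^ (n - 1))) := by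
      rw [eq_neg_iff_add_eq_zero, ← Nat.cast_add, ZMod.natCast_eq_zero_iff, ← two_mul,
        ← pow_succ']
      apply dvd_of_eq
      congr 1
      omega
    have h1neg : (1 : ZMod (2 ^ (n - 1))) ≠ -1 := by
      intro h
      rcases dbZ_neg hn 1 h with h' | h'
      · exact h10 h'
      · exact h1N h'
    have hm4 : 2 ^ (n - 1) = 4 := by rw [hn3]; norm_num
    have m1 : (0 : ZMod (2 ^ (n - 1))) ∉ ({((2 ^ (n - 2) : ℕ) : ZMod (2 ^ (n - 1))), 1, -1} :
        Finset (ZMod (2 ^ (n - 1)))) := by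
      simp only [Finset.mem_insert, Finset.mem_singleton, not_or]
      refine ⟨Ne.symm hN0, Ne.symm h10, ?_⟩
      intro h
      apply h10
      have : (1 : ZMod (2 ^ (n - 1))) = -(-1) := (neg_neg _).symm
      rw [this, ← h, neg_zero]
    have m2 : ((2 ^ (n - 2) : ℕ) : ZMod (2 ^ (n - 1))) ∉ ({1, -1} :
        Finset (ZMod (2 ^ (n - 1)))) := by
      simp only [Finset.mem_insert, Finset.mem_singleton, not_or]
      refine ⟨Ne.symm h1N, ?_⟩
      intro h
      apply h1N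
      rw [hNN, h, neg_neg]
    have m3 : (1 : ZMod (2 ^ (n - 1))) ∉ ({-1} : Finset (ZMod (2 ^ (n - 1)))) := by
      simp only [Finset.mem_singleton]
      exact h1neg
    have hs4 : ({0, ((2 ^ (n - 2) : ℕ) : ZMod (2 ^ (n - 1))), 1, -1} :
        Finset (ZMod (2 ^ (n - 1)))).card = 4 := by
      rw [Finset.card_insert_of_notMem m1, Finset.card_insert_of_notMem m2,
        Finset.card_insert_of_notMem m3, Finset.card_singleton]
    have hs : ({0, ((2 ^ (n - 2) : ℕ) : ZMod (2 ^ (n - 1))), 1, -1} :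
        Finset (ZMod (2 ^ (n - 1)))).card = Fintype.card (ZMod (2 ^ (n - 1))) := by
      rw [hs4, hcard, hm4]
    have huniv := Finset.eq_univ_of_card _ hs
    have hk : k ∈ ({0, ((2 ^ (n - 2) : ℕ) : ZMod (2 ^ (n - 1))), 1, -1} :
        Finset (ZMod (2 ^ (n - 1)))) := by
      rw [huniv]; exact Finset.mem_univ k
    simp only [Finset.mem_insert, Finset.mem_singleton] at hk
    rcases hk with h | h | h | h
    · exact hk0 h
    · exact hkN h
    · exact hk1 h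
    · exact hk1' h

end zmod

section assemble

variable {G : Type*} [Group G] [Finite G] {n : ℕ} (hn : 3 ≤ n) (P : Sylow 2 G)
  (e : ↥(P : Subgroup G) ≃* DihedralGroup (2 ^ (n - 1)))
  (M : Ideal Cfsg.AlgInt) (hM : Cfsg.IsPModular 2 M)
  (ζ : ℂ) (hζ : IsPrimitiveRoot ζ (2 ^ (n - 1)))

omit [Finite G] in
/-- The restriction of an irreducible character to the rotation subgroup. -/
theorem dbCoeff (χ : Cfsg.IrrCharacter G) :
    ∃ c : ZMod (2 ^ (n - 1)) → ℕ, ∀ l : ZMod (2 ^ (n - 1)),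
      (χ : G → ℂ) (dRot e l)
        = ∑ k, (c k : ℂ) * AddChar.zmodChar (2 ^ (n - 1)) hζ.pow_eq_one (k * l) := by
  have hg : dRot e 1 ^ (2 ^ (n - 1)) = 1 := by
    rw [dsRot_pow, nsmul_one, ZMod.natCast_self, dRot_zero]
  obtain ⟨c, hc⟩ := dbSpec χ (dRot e 1) (2 ^ (n - 1)) hg ζ hζ
  refine ⟨c, fun l => ?_⟩
  have h1 := hc l.val
  rw [dsRot_pow, nsmul_one, ZMod.natCast_zmod_val] at h1
  rw [h1]
  refine Finset.sum_congr rfl fun k _ => ?_
  congr 1
  rw [← AddChar.zmodChar_apply hζ.pow_eq_one k, ← AddChar.map_nsmul_eq_pow, nsmul_eq_mul,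
    ZMod.natCast_zmod_val, mul_comm]

include hn hM in
/-- The orthogonality relations on the rotations, summed over the principal block. -/
theorem dbF [Fintype ↥(Cfsg.principalBlock M G)] (l l' : ZMod (2 ^ (n - 1))) (hl : l ≠ 0)
    (hl' : l' ≠ 0) :
    ∑ i : ↥(Cfsg.principalBlock M G),
      ((i : Cfsg.IrrCharacter G) : G → ℂ) (dRot e l) * ((i : Cfsg.IrrCharacter G) : G → ℂ) (dRot e l')
      = (if l = l' then (Fintype.card (ZMod (2 ^ (n - 1))) : ℂ) else 0)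
        + (if l = -l' then (Fintype.card (ZMod (2 ^ (n - 1))) : ℂ) else 0) := by
  obtain ⟨f, hf, hodd⟩ := dsRetJ hn P e
  have hcard : (Fintype.card (ZMod (2 ^ (n - 1))) : ℂ) = (2 : ℂ) ^ (n - 1) := by
    rw [ZMod.card]; push_cast; rfl
  have hsum : ∀ F : Cfsg.IrrCharacter G → ℂ,
      ∑ᶠ χ ∈ Cfsg.principalBlock M G, F χ = ∑ i : ↥(Cfsg.principalBlock M G), F i := by
    intro F
    rw [← finsum_set_coe_eq_finsum_mem, finsum_eq_sum_of_fintype]
  rw [hcard, ← hsum (fun χ => (χ : G → ℂ) (dRot e l) * (χ : G → ℂ) (dRot e l'))]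
  by_cases h1 : l = l'
  · subst h1
    rw [dbDiag hn P e f hf hodd M hM hl, if_pos rfl]
    by_cases h2 : l + l = 0
    · rw [if_pos h2, if_pos (eq_neg_of_add_eq_zero_left h2)]
      have h3 : n = (n - 1) + 1 := by omega
      conv_lhs => rw [h3, pow_succ]
      ring
    · rw [if_neg h2, if_neg (fun h => h2 (by rw [← eq_neg_iff_add_eq_zero]; exact h)), add_zero]
  · rw [if_neg h1, zero_add]
    by_cases h2 : l = -l'
    · rw [if_pos h2]
      have h2' : l' = -l := by rw [h2, neg_neg]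
      subst h2'
      simp_rw [dbIrr_rot_neg P e]
      rw [dbDiag hn P e f hf hodd M hM hl, if_neg]
      intro h3
      exact h1 (eq_neg_of_add_eq_zero_left h3)
    · rw [if_neg h2]
      refine dbOff hn P e f hf M hl l' (Ne.symm h1) ?_ hM
      intro h3
      apply h2
      rw [h3, neg_neg]

include hn hM in
/-- The hypotheses of the combinatorial theorem hold for the principal block. -/
theorem dbHypInst [Fintype ↥(Cfsg.principalBlock M G)] [DecidableEq ↥(Cfsg.principalBlock M G)]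
    (c : ↥(Cfsg.principalBlock M G) → ZMod (2 ^ (n - 1)) → ℕ)
    (hc : ∀ (i : ↥(Cfsg.principalBlock M G)) (l : ZMod (2 ^ (n - 1))),
      ((i : Cfsg.IrrCharacter G) : G → ℂ) (dRot e l)
        = ∑ k, (c i k : ℂ) * AddChar.zmodChar (2 ^ (n - 1)) hζ.pow_eq_one (k * l)) :
    DbHyp (⟨Cfsg.Agent.Helper81.trivIrr G,
        @Cfsg.Agent.Helper81.trivIrr_mem_principalBlock G _ M
          (Cfsg.Agent.Helper81.isPrime_of_isPModular hM)⟩ : ↥(Cfsg.principalBlock M G))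
      (1 : ZMod (2 ^ (n - 1))) (((2 ^ (n - 2) : ℕ)) : ZMod (2 ^ (n - 1)))
      (fun k i => (c i 0 : ℤ) - (c i k : ℤ))
      (fun i => (Cfsg.charDegree ((i : Cfsg.IrrCharacter G) : G → ℂ) : ℤ)) := by
  have hψ : (AddChar.zmodChar (2 ^ (n - 1)) hζ.pow_eq_one).IsPrimitive :=
    AddChar.zmodChar_primitive_of_primitive_root _ hζ
  have hN0 : (((2 ^ (n - 2) : ℕ)) : ZMod (2 ^ (n - 1))) ≠ 0 := dsHalf_ne_zero (by omega)
  have hNN := dsHalf_add_self (n := n) (by omega)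
  have hsum : ∀ F : Cfsg.IrrCharacter G → ℂ,
      ∑ᶠ χ ∈ Cfsg.principalBlock M G, F χ = ∑ i : ↥(Cfsg.principalBlock M G), F i := by
    intro F
    rw [← finsum_set_coe_eq_finsum_mem, finsum_eq_sum_of_fintype]
  have hYc : ∀ (k : ZMod (2 ^ (n - 1))) (i : ↥(Cfsg.principalBlock M G)),
      (((c i 0 : ℤ) - (c i k : ℤ) : ℤ) : ℂ) = (c i 0 : ℂ) - (c i k : ℂ) := by
    intro k i; push_cast; rfl
  refine ⟨dbZ_one_ne_zero hn, dbZ_one_ne_half hn, hN0, eq_neg_of_add_eq_zero_left hNN,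
    dbZ_neg hn, dbZ_third hn, ?_, ?_, ?_, ?_, ?_, ?_⟩
  · intro k k' hk hk'
    have h := dbGram (AddChar.zmodChar (2 ^ (n - 1)) hζ.pow_eq_one) hψ
      (fun i k => (c i k : ℂ)) (fun i l => ((i : Cfsg.IrrCharacter G) : G → ℂ) (dRot e l)) hc
      (fun l l' hl hl' => dbF hn P e M hM l l' hl hl') k k' hk hk'
    simp only [← hYc] at h
    exact_mod_cast h
  · intro k hk
    have h := dbTriv (AddChar.zmodChar (2 ^ (n - 1)) hζ.pow_eq_one) hψ
      (fun k => (c ⟨Cfsg.Agent.Helper81.trivIrr G,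
        @Cfsg.Agent.Helper81.trivIrr_mem_principalBlock G _ M
          (Cfsg.Agent.Helper81.isPrime_of_isPModular hM)⟩ k : ℂ))
      (fun l => (Cfsg.Agent.Helper81.trivIrr G : G → ℂ) (dRot e l))
      (hc ⟨Cfsg.Agent.Helper81.trivIrr G,
        @Cfsg.Agent.Helper81.trivIrr_mem_principalBlock G _ M
          (Cfsg.Agent.Helper81.isPrime_of_isPModular hM)⟩) (fun l => rfl) k hk
    simp only [← hYc] at h
    exact_mod_cast h
  · intro i
    exact_mod_cast Cfsg.Agent.Helper81.charDegree_pos (i : Cfsg.IrrCharacter G)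
  · have h := Cfsg.Agent.Helper81.irr_one_eq_charDegree (Cfsg.Agent.Helper81.trivIrr G)
    rw [Cfsg.Agent.Helper81.trivIrr_apply] at h
    show ((Cfsg.charDegree ((Cfsg.Agent.Helper81.trivIrr G : Cfsg.IrrCharacter G) : G → ℂ) : ℕ)
      : ℤ) = 1
    exact_mod_cast h.symm
  · intro k hk
    have hT : ∀ l : ZMod (2 ^ (n - 1)), l ≠ 0 → ∑ i : ↥(Cfsg.principalBlock M G),
        ((i : Cfsg.IrrCharacter G) : G → ℂ) (dRot e l) * ((i : Cfsg.IrrCharacter G) : G → ℂ) 1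
          = 0 := by
      intro l hl
      rw [← hsum (fun χ => (χ : G → ℂ) (dRot e l) * (χ : G → ℂ) 1)]
      exact dbReg P e M hM hl 1 (by rw [orderOf_one]; exact odd_one)
    have h := dbOrth (AddChar.zmodChar (2 ^ (n - 1)) hζ.pow_eq_one) hψ
      (fun i k => (c i k : ℂ)) (fun i l => ((i : Cfsg.IrrCharacter G) : G → ℂ) (dRot e l)) hc
      (fun i => ((i : Cfsg.IrrCharacter G) : G → ℂ) 1) hT k
    simp only [← hYc, Cfsg.Agent.Helper81.irr_one_eq_charDegree] at h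
    exact_mod_cast h
  · intro i
    by_contra hcon
    push Not at hcon
    have h := dbVal (AddChar.zmodChar (2 ^ (n - 1)) hζ.pow_eq_one) hψ
      (fun k => (c i k : ℂ)) (fun l => ((i : Cfsg.IrrCharacter G) : G → ℂ) (dRot e l)) (hc i)
      (((2 ^ (n - 2) : ℕ)) : ZMod (2 ^ (n - 1))) hN0
    have hz : ∑ k : ZMod (2 ^ (n - 1)), ((c i 0 : ℂ) - (c i k : ℂ))
        * AddChar.zmodChar (2 ^ (n - 1)) hζ.pow_eq_one
          (k * (((2 ^ (n - 2) : ℕ)) : ZMod (2 ^ (n - 1)))) = 0 := by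
      refine Finset.sum_eq_zero fun k _ => ?_
      by_cases hk : k = 0
      · rw [hk, sub_self, zero_mul]
      · rw [← hYc, hcon k hk]; simp
    rw [hz, neg_zero] at h
    exact dbNonvan hn P e M hM (i : Cfsg.IrrCharacter G) i.2 h

end assemble

end Cfsg.Agent.Helper21.DihBlk
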