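import Mathlib
import Cfsg.Agent.Helper21.DihBlkE

/-!
# Dihedral principal block: the theorem relative to a fixed isomorphism (helper21)
-/

set_option autoImplicit false

namespace Cfsg.Agent.Helper21.DihBlk

open DihedralGroup Cfsg.Agent.Helper55 Cfsg.Agent.Helper21.DihOrd

/-- **Brauer**: the principal 2-block of a group with a dihedral Sylow 2-subgroup of order
`2^n ≥ 8`, relative to a fixed isomorphism `e` of the Sylow subgroup with the dihedral group and a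
primitive root of unity `ζ`. -/
theorem dbAssemble {G : Type*} [Group G] [Finite G] {n : ℕ} (hn : 3 ≤ n) (P : Sylow 2 G)
    (e : ↥(P : Subgroup G) ≃* DihedralGroup (2 ^ (n - 1)))
    (M : Ideal Cfsg.AlgInt) (hM : Cfsg.IsPModular 2 M)
    (ζ : ℂ) (hζ : IsPrimitiveRoot ζ (2 ^ (n - 1))) :
    ∃ (X U V : Cfsg.IrrCharacter G) (Z : ZMod (2 ^ (n - 1)) → Cfsg.IrrCharacter G)
      (ε εU εV : ℤ),
      (ε = 1 ∨ ε = -1) ∧ (εU = 1 ∨ εU = -1) ∧ (εV = 1 ∨ εV = -1) ∧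
      X ≠ Cfsg.Agent.Helper81.trivIrr G ∧ U ≠ Cfsg.Agent.Helper81.trivIrr G ∧
      V ≠ Cfsg.Agent.Helper81.trivIrr G ∧ X ≠ U ∧ X ≠ V ∧ U ≠ V ∧
      (∀ k : ZMod (2 ^ (n - 1)), k ≠ 0 → k ≠ (((2 ^ (n - 2) : ℕ)) : ZMod (2 ^ (n - 1))) →
        Z k ≠ Cfsg.Agent.Helper81.trivIrr G ∧ Z k ≠ X ∧ Z k ≠ U ∧ Z k ≠ V) ∧
      (∀ k k' : ZMod (2 ^ (n - 1)), k ≠ 0 → k ≠ (((2 ^ (n - 2) : ℕ)) : ZMod (2 ^ (n - 1))) →
        k' ≠ 0 → k' ≠ (((2 ^ (n - 2) : ℕ)) : ZMod (2 ^ (n - 1))) → Z k = Z k' →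
          k = k' ∨ k = -k') ∧
      (∀ k : ZMod (2 ^ (n - 1)), k ≠ 0 → k ≠ (((2 ^ (n - 2) : ℕ)) : ZMod (2 ^ (n - 1))) →
        Z (-k) = Z k) ∧
      (∀ χ : Cfsg.IrrCharacter G, χ ∈ Cfsg.principalBlock M G ↔
        χ = Cfsg.Agent.Helper81.trivIrr G ∨ χ = X ∨ χ = U ∨ χ = V ∨
          ∃ k : ZMod (2 ^ (n - 1)), k ≠ 0 ∧ k ≠ (((2 ^ (n - 2) : ℕ)) : ZMod (2 ^ (n - 1))) ∧
            χ = Z k) ∧
      (∀ l : ZMod (2 ^ (n - 1)), l ≠ 0 →
        (X : G → ℂ) (dRot e l) = ε ∧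
        (U : G → ℂ) (dRot e l) = -(εU * AddChar.zmodChar (2 ^ (n - 1)) hζ.pow_eq_one
          ((((2 ^ (n - 2) : ℕ)) : ZMod (2 ^ (n - 1))) * l)) ∧
        (V : G → ℂ) (dRot e l) = -(εV * AddChar.zmodChar (2 ^ (n - 1)) hζ.pow_eq_one
          ((((2 ^ (n - 2) : ℕ)) : ZMod (2 ^ (n - 1))) * l)) ∧
        ∀ k : ZMod (2 ^ (n - 1)), k ≠ 0 → k ≠ (((2 ^ (n - 2) : ℕ)) : ZMod (2 ^ (n - 1))) →
          (Z k : G → ℂ) (dRot e l) = ε * (AddChar.zmodChar (2 ^ (n - 1)) hζ.pow_eq_one (k * l)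
            + AddChar.zmodChar (2 ^ (n - 1)) hζ.pow_eq_one (-(k * l)))) ∧
      (∀ ρ : G, Odd (orderOf ρ) →
        1 + ε * (X : G → ℂ) ρ + εU * (U : G → ℂ) ρ + εV * (V : G → ℂ) ρ = 0 ∧
        ∀ k : ZMod (2 ^ (n - 1)), k ≠ 0 → k ≠ (((2 ^ (n - 2) : ℕ)) : ZMod (2 ^ (n - 1))) →
          1 + ε * (X : G → ℂ) ρ - ε * (Z k : G → ℂ) ρ = 0) := by
  classical
  have := Fintype.ofFinite ↥(Cfsg.principalBlock M G)
  have hψ : (AddChar.zmodChar (2 ^ (n - 1)) hζ.pow_eq_one).IsPrimitive :=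
    AddChar.zmodChar_primitive_of_primitive_root _ hζ
  choose c hc using fun i : ↥(Cfsg.principalBlock M G) =>
    dbCoeff P e ζ hζ (i : Cfsg.IrrCharacter G)
  have hH := dbHypInst hn P e M hM ζ hζ c hc
  obtain ⟨X, U, V, Z, ε, εU, εV, w⟩ := hH.out
  have hN0 := hH.hN0
  have hsum : ∀ F : Cfsg.IrrCharacter G → ℂ,
      ∑ᶠ χ ∈ Cfsg.principalBlock M G, F χ = ∑ i : ↥(Cfsg.principalBlock M G), F i := by
    intro F
    rw [← finsum_set_coe_eq_finsum_mem, finsum_eq_sum_of_fintype]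
  have hYc : ∀ (k : ZMod (2 ^ (n - 1))) (i : ↥(Cfsg.principalBlock M G)),
      (((c i 0 : ℤ) - (c i k : ℤ) : ℤ) : ℂ) = (c i 0 : ℂ) - (c i k : ℂ) := by
    intro k i; push_cast; rfl
  have hval : ∀ (i : ↥(Cfsg.principalBlock M G)) (l : ZMod (2 ^ (n - 1))), l ≠ 0 →
      ((i : Cfsg.IrrCharacter G) : G → ℂ) (dRot e l)
        = -∑ k, ((c i 0 : ℂ) - (c i k : ℂ))
            * AddChar.zmodChar (2 ^ (n - 1)) hζ.pow_eq_one (k * l) :=
    fun i l hl => dbVal (AddChar.zmodChar (2 ^ (n - 1)) hζ.pow_eq_one) hψ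
      (fun k => (c i k : ℂ)) (fun l => ((i : Cfsg.IrrCharacter G) : G → ℂ) (dRot e l)) (hc i) l hl
  refine ⟨X, U, V, fun k => Z k, ε, εU, εV, w.hε, w.hεU, w.hεV,
    fun h => w.hXo (Subtype.ext h), fun h => w.hUo (Subtype.ext h),
    fun h => w.hVo (Subtype.ext h), fun h => w.hXU (Subtype.ext h),
    fun h => w.hXV (Subtype.ext h), fun h => w.hUV (Subtype.ext h), ?_, ?_, ?_, ?_, ?_, ?_⟩
  · intro k hk hkN
    obtain ⟨a1, a2, a3, a4⟩ := w.hZ k hk hkN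
    exact ⟨fun h => a1 (Subtype.ext h), fun h => a2 (Subtype.ext h),
      fun h => a3 (Subtype.ext h), fun h => a4 (Subtype.ext h)⟩
  · intro k k' hk hkN hk' hk'N h
    exact w.hZinj k k' hk hkN hk' hk'N (Subtype.ext h)
  · intro k hk hkN
    exact congrArg Subtype.val (DbOut.zneg hH w k hk hkN)
  · intro χ
    constructor
    · intro hχ
      rcases w.hall ⟨χ, hχ⟩ with h | h | h | h | ⟨k, hk, hkN, h⟩
      · exact Or.inl (congrArg Subtype.val h)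
      · exact Or.inr (Or.inl (congrArg Subtype.val h))
      · exact Or.inr (Or.inr (Or.inl (congrArg Subtype.val h)))
      · exact Or.inr (Or.inr (Or.inr (Or.inl (congrArg Subtype.val h))))
      · exact Or.inr (Or.inr (Or.inr (Or.inr ⟨k, hk, hkN, congrArg Subtype.val h⟩)))
    · rintro (h | h | h | h | ⟨k, -, -, h⟩)
      · rw [h]
        exact @Cfsg.Agent.Helper81.trivIrr_mem_principalBlock G _ M
          (Cfsg.Agent.Helper81.isPrime_of_isPModular hM)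
      · rw [h]; exact X.2
      · rw [h]; exact U.2
      · rw [h]; exact V.2
      · rw [h]; exact (Z k).2
  · intro l hl
    refine ⟨?_, ?_, ?_, ?_⟩
    · rw [hval X l hl, dbValX (AddChar.zmodChar (2 ^ (n - 1)) hζ.pow_eq_one) hψ
        (fun k => (c X 0 : ℂ) - (c X k : ℂ)) (ε : ℂ) (sub_self _)
        (fun k hk => by rw [← hYc, w.hYX k hk]) l hl, neg_neg]
    · rw [hval U l hl, dbValU (fun k => AddChar.zmodChar (2 ^ (n - 1)) hζ.pow_eq_one (k * l))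
        (fun k => (c U 0 : ℂ) - (c U k : ℂ)) (εU : ℂ)
        (((2 ^ (n - 2) : ℕ)) : ZMod (2 ^ (n - 1)))]
      intro k
      by_cases hk : k = 0
      · rw [hk, sub_self, if_neg (Ne.symm hN0)]
      · rw [← hYc, w.hYU k hk]
        split_ifs <;> simp
    · rw [hval V l hl, dbValU (fun k => AddChar.zmodChar (2 ^ (n - 1)) hζ.pow_eq_one (k * l))
        (fun k => (c V 0 : ℂ) - (c V k : ℂ)) (εV : ℂ)
        (((2 ^ (n - 2) : ℕ)) : ZMod (2 ^ (n - 1)))]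
      intro k
      by_cases hk : k = 0
      · rw [hk, sub_self, if_neg (Ne.symm hN0)]
      · rw [← hYc, w.hYV k hk]
        split_ifs <;> simp
    · intro k' hk' hk'N
      have hkk : ∀ k : ZMod (2 ^ (n - 1)), (c (Z k') 0 : ℂ) - (c (Z k') k : ℂ)
          = if k = k' ∨ k = -k' then -(ε : ℂ) else 0 := by
        intro k
        by_cases hk : k = 0
        · rw [hk, sub_self, if_neg]
          rintro (h | h)
          · exact hk' h.symm
          · exact hk' (neg_eq_zero.mp h.symm)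
        · rw [← hYc, w.hYZ k k' hk hk' hk'N]
          split_ifs <;> simp
      rw [hval (Z k') l hl,
        dbValZ (fun k => AddChar.zmodChar (2 ^ (n - 1)) hζ.pow_eq_one (k * l))
        (fun k => (c (Z k') 0 : ℂ) - (c (Z k') k : ℂ)) (ε : ℂ) k' (hH.ne_neg k' hk' hk'N) hkk,
        neg_mul k' l]
      ring
  · intro ρ hρ
    have hT : ∀ l : ZMod (2 ^ (n - 1)), l ≠ 0 → ∑ i : ↥(Cfsg.principalBlock M G),
        ((i : Cfsg.IrrCharacter G) : G → ℂ) (dRot e l) * ((i : Cfsg.IrrCharacter G) : G → ℂ) ρ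
          = 0 := by
      intro l hl
      rw [← hsum (fun χ => (χ : G → ℂ) (dRot e l) * (χ : G → ℂ) ρ)]
      exact dbReg P e M hM hl ρ hρ
    have hO : ∀ k : ZMod (2 ^ (n - 1)), ∑ i : ↥(Cfsg.principalBlock M G),
        (((c i 0 : ℤ) - (c i k : ℤ) : ℤ) : ℂ) * ((i : Cfsg.IrrCharacter G) : G → ℂ) ρ = 0 := by
      intro k
      have h := dbOrth (AddChar.zmodChar (2 ^ (n - 1)) hζ.pow_eq_one) hψ
        (fun i k => (c i k : ℂ)) (fun i l => ((i : Cfsg.IrrCharacter G) : G → ℂ) (dRot e l)) hc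
        (fun i => ((i : Cfsg.IrrCharacter G) : G → ℂ) ρ) hT k
      simp only [← hYc] at h
      exact h
    constructor
    · have h1 := hO (((2 ^ (n - 2) : ℕ)) : ZMod (2 ^ (n - 1)))
      rw [DbOut.expandN hH w (fun i => ((i : Cfsg.IrrCharacter G) : G → ℂ) ρ)] at h1
      exact h1
    · intro k hk hkN
      have h1 := hO k
      rw [DbOut.expand hH w k hk hkN (fun i => ((i : Cfsg.IrrCharacter G) : G → ℂ) ρ)] at h1
      exact h1

end Cfsg.Agent.Helper21.DihBlk
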