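import Mathlib
import Cfsg.Agent.Helper21.DihBlkF

/-!
# Dihedral principal block: choice of the isomorphism (helper21)
-/

set_option autoImplicit false

namespace Cfsg.Agent.Helper21.DihBlk

open DihedralGroup Cfsg.Agent.Helper55 Cfsg.Agent.Helper21.DihOrd

/-- An isomorphism of a dihedral subgroup with the dihedral group sending a prescribed element of
maximal order to the standard rotation. -/
theorem dbIsoSigma {G : Type*} [Group G] {n : ℕ} (hn : 3 ≤ n) (S : Subgroup G)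
    (e₀ : ↥S ≃* DihedralGroup (2 ^ (n - 1))) (σ : G) (hσ : σ ∈ S)
    (hσo : orderOf σ = 2 ^ (n - 1)) :
    ∃ e : ↥S ≃* DihedralGroup (2 ^ (n - 1)),
      ∀ l : ℕ, σ ^ l = dRot e (l : ZMod (2 ^ (n - 1))) := by
  have hm4 : 4 ≤ 2 ^ (n - 1) := by
    have : 2 ^ 2 ≤ 2 ^ (n - 1) := Nat.pow_le_pow_right (by norm_num) (by omega)
    simpa using this
  have hfin : Finite ↥S := Finite.of_equiv _ e₀.symm.toEquiv
  -- `σ` is a rotation
  have hord : orderOf (e₀ ⟨σ, hσ⟩) = 2 ^ (n - 1) := by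
    rw [e₀.orderOf_eq, Subgroup.orderOf_mk, hσo]
  obtain ⟨i₀, hi₀⟩ : ∃ i₀, e₀ ⟨σ, hσ⟩ = r i₀ := by
    rcases h : e₀ ⟨σ, hσ⟩ with i | i
    · exact ⟨i, rfl⟩
    · exfalso
      rw [h, orderOf_sr] at hord
      omega
  have hσrot : σ = dRot e₀ i₀ := by
    unfold dRot
    rw [← hi₀, e₀.symm_apply_apply]
  set τ := dRef e₀ 0 with hτdef
  have hτ : τ * τ = 1 := dRef_mul_self e₀ 0
  have hrel : τ * σ * τ⁻¹ = σ⁻¹ := by
    rw [hσrot, hτdef, dRef_inv, dRef_mul_dRot, dRef_mul_dRef, dRot_inv]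
    congr 1
    ring
  have hτσ : τ ∉ Subgroup.zpowers σ := by
    intro hmem
    obtain ⟨k, hk⟩ := Subgroup.mem_zpowers_iff.mp hmem
    have hcomm : τ * σ = σ * τ := by
      rw [← hk]
      exact ((Commute.refl σ).zpow_left k).eq
    have h1 : σ = σ⁻¹ := by
      rw [← hrel, hcomm, mul_inv_cancel_right]
    have h2 : σ ^ 2 = 1 := by
      rw [pow_two]
      nth_rewrite 2 [h1]
      exact mul_inv_cancel σ
    have h3 := orderOf_dvd_of_pow_eq_one h2
    rw [hσo] at h3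
    have := Nat.le_of_dvd (by norm_num) h3
    omega
  have hτS : τ ∈ S := dRef_mem e₀ 0
  have hgen : Subgroup.closure ({σ, τ} : Set G) = S := by
    have hle : Subgroup.closure ({σ, τ} : Set G) ≤ S := by
      rw [Subgroup.closure_le]
      rintro x (rfl | hx)
      · exact hσ
      · rw [Set.mem_singleton_iff] at hx
        rw [hx]; exact hτS
    have hσC : σ ∈ Subgroup.closure ({σ, τ} : Set G) := Subgroup.subset_closure (by simp)
    have hτC : τ ∈ Subgroup.closure ({σ, τ} : Set G) := Subgroup.subset_closure (by simp)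
    have hzle : Subgroup.zpowers σ ≤ Subgroup.closure ({σ, τ} : Set G) := by
      rw [Subgroup.zpowers_le]; exact hσC
    have hfinC : Finite ↥(Subgroup.closure ({σ, τ} : Set G)) :=
      Finite.of_injective (Subgroup.inclusion hle) (Subgroup.inclusion_injective hle)
    have hcardS : Nat.card ↥S = 2 * 2 ^ (n - 1) := by
      rw [Nat.card_congr e₀.toEquiv, DihedralGroup.nat_card]
    have hcardZ : Nat.card ↥(Subgroup.zpowers σ) = 2 ^ (n - 1) := by
      rw [Nat.card_zpowers, hσo]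
    have hd1 : 2 ^ (n - 1) ∣ Nat.card ↥(Subgroup.closure ({σ, τ} : Set G)) := by
      rw [← hcardZ]; exact Subgroup.card_dvd_of_le hzle
    have hd2 : Nat.card ↥(Subgroup.closure ({σ, τ} : Set G)) ∣ 2 * 2 ^ (n - 1) := by
      rw [← hcardS]; exact Subgroup.card_dvd_of_le hle
    have hne : Nat.card ↥(Subgroup.closure ({σ, τ} : Set G)) ≠ 2 ^ (n - 1) := by
      intro heq
      have h1 : Subgroup.zpowers σ = Subgroup.closure ({σ, τ} : Set G) :=
        Subgroup.eq_of_le_of_card_ge hzle (by rw [heq, hcardZ])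
      exact hτσ (h1 ▸ hτC)
    obtain ⟨t, ht⟩ := hd1
    have hpos : 0 < 2 ^ (n - 1) := by positivity
    have ht2 : t ∣ 2 := by
      rw [ht, mul_comm 2] at hd2
      exact Nat.dvd_of_mul_dvd_mul_left hpos hd2
    have ht' : t = 1 ∨ t = 2 := (Nat.dvd_prime Nat.prime_two).mp ht2
    rcases ht' with rfl | rfl
    · exact absurd (by rw [ht, mul_one]) hne
    · exact Subgroup.eq_of_le_of_card_ge hle (by rw [hcardS, ht, mul_comm])
  obtain ⟨e, he, -⟩ := dsIso hσo hτ hrel hτσ S hgen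
  refine ⟨e, fun l => ?_⟩
  rw [he, ZMod.val_natCast, ← hσo, pow_mod_orderOf]

section arith

variable {n : ℕ}

theorem dbK_ne_zero (hn : 3 ≤ n) (j : ℕ) (hj : j < 2 ^ (n - 2) - 1) :
    ((j + 1 : ℕ) : ZMod (2 ^ (n - 1))) ≠ 0 := by
  rw [Ne, ZMod.natCast_eq_zero_iff]
  intro hd
  have h2 : 2 ^ (n - 2) < 2 ^ (n - 1) := Nat.pow_lt_pow_right (by norm_num) (by omega)
  have := Nat.le_of_dvd (by omega) hd
  omega

theorem dbK_ne_half (hn : 3 ≤ n) (j : ℕ) (hj : j < 2 ^ (n - 2) - 1) :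
    ((j + 1 : ℕ) : ZMod (2 ^ (n - 1))) ≠ ((2 ^ (n - 2) : ℕ) : ZMod (2 ^ (n - 1))) := by
  intro h
  rw [ZMod.natCast_eq_natCast_iff'] at h
  have h2 : 2 ^ (n - 2) < 2 ^ (n - 1) := Nat.pow_lt_pow_right (by norm_num) (by omega)
  rw [Nat.mod_eq_of_lt (by omega), Nat.mod_eq_of_lt h2] at h
  omega

theorem dbK_inj (hn : 3 ≤ n) (j j' : ℕ) (hj : j < 2 ^ (n - 2) - 1) (hj' : j' < 2 ^ (n - 2) - 1)
    (h : ((j + 1 : ℕ) : ZMod (2 ^ (n - 1))) = ((j' + 1 : ℕ) : ZMod (2 ^ (n - 1))) ∨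
      ((j + 1 : ℕ) : ZMod (2 ^ (n - 1))) = -((j' + 1 : ℕ) : ZMod (2 ^ (n - 1)))) : j = j' := by
  have h2 : 2 ^ (n - 2) < 2 ^ (n - 1) := Nat.pow_lt_pow_right (by norm_num) (by omega)
  have h3 : 2 ^ (n - 1) = 2 * 2 ^ (n - 2) := by
    rw [← pow_succ']
    congr 1
    omega
  rcases h with h | h
  · rw [ZMod.natCast_eq_natCast_iff'] at h
    rw [Nat.mod_eq_of_lt (by omega), Nat.mod_eq_of_lt (by omega)] at h
    omega
  · exfalso
    rw [eq_neg_iff_add_eq_zero, ← Nat.cast_add, ZMod.natCast_eq_zero_iff] at h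
    have := Nat.le_of_dvd (by omega) h
    omega

/-- Every `k ≠ 0, 2^(n-2)` is `±(j+1)` with `j < 2^(n-2) - 1`. -/
theorem dbK_surj (hn : 3 ≤ n) (k : ZMod (2 ^ (n - 1))) (hk : k ≠ 0)
    (hkN : k ≠ ((2 ^ (n - 2) : ℕ) : ZMod (2 ^ (n - 1)))) :
    ∃ j : ℕ, j < 2 ^ (n - 2) - 1 ∧ (k = ((j + 1 : ℕ) : ZMod (2 ^ (n - 1))) ∨
      -k = ((j + 1 : ℕ) : ZMod (2 ^ (n - 1)))) := by
  have h3 : 2 ^ (n - 1) = 2 * 2 ^ (n - 2) := by
    rw [← pow_succ']
    congr 1
    omega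
  have hlt : k.val < 2 ^ (n - 1) := ZMod.val_lt k
  have hk8 : k = ((k.val : ℕ) : ZMod (2 ^ (n - 1))) := (ZMod.natCast_zmod_val k).symm
  have hv0 : k.val ≠ 0 := by
    intro h
    apply hk
    rw [hk8, h, Nat.cast_zero]
  have hvN : k.val ≠ 2 ^ (n - 2) := by
    intro h
    apply hkN
    rw [hk8, h]
  by_cases hc : k.val < 2 ^ (n - 2)
  · refine ⟨k.val - 1, by omega, Or.inl ?_⟩
    have : k.val - 1 + 1 = k.val := by omega
    rw [this]
    exact hk8
  · refine ⟨2 ^ (n - 1) - k.val - 1, by omega, Or.inr ?_⟩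
    have h5 : 2 ^ (n - 1) - k.val - 1 + 1 = 2 ^ (n - 1) - k.val := by omega
    rw [h5, neg_eq_iff_add_eq_zero]
    nth_rewrite 1 [hk8]
    rw [← Nat.cast_add, ZMod.natCast_eq_zero_iff]
    apply dvd_of_eq
    omega

end arith

end Cfsg.Agent.Helper21.DihBlk
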