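import Mathlib
import Cfsg.Agent.Helper21.DihBlkG

/-!
# Dihedral principal block: Brauer's theorem (helper21)
-/

set_option autoImplicit false

namespace Cfsg.Agent.Helper21.DihBlk

open DihedralGroup Cfsg.Agent.Helper55 Cfsg.Agent.Helper21.DihOrd

/-- **Brauer**: the principal 2-block of a group with a dihedral Sylow 2-subgroup of order
`2^n ≥ 8`. -/
theorem dbFinal {G : Type*} [Group G] [Finite G] (M : Ideal Cfsg.AlgInt) (hM : Cfsg.IsPModular 2 M) (n : ℕ) (hn : 3 ≤ n) (P : Sylow 2 G) (hP : Nonempty ((P : Subgroup G) ≃* DihedralGroup (2 ^ (n - 1)))) (σ : G) (hσ : σ ∈ (P : Subgroup G)) (hσo : orderOf σ = 2 ^ (n - 1)) (ζ : ℂ) (hζ : IsPrimitiveRoot ζ (2 ^ (n - 1))) : Nat.card (Cfsg.principalBlock M G) = 3 + 2 ^ (n - 2) ∧ ∃ (χ₁ χ₂ χ₃ : Cfsg.IrrCharacter G) (χ' : Fin (2 ^ (n - 2) - 1) → Cfsg.IrrCharacter G) (δ₁ δ₂ δ₃ : ℤ), (δ₁ = 1 ∨ δ₁ = -1) ∧ (δ₂ = 1 ∨ δ₂ =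 -1) ∧ (δ₃ = 1 ∨ δ₃ = -1) ∧ Function.Injective χ' ∧ (χ₁ : G → ℂ) ≠ (fun _ => 1) ∧ (χ₂ : G → ℂ) ≠ (fun _ => 1) ∧ (χ₃ : G → ℂ) ≠ (fun _ => 1) ∧ χ₁ ≠ χ₂ ∧ χ₁ ≠ χ₃ ∧ χ₂ ≠ χ₃ ∧ (∀ j, χ' j ≠ χ₁ ∧ χ' j ≠ χ₂ ∧ χ' j ≠ χ₃ ∧ (χ' j : G → ℂ) ≠ (fun _ => 1)) ∧ Cfsg.principalBlock M G = {χ : Cfsg.IrrCharacter G | (χ : G → ℂ) = (fun _ => 1) ∨ χ = χ₁ ∨ χ = χ₂ ∨ χ = χ₃ ∨ ∃ j, χ = χ' j} ∧ (∀ l : ℕ, 0 < l → l < 2 ^ (n - 1) → (χ₁ : G → ℂ) (σ ^ l) = δ₁ ∧ (χ₂ : G → ℂ) (σ ^ l) = δ₂ * (-1) ^ (l + 1) ∧ (χ₃ : G → ℂ) (σ ^ l) = δ₃ * (-1) ^ (l + 1) ∧ ∀ j : Fin (2 ^ (n - 2) - 1), (χ' j : G → ℂ) (σ ^ l) = δ₁ * (ζ ^ (((j : ℕ) + 1) * l) + (ζ ^ (((j : ℕ) + 1) * l))⁻¹)) ∧ ∀ ρ : G, Odd (orderOf ρ) → ∀ j : Fin (2 ^ (n - 2) - 1), 1 + δ₁ * (χ₁ : G → ℂ) ρ = -δ₂ * (χ₂ : G → ℂ) ρ - δ₃ * (χ₃ : G → ℂ) ρ ∧ 1 + δ₁ * (χ₁ : G → ℂ) ρ = δ₁ * (χ' j : G → ℂ) ρ := by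
  classical
  obtain ⟨e₀⟩ := hP
  obtain ⟨e, he⟩ := dbIsoSigma hn (P : Subgroup G) e₀ σ hσ hσo
  obtain ⟨X, U, V, Z, ε, εU, εV, hε, hεU, hεV, hXo, hUo, hVo, hXU, hXV, hUV, hZ, hZinj, hZneg,
    hB, hval, hodd⟩ := dbAssemble hn P e M hM ζ hζ
  have hN1 : 2 ≤ 2 ^ (n - 2) := Nat.one_lt_two_pow (by omega)
  have hk0 : ∀ j : Fin (2 ^ (n - 2) - 1), (((j : ℕ) + 1 : ℕ) : ZMod (2 ^ (n - 1))) ≠ 0 :=
    fun j => dbK_ne_zero hn j j.2
  have hkN : ∀ j : Fin (2 ^ (n - 2) - 1), (((j : ℕ) + 1 : ℕ) : ZMod (2 ^ (n - 1)))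
      ≠ ((2 ^ (n - 2) : ℕ) : ZMod (2 ^ (n - 1))) := fun j => dbK_ne_half hn j j.2
  have hinj : Function.Injective
      (fun j : Fin (2 ^ (n - 2) - 1) => Z (((j : ℕ) + 1 : ℕ) : ZMod (2 ^ (n - 1)))) := by
    intro j j' h
    have h1 := hZinj _ _ (hk0 j) (hkN j) (hk0 j') (hkN j') h
    exact Fin.ext (dbK_inj hn j j' j.2 j'.2 h1)
  have htriv : ∀ χ : Cfsg.IrrCharacter G,
      (χ : G → ℂ) = (fun _ => 1) ↔ χ = Cfsg.Agent.Helper81.trivIrr G := by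
    intro χ
    constructor
    · intro h; exact Subtype.ext h
    · intro h; rw [h]; rfl
  have hrange : ∀ k : ZMod (2 ^ (n - 1)), k ≠ 0 →
      k ≠ ((2 ^ (n - 2) : ℕ) : ZMod (2 ^ (n - 1))) →
      ∃ j : Fin (2 ^ (n - 2) - 1), Z k = Z (((j : ℕ) + 1 : ℕ) : ZMod (2 ^ (n - 1))) := by
    intro k hk hkN'
    obtain ⟨j, hj, h | h⟩ := dbK_surj hn k hk hkN'
    · exact ⟨⟨j, hj⟩, by rw [h]⟩
    · refine ⟨⟨j, hj⟩, ?_⟩
      show Z k = Z (((j + 1 : ℕ)) : ZMod (2 ^ (n - 1)))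
      rw [← h, hZneg k hk hkN']
  have hBset : Cfsg.principalBlock M G = {χ : Cfsg.IrrCharacter G |
      (χ : G → ℂ) = (fun _ => 1) ∨ χ = X ∨ χ = U ∨ χ = V ∨
        ∃ j : Fin (2 ^ (n - 2) - 1), χ = Z (((j : ℕ) + 1 : ℕ) : ZMod (2 ^ (n - 1)))} := by
    ext χ
    rw [hB χ, Set.mem_setOf_eq, htriv]
    constructor
    · rintro (h | h | h | h | ⟨k, hk, hkN', h⟩)
      · exact Or.inl h
      · exact Or.inr (Or.inl h)
      · exact Or.inr (Or.inr (Or.inl h))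
      · exact Or.inr (Or.inr (Or.inr (Or.inl h)))
      · obtain ⟨j, hj⟩ := hrange k hk hkN'
        exact Or.inr (Or.inr (Or.inr (Or.inr ⟨j, h.trans hj⟩)))
    · rintro (h | h | h | h | ⟨j, h⟩)
      · exact Or.inl h
      · exact Or.inr (Or.inl h)
      · exact Or.inr (Or.inr (Or.inl h))
      · exact Or.inr (Or.inr (Or.inr (Or.inl h)))
      · exact Or.inr (Or.inr (Or.inr (Or.inr ⟨_, hk0 j, hkN j, h⟩)))
  refine ⟨?_, X, U, V, fun j => Z (((j : ℕ) + 1 : ℕ) : ZMod (2 ^ (n - 1))), ε, εU, εV, hε, hεU,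
    hεV, hinj, fun h => hXo ((htriv X).mp h), fun h => hUo ((htriv U).mp h),
    fun h => hVo ((htriv V).mp h), hXU, hXV, hUV, ?_, hBset, ?_, ?_⟩
  · -- the count
    have hfs : Cfsg.principalBlock M G
        = ↑(({Cfsg.Agent.Helper81.trivIrr G, X, U, V} : Finset (Cfsg.IrrCharacter G)) ∪
          Finset.univ.image
            (fun j : Fin (2 ^ (n - 2) - 1) => Z (((j : ℕ) + 1 : ℕ) : ZMod (2 ^ (n - 1))))) := by
      rw [hBset]
      ext χ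
      simp only [Set.mem_setOf_eq, Finset.coe_union, Finset.coe_insert, Finset.coe_singleton,
        Finset.coe_image, Finset.coe_univ, Set.image_univ, Set.mem_union, Set.mem_insert_iff,
        Set.mem_singleton_iff, Set.mem_range, htriv]
      constructor
      · rintro (h | h | h | h | ⟨j, h⟩)
        · exact Or.inl (Or.inl h)
        · exact Or.inl (Or.inr (Or.inl h))
        · exact Or.inl (Or.inr (Or.inr (Or.inl h)))
        · exact Or.inl (Or.inr (Or.inr (Or.inr h)))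
        · exact Or.inr ⟨j, h.symm⟩
      · rintro ((h | h | h | h) | ⟨j, h⟩)
        · exact Or.inl h
        · exact Or.inr (Or.inl h)
        · exact Or.inr (Or.inr (Or.inl h))
        · exact Or.inr (Or.inr (Or.inr (Or.inl h)))
        · exact Or.inr (Or.inr (Or.inr (Or.inr ⟨j, h.symm⟩)))
    have m1 : Cfsg.Agent.Helper81.trivIrr G ∉ ({X, U, V} : Finset (Cfsg.IrrCharacter G)) := by
      simp only [Finset.mem_insert, Finset.mem_singleton, not_or]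
      exact ⟨Ne.symm hXo, Ne.symm hUo, Ne.symm hVo⟩
    have m2 : X ∉ ({U, V} : Finset (Cfsg.IrrCharacter G)) := by
      simp only [Finset.mem_insert, Finset.mem_singleton, not_or]
      exact ⟨hXU, hXV⟩
    have m3 : U ∉ ({V} : Finset (Cfsg.IrrCharacter G)) := by
      simp only [Finset.mem_singleton]
      exact hUV
    have hdisj : Disjoint ({Cfsg.Agent.Helper81.trivIrr G, X, U, V} :
        Finset (Cfsg.IrrCharacter G))
        (Finset.univ.image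
          (fun j : Fin (2 ^ (n - 2) - 1) => Z (((j : ℕ) + 1 : ℕ) : ZMod (2 ^ (n - 1))))) := by
      rw [Finset.disjoint_left]
      intro a ha hb
      obtain ⟨j, -, rfl⟩ := Finset.mem_image.mp hb
      obtain ⟨a1, a2, a3, a4⟩ := hZ _ (hk0 j) (hkN j)
      simp only [Finset.mem_insert, Finset.mem_singleton] at ha
      rcases ha with h | h | h | h
      · exact a1 h
      · exact a2 h
      · exact a3 h
      · exact a4 h
    rw [hfs, Nat.card_coe_set_eq, Set.ncard_coe_finset, Finset.card_union_of_disjoint hdisj,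
      Finset.card_image_of_injective _ hinj, Finset.card_univ, Fintype.card_fin,
      Finset.card_insert_of_notMem m1, Finset.card_insert_of_notMem m2,
      Finset.card_insert_of_notMem m3, Finset.card_singleton]
    omega
  · intro j
    obtain ⟨a1, a2, a3, a4⟩ := hZ _ (hk0 j) (hkN j)
    exact ⟨a2, a3, a4, fun h => a1 ((htriv _).mp h)⟩
  · intro l hl0 hlm
    have hL : ((l : ℕ) : ZMod (2 ^ (n - 1))) ≠ 0 := by
      rw [Ne, ZMod.natCast_eq_zero_iff]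
      intro hd
      have := Nat.le_of_dvd hl0 hd
      omega
    obtain ⟨v1, v2, v3, v4⟩ := hval _ hL
    rw [he l]
    have hζN : ζ ^ (2 ^ (n - 2)) = -1 := by
      have h2 : IsPrimitiveRoot (ζ ^ (2 ^ (n - 2))) 2 :=
        IsPrimitiveRoot.pow (by positivity) hζ (by rw [← pow_succ]; congr 1; omega)
      exact h2.eq_neg_one_of_two_right
    have hψN : AddChar.zmodChar (2 ^ (n - 1)) hζ.pow_eq_one
        (((2 ^ (n - 2) : ℕ) : ZMod (2 ^ (n - 1))) * ((l : ℕ) : ZMod (2 ^ (n - 1))))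
        = (-1) ^ l := by
      rw [← Nat.cast_mul, AddChar.zmodChar_apply', pow_mul, hζN]
    refine ⟨v1, ?_, ?_, ?_⟩
    · rw [v2, hψN, pow_succ]; ring
    · rw [v3, hψN, pow_succ]; ring
    · intro j
      have h4 := v4 _ (hk0 j) (hkN j)
      rw [h4, AddChar.map_neg_eq_inv, ← Nat.cast_mul, AddChar.zmodChar_apply']
  · intro ρ hρ j
    obtain ⟨o1, o2⟩ := hodd ρ hρ
    have o3 := o2 _ (hk0 j) (hkN j)
    constructor
    · linear_combination o1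
    · linear_combination o3

end Cfsg.Agent.Helper21.DihBlk
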