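import Mathlib
import Cfsg.Agent.Helper13.UnitTv
import Cfsg.Agent.Helper5.UnitSU

/-!
# Isotropic vectors in unitary spaces: counting lemmas (helper21)

Trace fibres, isotropic points on a line, and the invariant
`q * N(s) + |V| = q * z_n + |s^⊥|` for totally isotropic families `s`.
-/

set_option autoImplicit false
set_option linter.unusedSimpArgs false
set_option linter.unusedSectionVars false
set_option linter.unusedVariables false

namespace Cfsg.Agent.Helper21.UStab

open Cfsg.Agent.Helper5 (frobQ frobQ_apply frobQ_frobQ)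
open Cfsg.Agent.Helper13

section generic

theorem card_and_not {α : Type*} [Finite α] (P Q : α → Prop) :
    Nat.card {a // P a} = Nat.card {a // P a ∧ Q a} + Nat.card {a // P a ∧ ¬ Q a} := by
  classical
  have := Fintype.ofFinite α
  simp only [Nat.card_eq_fintype_card, Fintype.card_subtype]
  rw [← Finset.card_filter_add_card_filter_not (s := Finset.univ.filter P) Q,
    Finset.filter_filter, Finset.filter_filter]

end generic

section fld
variable {F : Type*} [Field F] [Fintype F] {q : ℕ}

theorem card_fixed (hF : Fintype.card F = q ^ 2) : Nat.card {c : F // frobQ hF c = c} = q := by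
  classical
  have hq := Cfsg.Agent.Helper5.herm_two_le hF
  have h1 := Cfsg.Agent.Helper5.card_fixed_ne_zero hF
  have h2 := card_and_not (fun c : F => frobQ hF c = c) (fun c => c = 0)
  have h3 : Nat.card {c : F // frobQ hF c = c ∧ c = 0} = 1 := by
    have : Unique {c : F // frobQ hF c = c ∧ c = 0} :=
      ⟨⟨⟨0, map_zero _, rfl⟩⟩, fun c => Subtype.ext c.2.2⟩
    exact Nat.card_unique
  have h4 : Nat.card {c : F // frobQ hF c = c ∧ ¬ c = 0} = q - 1 := by
    rw [← h1]
    exact Nat.card_congr (Equiv.subtypeEquivRight (fun c => by rw [frobQ_apply]; tauto))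
  omega

theorem card_trace_fibre (hF : Fintype.card F = q ^ 2) (β : F) (hβ : frobQ hF β = β) :
    Nat.card {t : F // t + frobQ hF t = β} = q := by
  obtain ⟨θ, hθ⟩ := ufld_exists_trace_one hF
  obtain ⟨ω, hω0, hω⟩ := ufld_exists_skew hF
  have h2 : frobQ hF θ = 1 - θ := by linear_combination hθ
  have e : {t : F // t + frobQ hF t = β} ≃ {c : F // frobQ hF c = c} := by
    refine ⟨fun t => ⟨(t.1 - θ * β) / ω, ?_⟩, fun c => ⟨ω * c.1 + θ * β, ?_⟩, ?_, ?_⟩
    · have ht := t.2
      have h1 : frobQ hF t.1 = β - t.1 := by linear_combination ht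
      rw [map_div₀, map_sub, map_mul, hω, hβ, h1, h2]
      field_simp
      ring
    · have hc := c.2
      rw [map_add, map_mul, map_mul, hω, hc, hβ, h2]
      ring
    · intro t
      apply Subtype.ext
      show ω * ((t.1 - θ * β) / ω) + θ * β = t.1
      field_simp
      ring
    · intro c
      apply Subtype.ext
      show (ω * c.1 + θ * β - θ * β) / ω = c.1
      field_simp
      ring
  exact (Nat.card_congr e).trans (card_fixed hF)

variable {n : ℕ}

theorem line_expand (hF : Fintype.card F = q ^ 2) (v w : Fin n → F)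
    (hv : Cfsg.hermForm n F q v v = 0) (t : F) :
    Cfsg.hermForm n F q (w + t • v) (w + t • v) =
      Cfsg.hermForm n F q w w + (t * frobQ hF (Cfsg.hermForm n F q w v) +
        frobQ hF (t * frobQ hF (Cfsg.hermForm n F q w v))) := by
  rw [uh_add_left, uh_add_right hF, uh_add_right hF, uh_smul_left, uh_smul_left,
    uh_smul_right hF, uh_smul_right hF, hv, map_mul, frobQ_frobQ, uh_conj hF w v]
  ring

theorem card_line (hF : Fintype.card F = q ^ 2) (v w : Fin n → F)
    (hv : Cfsg.hermForm n F q v v = 0) (hc : Cfsg.hermForm n F q w v ≠ 0) :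
    Nat.card {t : F // Cfsg.hermForm n F q (w + t • v) (w + t • v) = 0} = q := by
  have hfc : frobQ hF (Cfsg.hermForm n F q w v) ≠ 0 := fun h => hc ((map_eq_zero _).1 h)
  have hβ : frobQ hF (-Cfsg.hermForm n F q w w) = -Cfsg.hermForm n F q w w := by
    rw [map_neg, uh_conj]
  have e : {t : F // Cfsg.hermForm n F q (w + t • v) (w + t • v) = 0} ≃
      {t : F // t + frobQ hF t = -Cfsg.hermForm n F q w w} := by
    refine ⟨fun t => ⟨t.1 * frobQ hF (Cfsg.hermForm n F q w v), ?_⟩,
      fun s => ⟨s.1 / frobQ hF (Cfsg.hermForm n F q w v), ?_⟩, ?_, ?_⟩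
    · have := t.2
      rw [line_expand hF v w hv] at this
      linear_combination this
    · rw [line_expand hF v w hv, div_mul_cancel₀ _ hfc]
      linear_combination s.2
    · intro t
      apply Subtype.ext
      show t.1 * frobQ hF (Cfsg.hermForm n F q w v) / frobQ hF (Cfsg.hermForm n F q w v) = t.1
      field_simp
    · intro s
      apply Subtype.ext
      show s.1 / frobQ hF (Cfsg.hermForm n F q w v) * frobQ hF (Cfsg.hermForm n F q w v) = s.1
      field_simp
  exact (Nat.card_congr e).trans (card_trace_fibre hF _ hβ)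

/-- The key count: in a set closed under translation by multiples of an isotropic `v0`,
the vectors not orthogonal to `v0` are `q` times the isotropic ones among them. -/
theorem step_main (hF : Fintype.card F = q ^ 2) (P : (Fin n → F) → Prop) (v0 : Fin n → F)
    (h00 : Cfsg.hermForm n F q v0 v0 = 0) (hP : ∀ (w : Fin n → F) (t : F), P w → P (w + t • v0)) :
    q * Nat.card {w : Fin n → F // (P w ∧ ¬ Cfsg.hermForm n F q w v0 = 0) ∧
        Cfsg.hermForm n F q w w = 0} =
      Nat.card {w : Fin n → F // P w ∧ ¬ Cfsg.hermForm n F q w v0 = 0} := by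
  classical
  have hq := Cfsg.Agent.Helper5.herm_two_le hF
  let e : ((Fin n → F) × F) ≃ ((Fin n → F) × F) :=
    ⟨fun p => (p.1 + p.2 • v0, p.2), fun p => (p.1 - p.2 • v0, p.2),
      fun p => by simp, fun p => by simp⟩
  have htr : ∀ (w : Fin n → F) (t : F),
      Cfsg.hermForm n F q (w + t • v0) v0 = Cfsg.hermForm n F q w v0 := by
    intro w t
    rw [uh_add_left, uh_smul_left, h00, mul_zero, add_zero]
  have hPiff : ∀ (w : Fin n → F) (t : F), P (w + t • v0) ↔ P w := by
    intro w t
    refine ⟨fun h => ?_, hP w t⟩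
    have := hP _ (-t) h
    rwa [add_assoc, ← add_smul, add_neg_cancel, zero_smul, add_zero] at this
  -- count the incidence set in two ways
  have c1 : Nat.card {p : (Fin n → F) × F // (P p.1 ∧ ¬ Cfsg.hermForm n F q p.1 v0 = 0) ∧
      Cfsg.hermForm n F q (p.1 + p.2 • v0) (p.1 + p.2 • v0) = 0} =
      Nat.card {w : Fin n → F // (P w ∧ ¬ Cfsg.hermForm n F q w v0 = 0) ∧
        Cfsg.hermForm n F q w w = 0} * q ^ 2 := by
    rw [← hF, ← Nat.card_eq_fintype_card (α := F), ← Nat.card_prod]
    refine Nat.card_congr (Equiv.trans (e.subtypeEquiv (fun p => ?_))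
      (Equiv.prodSubtypeFstEquivSubtypeProd
        (p := fun w : Fin n → F => (P w ∧ ¬ Cfsg.hermForm n F q w v0 = 0) ∧
          Cfsg.hermForm n F q w w = 0)))
    show _ ↔ (P (p.1 + p.2 • v0) ∧ ¬ Cfsg.hermForm n F q (p.1 + p.2 • v0) v0 = 0) ∧
      Cfsg.hermForm n F q (p.1 + p.2 • v0) (p.1 + p.2 • v0) = 0
    rw [htr, hPiff]
  have c2 : Nat.card {p : (Fin n → F) × F // (P p.1 ∧ ¬ Cfsg.hermForm n F q p.1 v0 = 0) ∧
      Cfsg.hermForm n F q (p.1 + p.2 • v0) (p.1 + p.2 • v0) = 0} =
      Nat.card {w : Fin n → F // P w ∧ ¬ Cfsg.hermForm n F q w v0 = 0} * q := by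
    rw [Nat.card_congr (Equiv.subtypeProdEquivSigmaSubtype
      (fun (w : Fin n → F) (t : F) => (P w ∧ ¬ Cfsg.hermForm n F q w v0 = 0) ∧
        Cfsg.hermForm n F q (w + t • v0) (w + t • v0) = 0)), Nat.card_sigma]
    have hterm : ∀ w : Fin n → F, Nat.card {t : F // (P w ∧ ¬ Cfsg.hermForm n F q w v0 = 0) ∧
        Cfsg.hermForm n F q (w + t • v0) (w + t • v0) = 0} =
        if (P w ∧ ¬ Cfsg.hermForm n F q w v0 = 0) then q else 0 := by
      intro w
      by_cases hD : P w ∧ ¬ Cfsg.hermForm n F q w v0 = 0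
      · rw [if_pos hD]
        exact (Nat.card_congr (Equiv.subtypeEquivRight (fun t => and_iff_right hD))).trans
          (card_line hF v0 w h00 hD.2)
      · rw [if_neg hD]
        have : IsEmpty {t : F // (P w ∧ ¬ Cfsg.hermForm n F q w v0 = 0) ∧
            Cfsg.hermForm n F q (w + t • v0) (w + t • v0) = 0} := ⟨fun t => hD t.2.1⟩
        exact Nat.card_of_isEmpty
    rw [Finset.sum_congr rfl (fun w _ => hterm w), Finset.sum_ite, Finset.sum_const_zero,
      add_zero, Finset.sum_const, smul_eq_mul, Nat.card_eq_fintype_card, Fintype.card_subtype]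
  have h3 := c1.symm.trans c2
  have h4 : (q * Nat.card {w : Fin n → F // (P w ∧ ¬ Cfsg.hermForm n F q w v0 = 0) ∧
        Cfsg.hermForm n F q w w = 0}) * q =
      Nat.card {w : Fin n → F // P w ∧ ¬ Cfsg.hermForm n F q w v0 = 0} * q := by
    rw [← h3]; ring
  exact Nat.eq_of_mul_eq_mul_right (by omega) h4

theorem step_count (hF : Fintype.card F = q ^ 2) (P : (Fin n → F) → Prop) (v0 : Fin n → F)
    (h00 : Cfsg.hermForm n F q v0 v0 = 0) (hP : ∀ (w : Fin n → F) (t : F), P w → P (w + t • v0)) :
    q * Nat.card {w : Fin n → F // P w ∧ Cfsg.hermForm n F q w w = 0} +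
        Nat.card {w : Fin n → F // P w ∧ Cfsg.hermForm n F q w v0 = 0} =
      q * Nat.card {w : Fin n → F // (P w ∧ Cfsg.hermForm n F q w v0 = 0) ∧
        Cfsg.hermForm n F q w w = 0} + Nat.card {w : Fin n → F // P w} := by
  have hm := step_main hF P v0 h00 hP
  have h1 := card_and_not (fun w : Fin n → F => P w) (fun w => Cfsg.hermForm n F q w v0 = 0)
  have h2 := card_and_not (fun w : Fin n → F => P w ∧ Cfsg.hermForm n F q w w = 0)
    (fun w => Cfsg.hermForm n F q w v0 = 0)
  have h3 : Nat.card {w : Fin n → F // (P w ∧ Cfsg.hermForm n F q w w = 0) ∧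
      Cfsg.hermForm n F q w v0 = 0} = Nat.card {w : Fin n → F // (P w ∧
      Cfsg.hermForm n F q w v0 = 0) ∧ Cfsg.hermForm n F q w w = 0} :=
    Nat.card_congr (Equiv.subtypeEquivRight (fun w => by tauto))
  have h4 : Nat.card {w : Fin n → F // (P w ∧ Cfsg.hermForm n F q w w = 0) ∧
      ¬ Cfsg.hermForm n F q w v0 = 0} = Nat.card {w : Fin n → F // (P w ∧
      ¬ Cfsg.hermForm n F q w v0 = 0) ∧ Cfsg.hermForm n F q w w = 0} :=
    Nat.card_congr (Equiv.subtypeEquivRight (fun w => by tauto))
  rw [h3, h4] at h2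
  rw [h2, h1, ← hm]
  ring

/-- The invariant for totally isotropic families. -/
theorem invariant (hF : Fintype.card F = q ^ 2) : ∀ (j : ℕ) (s : Fin j → Fin n → F),
    (∀ a b, Cfsg.hermForm n F q (s a) (s b) = 0) →
    q * Nat.card {w : Fin n → F // (∀ a, Cfsg.hermForm n F q w (s a) = 0) ∧
        Cfsg.hermForm n F q w w = 0} + Nat.card (Fin n → F) =
      q * Nat.card {w : Fin n → F // Cfsg.hermForm n F q w w = 0} +
        Nat.card {w : Fin n → F // ∀ a, Cfsg.hermForm n F q w (s a) = 0} := by
  intro j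
  induction j with
  | zero =>
    intro s _
    have h1 : Nat.card {w : Fin n → F // (∀ a, Cfsg.hermForm n F q w (s a) = 0) ∧
        Cfsg.hermForm n F q w w = 0} = Nat.card {w : Fin n → F // Cfsg.hermForm n F q w w = 0} :=
      Nat.card_congr (Equiv.subtypeEquivRight (fun w =>
        and_iff_right (fun a => a.elim0)))
    have h2 : Nat.card {w : Fin n → F // ∀ a, Cfsg.hermForm n F q w (s a) = 0} =
        Nat.card (Fin n → F) :=
      Nat.card_congr (Equiv.subtypeUnivEquiv (fun w a => a.elim0))
    rw [h1, h2]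
  | succ j ih =>
    intro s hs
    have ih' := ih (fun a => s a.succ) (fun a b => hs a.succ b.succ)
    have hst := step_count hF (fun w => ∀ a : Fin j, Cfsg.hermForm n F q w (s a.succ) = 0) (s 0)
      (hs 0 0) (by
        intro w t hw a
        rw [uh_add_left, uh_smul_left, hw a, hs 0 a.succ, mul_zero, add_zero])
    have h1 : Nat.card {w : Fin n → F // (∀ a, Cfsg.hermForm n F q w (s a) = 0) ∧
        Cfsg.hermForm n F q w w = 0} = Nat.card {w : Fin n → F //
        ((∀ a : Fin j, Cfsg.hermForm n F q w (s a.succ) = 0) ∧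
          Cfsg.hermForm n F q w (s 0) = 0) ∧ Cfsg.hermForm n F q w w = 0} :=
      Nat.card_congr (Equiv.subtypeEquivRight (fun w => by
        rw [Fin.forall_fin_succ]; tauto))
    have h2 : Nat.card {w : Fin n → F // ∀ a, Cfsg.hermForm n F q w (s a) = 0} =
        Nat.card {w : Fin n → F // (∀ a : Fin j, Cfsg.hermForm n F q w (s a.succ) = 0) ∧
          Cfsg.hermForm n F q w (s 0) = 0} :=
      Nat.card_congr (Equiv.subtypeEquivRight (fun w => by
        rw [Fin.forall_fin_succ]; tauto))
    rw [h1, h2]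
    omega

end fld

end Cfsg.Agent.Helper21.UStab
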