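import Mathlib
import Cfsg.Agent.Helper21.UStabA

/-!
# Counting totally isotropic frames in a unitary space (helper21)
-/

set_option autoImplicit false
set_option linter.unusedSimpArgs false
set_option linter.unusedSectionVars false
set_option linter.unusedVariables false

namespace Cfsg.Agent.Helper21.UStab

open Cfsg.Agent.Helper5 (frobQ frobQ_apply frobQ_frobQ guOrder)
open Cfsg.Agent.Helper13
open Matrix

section fld
variable {F : Type*} [Field F] [Fintype F] {q n : ℕ}

/-- The orthogonal complement of `j` independent vectors has index `(q^2)^j`. -/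
theorem card_perp (hF : Fintype.card F = q ^ 2) (j : ℕ) (s : Fin j → Fin n → F)
    (hs : LinearIndependent F s) :
    Nat.card {w : Fin n → F // ∀ a, Cfsg.hermForm n F q w (s a) = 0} * (q ^ 2) ^ j =
      (q ^ 2) ^ n := by
  classical
  set M : Matrix (Fin j) (Fin n) F := Matrix.of fun a i => frobQ hF (s a i) with hM
  have hMw : ∀ (w : Fin n → F) (a : Fin j), (M *ᵥ w) a = Cfsg.hermForm n F q w (s a) := by
    intro w a
    simp only [Matrix.mulVec, dotProduct, hM, Matrix.of_apply, Cfsg.hermForm, frobQ_apply]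
    exact Finset.sum_congr rfl (fun i _ => mul_comm _ _)
  have hrows : LinearIndependent F M.row := by
    rw [Fintype.linearIndependent_iff]
    intro g hg a
    have h2 : ∑ a, frobQ hF (g a) • s a = 0 := by
      ext i
      have h3 := congrArg (frobQ hF) (congrFun hg i)
      simp only [Finset.sum_apply, Pi.smul_apply, smul_eq_mul, Pi.zero_apply, map_sum, map_zero,
        map_mul] at h3 ⊢
      rw [← h3]
      refine Finset.sum_congr rfl (fun a _ => ?_)
      simp [hM, Matrix.row, frobQ_frobQ]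
    have h4 := (Fintype.linearIndependent_iff.1 hs) _ h2 a
    exact (map_eq_zero _).1 h4
  have hrank : M.rank = j := by
    rw [hrows.rank_matrix, Fintype.card_fin]
  have hsurj : LinearMap.range M.mulVecLin = ⊤ := by
    apply Submodule.eq_top_of_finrank_eq
    have : Module.finrank F (LinearMap.range M.mulVecLin) = M.rank := rfl
    rw [this, hrank, Module.finrank_fin_fun]
  have h1 := Submodule.card_eq_card_quotient_mul_card (LinearMap.ker M.mulVecLin)
  have h2 : Nat.card ((Fin n → F) ⧸ LinearMap.ker M.mulVecLin) = Nat.card (Fin j → F) :=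
    Nat.card_congr
      (M.mulVecLin.quotKerEquivOfSurjective (LinearMap.range_eq_top.1 hsurj)).toEquiv
  have h3 : Nat.card (LinearMap.ker M.mulVecLin) =
      Nat.card {w : Fin n → F // ∀ a, Cfsg.hermForm n F q w (s a) = 0} :=
    Nat.card_congr (Equiv.subtypeEquivRight (fun w => by
      rw [LinearMap.mem_ker, Matrix.mulVecLin_apply, funext_iff]
      exact forall_congr' (fun a => by rw [hMw]; rfl)))
  have h5 : Nat.card (Fin n → F) = (q ^ 2) ^ n := by
    rw [Nat.card_eq_fintype_card, Fintype.card_fun, hF, Fintype.card_fin]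
  have h6 : Nat.card (Fin j → F) = (q ^ 2) ^ j := by
    rw [Nat.card_eq_fintype_card, Fintype.card_fun, hF, Fintype.card_fin]
  rw [← h3, ← h6, ← h2, ← h1, h5]

/-- Independent totally isotropic frames. -/
def IsTIF (q : ℕ) {n j : ℕ} (s : Fin j → Fin n → F) : Prop :=
  LinearIndependent F s ∧ ∀ a b, Cfsg.hermForm n F q (s a) (s b) = 0

theorem isTIF_cons (hF : Fintype.card F = q ^ 2) {j : ℕ} (w : Fin n → F)
    (s : Fin j → Fin n → F) :
    IsTIF q (Fin.cons w s : Fin (j + 1) → Fin n → F) ↔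
      (IsTIF q s ∧ w ∉ Submodule.span F (Set.range s) ∧
        (∀ a, Cfsg.hermForm n F q w (s a) = 0) ∧ Cfsg.hermForm n F q w w = 0) := by
  unfold IsTIF
  rw [linearIndependent_finCons]
  constructor
  · rintro ⟨⟨hli, hw⟩, hti⟩
    refine ⟨⟨hli, fun a b => ?_⟩, hw, fun a => ?_, ?_⟩
    · simpa using hti a.succ b.succ
    · simpa using hti 0 a.succ
    · simpa using hti 0 0
  · rintro ⟨⟨hli, hti⟩, hw, hp, hww⟩
    refine ⟨⟨hli, hw⟩, fun a b => ?_⟩
    refine Fin.cases ?_ (fun a => ?_) a <;> refine Fin.cases ?_ (fun b => ?_) b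
    · simpa using hww
    · simpa using hp b
    · have := uh_conj hF w (s a)
      rw [hp a, map_zero] at this
      simpa using this.symm
    · simpa using hti a b

theorem ti_span (hF : Fintype.card F = q ^ 2) {j : ℕ} (s : Fin j → Fin n → F)
    (hti : ∀ a b, Cfsg.hermForm n F q (s a) (s b) = 0) :
    ∀ x ∈ Submodule.span F (Set.range s), ∀ y ∈ Submodule.span F (Set.range s),
      Cfsg.hermForm n F q x y = 0 := by
  intro x hx y hy
  rw [Submodule.mem_span_range_iff_exists_fun] at hx hy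
  obtain ⟨c, rfl⟩ := hx
  obtain ⟨d, rfl⟩ := hy
  have h1 : ∀ (c : Fin j → F) (y : Fin n → F), (∀ a, Cfsg.hermForm n F q (s a) y = 0) →
      Cfsg.hermForm n F q (∑ i, c i • s i) y = 0 := by
    intro c y hy
    have : Cfsg.hermForm n F q (∑ i, c i • s i) y =
        ∑ i, c i * Cfsg.hermForm n F q (s i) y := by
      unfold Cfsg.hermForm
      simp only [Finset.sum_apply, Pi.smul_apply, smul_eq_mul, Finset.sum_mul, Finset.mul_sum]
      rw [Finset.sum_comm]
      refine Finset.sum_congr rfl (fun i _ => Finset.sum_congr rfl (fun k _ => by ring))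
    rw [this]
    exact Finset.sum_eq_zero (fun i _ => by rw [hy i, mul_zero])
  apply h1
  intro a
  have h2 := uh_conj hF (∑ i, d i • s i) (s a)
  rw [h1 d (s a) (fun b => hti b a), map_zero] at h2
  exact h2.symm

omit [Field F] [Fintype F] in
theorem sigma_subtype_ext {α β : Type*} {p : α → Prop} {r : α → β → Prop} (a a' : α)
    (ha : p a) (ha' : p a') (b b' : β) (hb : r a b) (hb' : r a' b') (h1 : a = a')
    (h2 : b = b') :
    (⟨⟨a, ha⟩, ⟨b, hb⟩⟩ : Σ s : {a // p a}, {b // r s.1 b}) = ⟨⟨a', ha'⟩, ⟨b', hb'⟩⟩ := by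
  subst h1; subst h2; rfl

/-- The recursion for totally isotropic frames. -/
noncomputable def tifEquiv (hF : Fintype.card F = q ^ 2) (j : ℕ) :
    {s : Fin (j + 1) → Fin n → F // IsTIF q s} ≃
      Σ s : {s : Fin j → Fin n → F // IsTIF q s},
        {w : Fin n → F // w ∉ Submodule.span F (Set.range s.1) ∧
          (∀ a, Cfsg.hermForm n F q w (s.1 a) = 0) ∧ Cfsg.hermForm n F q w w = 0} where
  toFun s := ⟨⟨Fin.tail s.1, ((isTIF_cons hF (s.1 0) (Fin.tail s.1)).1
      (by rw [Fin.cons_self_tail]; exact s.2)).1⟩,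
    ⟨s.1 0, ((isTIF_cons hF (s.1 0) (Fin.tail s.1)).1
      (by rw [Fin.cons_self_tail]; exact s.2)).2⟩⟩
  invFun p := ⟨Fin.cons p.2.1 p.1.1, (isTIF_cons hF p.2.1 p.1.1).2 ⟨p.1.2, p.2.2⟩⟩
  left_inv _ := by simp only [Fin.cons_self_tail, Subtype.coe_eta]
  right_inv := fun ⟨⟨s, hs⟩, ⟨w, hw⟩⟩ =>
    sigma_subtype_ext (p := fun s : Fin j → Fin n → F => IsTIF q s)
      (r := fun (s : Fin j → Fin n → F) (w : Fin n → F) =>
        w ∉ Submodule.span F (Set.range s) ∧
          (∀ a, Cfsg.hermForm n F q w (s a) = 0) ∧ Cfsg.hermForm n F q w w = 0)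
      (Fin.tail (Fin.cons w s : Fin (j + 1) → Fin n → F)) s _ hs
      ((Fin.cons w s : Fin (j + 1) → Fin n → F) 0) w _ hw (Fin.tail_cons _ _) (Fin.cons_zero _ _)

/-- The number of non-zero isotropic vectors of an `m`-dimensional unitary space. -/
def zz (q m : ℕ) : ℕ :=
  if Even m then (q ^ m - 1) * (q ^ (m - 1) + 1) else (q ^ m + 1) * (q ^ (m - 1) - 1)

theorem arith_ext (q j m E A : ℕ) (hq : 2 ≤ q)
    (h1 : q * (E + (q ^ 2) ^ j) + (q ^ 2) ^ (2 * j + m + 1) =
      q * (zz q (2 * j + m + 1) + 1) + A)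
    (h2 : A * (q ^ 2) ^ j = (q ^ 2) ^ (2 * j + m + 1)) :
    E = q ^ (2 * j) * zz q (m + 1) := by
  have hq0 : 0 < q := by omega
  have hA : A = (q ^ 2) ^ (j + m + 1) := by
    apply Nat.eq_of_mul_eq_mul_right (pow_pos (pow_pos hq0 2) j)
    rw [h2, ← pow_add]
    congr 1
    omega
  subst hA
  have hqz : (q : ℤ) ≠ 0 := by exact_mod_cast hq0.ne'
  by_cases hev : Even (m + 1)
  · have hev2 : Even (2 * j + m + 1) := by
      rw [add_assoc]; exact Even.add (even_two_mul j) hev
    unfold zz at h1 ⊢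
    rw [if_pos hev2] at h1
    rw [if_pos hev]
    simp only [Nat.add_sub_cancel] at h1 ⊢
    obtain ⟨x, hx⟩ : ∃ x, q ^ (2 * j + m + 1) = x + 1 :=
      ⟨q ^ (2 * j + m + 1) - 1, by have := pow_pos hq0 (2 * j + m + 1); omega⟩
    obtain ⟨y, hy⟩ : ∃ y, q ^ (m + 1) = y + 1 :=
      ⟨q ^ (m + 1) - 1, by have := pow_pos hq0 (m + 1); omega⟩
    rw [hx, Nat.add_sub_cancel] at h1
    rw [hy, Nat.add_sub_cancel]
    have hx' : (x : ℤ) = (q : ℤ) ^ (2 * j + m + 1) - 1 := by
      have := congrArg (Nat.cast : ℕ → ℤ) hx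
      push_cast at this
      linarith
    have hy' : (y : ℤ) = (q : ℤ) ^ (m + 1) - 1 := by
      have := congrArg (Nat.cast : ℕ → ℤ) hy
      push_cast at this
      linarith
    have h1' := congrArg (Nat.cast : ℕ → ℤ) h1
    push_cast at h1'
    rw [hx'] at h1'
    have goal' : ((E : ℕ) : ℤ) = (q : ℤ) ^ (2 * j) * (((q : ℤ) ^ (m + 1) - 1) * ((q : ℤ) ^ m + 1)) := by
      apply mul_left_cancel₀ hqz
      linear_combination h1'
    have : ((E : ℕ) : ℤ) = ((q ^ (2 * j) * (y * (q ^ m + 1)) : ℕ) : ℤ) := by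
      push_cast
      rw [hy', goal']
    exact_mod_cast this
  · have hev2 : ¬ Even (2 * j + m + 1) := by
      rw [add_assoc, Nat.even_add]
      simp only [even_two_mul, true_iff]
      exact hev
    unfold zz at h1 ⊢
    rw [if_neg hev2] at h1
    rw [if_neg hev]
    simp only [Nat.add_sub_cancel] at h1 ⊢
    obtain ⟨x, hx⟩ : ∃ x, q ^ (2 * j + m) = x + 1 :=
      ⟨q ^ (2 * j + m) - 1, by have := pow_pos hq0 (2 * j + m); omega⟩
    obtain ⟨y, hy⟩ : ∃ y, q ^ m = y + 1 :=
      ⟨q ^ m - 1, by have := pow_pos hq0 (m); omega⟩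
    rw [hx, Nat.add_sub_cancel] at h1
    rw [hy, Nat.add_sub_cancel]
    have hx' : (x : ℤ) = (q : ℤ) ^ (2 * j + m) - 1 := by
      have := congrArg (Nat.cast : ℕ → ℤ) hx
      push_cast at this
      linarith
    have hy' : (y : ℤ) = (q : ℤ) ^ m - 1 := by
      have := congrArg (Nat.cast : ℕ → ℤ) hy
      push_cast at this
      linarith
    have h1' := congrArg (Nat.cast : ℕ → ℤ) h1
    push_cast at h1'
    rw [hx'] at h1'
    have goal' : ((E : ℕ) : ℤ) = (q : ℤ) ^ (2 * j) * (((q : ℤ) ^ (m + 1) + 1) * ((q : ℤ) ^ m - 1)) := by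
      apply mul_left_cancel₀ hqz
      linear_combination h1'
    have : ((E : ℕ) : ℤ) = ((q ^ (2 * j) * ((q ^ (m + 1) + 1) * y) : ℕ) : ℤ) := by
      push_cast
      rw [hy', goal']
    exact_mod_cast this

end fld

end Cfsg.Agent.Helper21.UStab
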