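import Mathlib
import Cfsg.Agent.Helper21.UStabB

/-!
# The number of totally isotropic frames in a unitary space (helper21)
-/

set_option autoImplicit false
set_option linter.unusedSimpArgs false
set_option linter.unusedSectionVars false
set_option linter.unusedVariables false

namespace Cfsg.Agent.Helper21.UStab

open Cfsg.Agent.Helper5 (frobQ frobQ_apply frobQ_frobQ guOrder guOrder_succ)
open Cfsg.Agent.Helper13
open Matrix

section fld
variable {F : Type*} [Field F] [Fintype F] {q n : ℕ}

theorem card_span_frame (hF : Fintype.card F = q ^ 2) {j : ℕ} (s : Fin j → Fin n → F)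
    (hs : LinearIndependent F s) :
    Nat.card {w : Fin n → F // w ∈ Submodule.span F (Set.range s)} = (q ^ 2) ^ j := by
  classical
  have h := Module.card_eq_pow_finrank (K := F) (V := ↥(Submodule.span F (Set.range s)))
  rw [← Nat.card_eq_fintype_card, finrank_span_eq_card hs, Fintype.card_fin, hF] at h
  exact h

theorem card_iso_eq (hF : Fintype.card F = q ^ 2) (n : ℕ) :
    Nat.card {w : Fin n → F // Cfsg.hermForm n F q w w = 0} = zz q n + 1 :=
  Cfsg.Agent.Helper5.hermCount_zero hF n

/-- The number of ways to extend a totally isotropic frame by one vector. -/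
theorem card_ext (hF : Fintype.card F = q ^ 2) {j m : ℕ} (hn : n = 2 * j + m + 1)
    (s : Fin j → Fin n → F) (hs : IsTIF q s) :
    Nat.card {w : Fin n → F // w ∉ Submodule.span F (Set.range s) ∧
      (∀ a, Cfsg.hermForm n F q w (s a) = 0) ∧ Cfsg.hermForm n F q w w = 0} =
      q ^ (2 * j) * zz q (m + 1) := by
  subst hn
  have hq := Cfsg.Agent.Helper5.herm_two_le hF
  have hinv := invariant hF j s hs.2
  have hperp := card_perp hF j s hs.1
  have hspan := card_span_frame hF s hs.1
  have hz := card_iso_eq hF (q := q) (F := F) (2 * j + m + 1)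
  have hsplit := card_and_not
    (fun w : Fin (2 * j + m + 1) → F => (∀ a, Cfsg.hermForm (2 * j + m + 1) F q w (s a) = 0) ∧
      Cfsg.hermForm (2 * j + m + 1) F q w w = 0)
    (fun w => w ∈ Submodule.span F (Set.range s))
  have h1 : Nat.card {w : Fin (2 * j + m + 1) → F //
      ((∀ a, Cfsg.hermForm (2 * j + m + 1) F q w (s a) = 0) ∧
      Cfsg.hermForm (2 * j + m + 1) F q w w = 0) ∧ w ∈ Submodule.span F (Set.range s)} =
      (q ^ 2) ^ j := by
    rw [← hspan]
    exact Nat.card_congr (Equiv.subtypeEquivRight (fun w => ⟨fun h => h.2, fun h =>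
      ⟨⟨fun a => ti_span hF s hs.2 w h (s a) (Submodule.subset_span ⟨a, rfl⟩),
        ti_span hF s hs.2 w h w h⟩, h⟩⟩))
  have h2 : Nat.card {w : Fin (2 * j + m + 1) → F //
      ((∀ a, Cfsg.hermForm (2 * j + m + 1) F q w (s a) = 0) ∧
      Cfsg.hermForm (2 * j + m + 1) F q w w = 0) ∧ ¬ w ∈ Submodule.span F (Set.range s)} =
      Nat.card {w : Fin (2 * j + m + 1) → F // w ∉ Submodule.span F (Set.range s) ∧
      (∀ a, Cfsg.hermForm (2 * j + m + 1) F q w (s a) = 0) ∧
      Cfsg.hermForm (2 * j + m + 1) F q w w = 0} :=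
    Nat.card_congr (Equiv.subtypeEquivRight (fun w => by tauto))
  have h5 : Nat.card (Fin (2 * j + m + 1) → F) = (q ^ 2) ^ (2 * j + m + 1) := by
    rw [Nat.card_eq_fintype_card, Fintype.card_fun, hF, Fintype.card_fin]
  rw [hsplit, h1, h2, hz, h5] at hinv
  refine arith_ext q j m _ _ hq ?_ hperp
  rw [add_comm (Nat.card _) ((q ^ 2) ^ j)]
  exact hinv

theorem guOrder_two (q m : ℕ) :
    guOrder q (m + 2) = q ^ (2 * m + 1) * zz q (m + 2) * guOrder q m := by
  have e0 : guOrder q (m + 2) = guOrder q (m + 1 + 1) := rfl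
  rw [e0, guOrder_succ, guOrder_succ]
  unfold zz
  have e1 : m + 1 + 1 = m + 2 := rfl
  have e2 : m + 2 - 1 = m + 1 := rfl
  simp only [e1, e2]
  by_cases hm : Even m
  · have h1 : ¬ Even (m + 1) := by rw [Nat.even_add_one]; exact not_not.2 hm
    have h2 : Even (m + 2) := by rw [← e1, Nat.even_add_one]; exact h1
    rw [if_pos h2, if_neg h1, if_pos h2]
    generalize q ^ (m + 2) - 1 = X
    ring
  · have h1 : Even (m + 1) := by rw [Nat.even_add_one]; exact hm
    have h2 : ¬ Even (m + 2) := by rw [← e1, Nat.even_add_one]; exact not_not.2 h1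
    rw [if_neg h2, if_pos h1, if_neg h2]
    generalize q ^ (m + 1) - 1 = X
    ring

/-- The number of totally isotropic `j`-frames, in product form. -/
theorem card_TIF (hF : Fintype.card F = q ^ 2) : ∀ j : ℕ, 2 * j ≤ n →
    Nat.card {s : Fin j → Fin n → F // IsTIF q s} * q ^ (j * (2 * n - 3 * j)) *
      guOrder q (n - 2 * j) = guOrder q n := by
  classical
  intro j
  induction j with
  | zero =>
    intro _
    have hu : Unique {s : Fin 0 → Fin n → F // IsTIF q s} :=
      ⟨⟨⟨fun a => a.elim0, linearIndependent_empty_type, fun a => a.elim0⟩⟩,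
        fun x => Subtype.ext (funext fun a => a.elim0)⟩
    rw [Nat.card_unique]
    simp
  | succ j ih =>
    intro hj
    obtain ⟨m, rfl⟩ : ∃ m, n = 2 * j + m + 2 := ⟨n - 2 * j - 2, by omega⟩
    have ih' := ih (by omega)
    have hcard : Nat.card {s : Fin (j + 1) → Fin (2 * j + m + 2) → F // IsTIF q s} =
        Nat.card {s : Fin j → Fin (2 * j + m + 2) → F // IsTIF q s} *
          (q ^ (2 * j) * zz q (m + 2)) := by
      rw [Nat.card_congr (tifEquiv hF j), Nat.card_sigma,
        Finset.sum_congr rfl (fun s _ => card_ext hF (m := m + 1) (by ring) s.1 s.2),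
        Finset.sum_const, Finset.card_univ, smul_eq_mul, Nat.card_eq_fintype_card]
    have e1 : 2 * j + m + 2 - 2 * j = m + 2 := by omega
    have e2 : 2 * j + m + 2 - 2 * (j + 1) = m := by omega
    have e3 : 2 * (2 * j + m + 2) - 3 * j = j + 2 * m + 4 := by omega
    have e4 : 2 * (2 * j + m + 2) - 3 * (j + 1) = j + 2 * m + 1 := by omega
    rw [e1, e3, guOrder_two] at ih'
    rw [e2, e4, hcard, ← ih']
    have e5 : q ^ (2 * j) * q ^ ((j + 1) * (j + 2 * m + 1)) =
        q ^ (j * (j + 2 * m + 4)) * q ^ (2 * m + 1) := by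
      rw [← pow_add, ← pow_add]
      congr 1
      ring
    calc Nat.card {s : Fin j → Fin (2 * j + m + 2) → F // IsTIF q s} *
          (q ^ (2 * j) * zz q (m + 2)) * q ^ ((j + 1) * (j + 2 * m + 1)) * guOrder q m
        = Nat.card {s : Fin j → Fin (2 * j + m + 2) → F // IsTIF q s} *
          (q ^ (2 * j) * q ^ ((j + 1) * (j + 2 * m + 1))) * zz q (m + 2) * guOrder q m := by
          ring
      _ = _ := by rw [e5]; ring

end fld

end Cfsg.Agent.Helper21.UStab
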