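import Mathlib
import Cfsg.Agent.Helper21.UStabC

/-!
# Arithmetic for `|G| < p^(3k)` and `|G|^3 < p^(8k)` in groups of Lie type (helper21)
-/

set_option autoImplicit false
set_option linter.unusedSimpArgs false
set_option linter.unusedSectionVars false
set_option linter.unusedVariables false

namespace Cfsg.Agent.Helper21.LieBound

open Cfsg.Agent.Helper5 (guOrder guOrder_succ)
open Cfsg.Agent.Helper21.UStab (guOrder_two zz)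

theorem finish {p c : ℕ} (hp : p.Prime) (hc : 0 < c) {e : ℕ} (h1 : p ^ e ∣ c)
    (h2 : c ^ 3 < p ^ (8 * e)) :
    c < p ^ (3 * c.factorization p) ∧ c ^ 3 < p ^ (8 * c.factorization p) := by
  have hek : e ≤ c.factorization p := (hp.pow_dvd_iff_le_factorization hc.ne').1 h1
  have h3 : c ^ 3 < p ^ (8 * c.factorization p) :=
    lt_of_lt_of_le h2 (Nat.pow_le_pow_right hp.pos (by omega))
  refine ⟨?_, h3⟩
  by_contra hcon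
  push Not at hcon
  have h4 : (p ^ (3 * c.factorization p)) ^ 3 ≤ c ^ 3 := Nat.pow_le_pow_left hcon 3
  rw [← pow_mul] at h4
  have h5 : p ^ (8 * c.factorization p) ≤ p ^ (3 * c.factorization p * 3) :=
    Nat.pow_le_pow_right hp.pos (by omega)
  omega

theorem two_le_pow {p f : ℕ} (hp : p.Prime) (hf : 1 ≤ f) : 2 ≤ p ^ f :=
  le_trans hp.two_le (Nat.le_self_pow (by omega) p)

/-- The generic case: `d * c = q^N * M` with `p ∤ d`, `M ≤ q^D` and `3 (N + D) < 8 N`. -/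
theorem core {p f c d N M D : ℕ} (hp : p.Prime) (hf : 1 ≤ f)
    (hform : d * c = (p ^ f) ^ N * M) (hd : 0 < d) (hcop : Nat.Coprime p d)
    (hM : M ≤ (p ^ f) ^ D) (hND : 3 * (N + D) < 8 * N) :
    p ^ (f * N) ∣ c ∧ c ^ 3 < p ^ (8 * (f * N)) := by
  constructor
  · have h1 : p ^ (f * N) ∣ d * c := by
      rw [hform, pow_mul]; exact dvd_mul_right _ _
    have h2 : Nat.Coprime (p ^ (f * N)) d := Nat.Coprime.pow_left _ hcop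
    exact h2.dvd_of_dvd_mul_left h1
  · have h1 : c ≤ d * c := Nat.le_mul_of_pos_left c hd
    have h2 : d * c ≤ (p ^ f) ^ (N + D) := by
      rw [hform, pow_add]; exact Nat.mul_le_mul_left _ hM
    have h3 : c ^ 3 ≤ ((p ^ f) ^ (N + D)) ^ 3 := Nat.pow_le_pow_left (h1.trans h2) 3
    have h4 : ((p ^ f) ^ (N + D)) ^ 3 < p ^ (8 * (f * N)) := by
      rw [← pow_mul, ← pow_mul]
      apply Nat.pow_lt_pow_right hp.one_lt
      have h := Nat.mul_lt_mul_of_pos_left hND (show 0 < f by omega)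
      nlinarith [h]
    exact lt_of_le_of_lt h3 h4

/-- The strict case: `d * c < d' * q^A`-type bound given directly. -/
theorem core_lt {p f c N A : ℕ} (hp : p.Prime) (hf : 1 ≤ f)
    (hdvd : (p ^ f) ^ N ∣ c) (hlt : c < (p ^ f) ^ A) (hNA : 3 * A ≤ 8 * N) :
    p ^ (f * N) ∣ c ∧ c ^ 3 < p ^ (8 * (f * N)) := by
  constructor
  · rw [pow_mul]; exact hdvd
  · have h3 : c ^ 3 < ((p ^ f) ^ A) ^ 3 := Nat.pow_lt_pow_left hlt (by norm_num)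
    have h4 : ((p ^ f) ^ A) ^ 3 ≤ p ^ (8 * (f * N)) := by
      rw [← pow_mul, ← pow_mul]
      apply Nat.pow_le_pow_right hp.pos
      have h := Nat.mul_le_mul_left f hNA
      nlinarith [h]
    exact lt_of_lt_of_le h3 h4

theorem cop_succ {p a : ℕ} (hp : p.Prime) (h : p ∣ a) : Nat.Coprime p (a + 1) := by
  rw [hp.coprime_iff_not_dvd]
  intro h1
  exact hp.one_lt.ne' (Nat.dvd_one.1 ((Nat.dvd_add_right h).1 h1))

theorem cop_pred {p a : ℕ} (hp : p.Prime) (h : p ∣ a) (ha : 1 ≤ a) : Nat.Coprime p (a - 1) := by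
  rw [hp.coprime_iff_not_dvd]
  intro h1
  have h2 : p ∣ a - (a - 1) := Nat.dvd_sub h h1
  have h3 : a - (a - 1) = 1 := by omega
  rw [h3] at h2
  exact hp.one_lt.ne' (Nat.dvd_one.1 h2)

theorem dvd_pf {p f : ℕ} (hf : 1 ≤ f) : p ∣ p ^ f := dvd_pow_self p (by omega)

theorem prod_sq_le (q : ℕ) (m : ℕ) :
    ∏ i ∈ Finset.range m, (q ^ (2 * (i + 1)) - 1) ≤ q ^ (m * (m + 1)) := by
  induction m with
  | zero => simp
  | succ m ih =>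
    rw [Finset.prod_range_succ]
    calc (∏ i ∈ Finset.range m, (q ^ (2 * (i + 1)) - 1)) * (q ^ (2 * (m + 1)) - 1)
        ≤ q ^ (m * (m + 1)) * q ^ (2 * (m + 1)) := Nat.mul_le_mul ih (Nat.sub_le _ _)
      _ = q ^ ((m + 1) * (m + 1 + 1)) := by rw [← pow_add]; congr 1; ring

theorem psl_prod_dvd (q n : ℕ) :
    q ^ (n * (n - 1) / 2) ∣ ∏ i : Fin n, (q ^ n - q ^ (i : ℕ)) := by
  rw [Fin.prod_univ_eq_prod_range (fun i => q ^ n - q ^ i) n]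
  have h : ∀ i ∈ Finset.range n, q ^ n - q ^ i = q ^ i * (q ^ (n - i) - 1) := by
    intro i hi
    rw [Finset.mem_range] at hi
    rw [Nat.mul_sub, mul_one, ← pow_add]
    congr 2
    omega
  rw [Finset.prod_congr rfl h, Finset.prod_mul_distrib, Finset.prod_pow_eq_pow_sum,
    Finset.sum_range_id]
  exact dvd_mul_right _ _

theorem psl_prod_lt (q n : ℕ) (hq : 2 ≤ q) (hn : 2 ≤ n) :
    ∏ i : Fin n, (q ^ n - q ^ (i : ℕ)) < (q - 1) * q ^ (n ^ 2 - 1) := by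
  obtain ⟨k, rfl⟩ : ∃ k, n = k + 2 := ⟨n - 2, by omega⟩
  rw [Fin.prod_univ_eq_prod_range (fun i => q ^ (k + 2) - q ^ i) (k + 2),
    Finset.prod_range_succ, Finset.prod_range_succ']
  have hq0 : 0 < q := by omega
  have h1 : ∏ i ∈ Finset.range k, (q ^ (k + 2) - q ^ (i + 1)) ≤ (q ^ (k + 2)) ^ k := by
    have := Finset.prod_le_pow_card (Finset.range k) (fun i => q ^ (k + 2) - q ^ (i + 1))
      (q ^ (k + 2)) (fun i _ => Nat.sub_le _ _)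
    rwa [Finset.card_range] at this
  have h2 : q ^ (k + 2) - q ^ 0 < q ^ (k + 2) := by
    have := pow_pos hq0 (k + 2)
    simp only [pow_zero]
    omega
  have h3 : q ^ (k + 2) - q ^ (k + 1) = q ^ (k + 1) * (q - 1) := by
    rw [Nat.mul_sub, mul_one, ← pow_succ]
  rw [h3]
  have hpos : 0 < q ^ (k + 1) * (q - 1) := Nat.mul_pos (pow_pos hq0 _) (by omega)
  have h4 : (∏ i ∈ Finset.range k, (q ^ (k + 2) - q ^ (i + 1))) * (q ^ (k + 2) - q ^ 0) <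
      (q ^ (k + 2)) ^ k * q ^ (k + 2) :=
    Nat.mul_lt_mul_of_le_of_lt h1 h2 (pow_pos (pow_pos hq0 _) _)
  have h5 := Nat.mul_lt_mul_of_pos_right h4 hpos
  have e1 : (k + 2) ^ 2 - 1 = (k + 2) * k + (k + 2) + (k + 1) := by
    have : (k + 2) ^ 2 = (k + 2) * k + (k + 2) + (k + 1) + 1 := by ring
    omega
  calc _ < (q ^ (k + 2)) ^ k * q ^ (k + 2) * (q ^ (k + 1) * (q - 1)) := h5
    _ = (q - 1) * q ^ ((k + 2) ^ 2 - 1) := by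
      have e2 : q ^ ((k + 2) * k + (k + 2) + (k + 1)) =
          (q ^ (k + 2)) ^ k * q ^ (k + 2) * q ^ (k + 1) := by
        rw [pow_add, pow_add, pow_mul]
      rw [e1, e2]
      ring

theorem sub_one_mul_add_one_lt {A B : ℕ} (hA : 1 ≤ A) (hAB : A ≤ B) :
    (A - 1) * (B + 1) < A * B := by
  obtain ⟨a, rfl⟩ : ∃ a, A = a + 1 := ⟨A - 1, by omega⟩
  simp only [Nat.add_sub_cancel]
  nlinarith

theorem add_one_mul_sub_one_lt {A B : ℕ} (hA : 1 ≤ A) (hAB : A ≤ B) :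
    (B + 1) * (A - 1) < B * A := by
  rw [mul_comm (B + 1), mul_comm B]
  exact sub_one_mul_add_one_lt hA hAB

theorem guOrder_one (q : ℕ) : guOrder q 1 = q + 1 := by
  unfold guOrder
  simp

theorem gu_odd_lt (q : ℕ) (hq : 2 ≤ q) :
    ∀ j : ℕ, guOrder q (2 * j + 3) < (q + 1) * q ^ ((2 * j + 3) ^ 2 - 1) := by
  have hq0 : 0 < q := by omega
  intro j
  induction j with
  | zero =>
    have e0 : guOrder q (2 * 0 + 3) = guOrder q (1 + 2) := rfl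
    rw [e0, guOrder_two, guOrder_one]
    unfold zz
    have hodd : ¬ Even (1 + 2) := by decide
    rw [if_neg hodd]
    have e1 : 1 + 2 - 1 = 2 := rfl
    rw [e1]
    have h1 := add_one_mul_sub_one_lt (A := q ^ 2) (B := q ^ (1 + 2)) (pow_pos hq0 2)
      (Nat.pow_le_pow_right hq0 (by norm_num))
    have h2 : q ^ (2 * 1 + 1) * ((q ^ (1 + 2) + 1) * (q ^ 2 - 1)) * (q + 1) <
        q ^ (2 * 1 + 1) * (q ^ (1 + 2) * q ^ 2) * (q + 1) :=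
      Nat.mul_lt_mul_of_pos_right (Nat.mul_lt_mul_of_pos_left h1 (pow_pos hq0 _)) (by omega)
    calc _ < q ^ (2 * 1 + 1) * (q ^ (1 + 2) * q ^ 2) * (q + 1) := h2
      _ = (q + 1) * q ^ ((2 * 0 + 3) ^ 2 - 1) := by
        norm_num
        ring
  | succ j ih =>
    have e0 : guOrder q (2 * (j + 1) + 3) = guOrder q ((2 * j + 3) + 2) := rfl
    rw [e0, guOrder_two]
    unfold zz
    have hodd : ¬ Even (2 * j + 3 + 2) := by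
      rw [Nat.not_even_iff_odd]
      exact ⟨j + 2, by ring⟩
    rw [if_neg hodd]
    have e1 : 2 * j + 3 + 2 - 1 = 2 * j + 4 := rfl
    rw [e1]
    have h1 := add_one_mul_sub_one_lt (A := q ^ (2 * j + 4)) (B := q ^ (2 * j + 3 + 2))
      (pow_pos hq0 _) (Nat.pow_le_pow_right hq0 (by omega))
    have hpos : 0 < q ^ (2 * (2 * j + 3) + 1) := pow_pos hq0 _
    have h2 : q ^ (2 * (2 * j + 3) + 1) * ((q ^ (2 * j + 3 + 2) + 1) * (q ^ (2 * j + 4) - 1)) ≤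
        q ^ (2 * (2 * j + 3) + 1) * (q ^ (2 * j + 3 + 2) * q ^ (2 * j + 4)) :=
      Nat.mul_le_mul_left _ h1.le
    have h3 := Nat.mul_lt_mul_of_le_of_lt h2 ih
      (Nat.mul_pos hpos (Nat.mul_pos (pow_pos hq0 _) (pow_pos hq0 _)))
    have e2 : (2 * (j + 1) + 3) ^ 2 - 1 =
        (2 * (2 * j + 3) + 1) + (2 * j + 3 + 2) + (2 * j + 4) + ((2 * j + 3) ^ 2 - 1) := by
      have a1 : (2 * (j + 1) + 3) ^ 2 = (2 * j + 3) ^ 2 + (8 * j + 16) := by ring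
      have a2 : 1 ≤ (2 * j + 3) ^ 2 := Nat.one_le_pow _ _ (by omega)
      omega
    calc _ < q ^ (2 * (2 * j + 3) + 1) * (q ^ (2 * j + 3 + 2) * q ^ (2 * j + 4)) *
          ((q + 1) * q ^ ((2 * j + 3) ^ 2 - 1)) := h3
      _ = (q + 1) * q ^ ((2 * (j + 1) + 3) ^ 2 - 1) := by
        rw [e2, pow_add, pow_add, pow_add]
        ring

theorem gu_odd_le (q : ℕ) (hq : 2 ≤ q) (j : ℕ) :
    guOrder q (2 * j + 1) ≤ (q + 1) * q ^ ((2 * j + 1) ^ 2 - 1) := by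
  rcases Nat.eq_zero_or_pos j with rfl | hj
  · rw [guOrder_one]; simp
  · obtain ⟨i, rfl⟩ : ∃ i, j = i + 1 := ⟨j - 1, by omega⟩
    exact (gu_odd_lt q hq i).le

theorem gu_even_lt (q : ℕ) (hq : 2 ≤ q) (j : ℕ) :
    guOrder q (2 * j + 2) < (q + 1) * q ^ ((2 * j + 2) ^ 2 - 1) := by
  have hq0 : 0 < q := by omega
  have e0 : guOrder q (2 * j + 2) = guOrder q ((2 * j + 1) + 1) := rfl
  rw [e0, guOrder_succ]
  have hev : Even (2 * j + 1 + 1) := ⟨j + 1, by ring⟩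
  rw [if_pos hev]
  have h1 := gu_odd_le q hq j
  have h2 : q ^ (2 * j + 1) * (q ^ (2 * j + 1 + 1) - 1) < q ^ (2 * j + 1) * q ^ (2 * j + 1 + 1) := by
    apply Nat.mul_lt_mul_of_pos_left _ (pow_pos hq0 _)
    have := pow_pos hq0 (2 * j + 1 + 1)
    omega
  have hpos : 0 < guOrder q (2 * j + 1) := by
    unfold guOrder
    apply Nat.mul_pos (pow_pos hq0 _)
    apply Finset.prod_pos
    intro i _
    split_ifs
    · omega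
    · have := Nat.pow_le_pow_right hq0 (show 1 ≤ i + 1 by omega)
      simp only [pow_one] at this
      omega
  have h3 := Nat.mul_lt_mul_of_lt_of_le h2 h1
    (Nat.mul_pos (show 0 < q + 1 by omega) (pow_pos hq0 _))
  have e2 : (2 * j + 2) ^ 2 - 1 = (2 * j + 1) + (2 * j + 1 + 1) + ((2 * j + 1) ^ 2 - 1) := by
    have a1 : (2 * j + 2) ^ 2 = (2 * j + 1) ^ 2 + (4 * j + 3) := by ring
    have a2 : 1 ≤ (2 * j + 1) ^ 2 := Nat.one_le_pow _ _ (by omega)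
    omega
  calc _ < q ^ (2 * j + 1) * q ^ (2 * j + 1 + 1) * ((q + 1) * q ^ ((2 * j + 1) ^ 2 - 1)) := h3
    _ = (q + 1) * q ^ ((2 * j + 2) ^ 2 - 1) := by
      rw [e2, pow_add, pow_add]
      ring

theorem gu_lt (q : ℕ) (hq : 2 ≤ q) (n : ℕ) (hn : 2 ≤ n) :
    guOrder q n < (q + 1) * q ^ (n ^ 2 - 1) := by
  rcases Nat.even_or_odd n with ⟨j, hj⟩ | ⟨j, hj⟩
  · obtain ⟨i, rfl⟩ : ∃ i, j = i + 1 := ⟨j - 1, by omega⟩
    have : n = 2 * i + 2 := by omega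
    rw [this]
    exact gu_even_lt q hq i
  · obtain ⟨i, rfl⟩ : ∃ i, j = i + 1 := ⟨j - 1, by omega⟩
    have : n = 2 * i + 3 := by omega
    rw [this]
    exact gu_odd_lt q hq i


/-! ### Family-by-family arithmetic -/

theorem exists_of_core {p f c d N M D : ℕ} (hp : p.Prime) (hf : 1 ≤ f)
    (hform : d * c = (p ^ f) ^ N * M) (hd : 0 < d) (hcop : Nat.Coprime p d)
    (hM : M ≤ (p ^ f) ^ D) (hND : 3 * (N + D) < 8 * N) :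
    ∃ e, p ^ e ∣ c ∧ c ^ 3 < p ^ (8 * e) :=
  ⟨f * N, core hp hf hform hd hcop hM hND⟩

theorem mul_le_pow_sub {q M D : ℕ} (a : ℕ) (h : M ≤ q ^ D) : M * (q ^ a - 1) ≤ q ^ (D + a) := by
  rw [pow_add]
  exact Nat.mul_le_mul h (Nat.sub_le _ _)

theorem le_pow_succ' {q : ℕ} (hq : 2 ≤ q) (a : ℕ) : q ^ a + 1 ≤ q ^ (a + 1) := by
  have h : 0 < q ^ a := pow_pos (by omega) a
  rw [pow_succ]
  nlinarith

theorem mul_le_pow_add {q M D : ℕ} (hq : 2 ≤ q) (a : ℕ) (h : M ≤ q ^ D) :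
    M * (q ^ a + 1) ≤ q ^ (D + (a + 1)) := by
  rw [pow_add]
  exact Nat.mul_le_mul h (le_pow_succ' hq a)

theorem cop_of_dvd_pred {p x d : ℕ} (hp : p.Prime) (hx : p ∣ x) (hx1 : 1 ≤ x) (hd : d ∣ x - 1) :
    Nat.Coprime p d :=
  Nat.Coprime.coprime_dvd_right hd (cop_pred hp hx hx1)

theorem cop_of_dvd_succ {p x d : ℕ} (hp : p.Prime) (hx : p ∣ x) (hd : d ∣ x + 1) :
    Nat.Coprime p d :=
  Nat.Coprime.coprime_dvd_right hd (cop_succ hp hx)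

theorem card_field {F : Type*} [Field F] [Fintype F] (p : ℕ) [CharP F p] :
    ∃ f, 1 ≤ f ∧ Fintype.card F = p ^ f := by
  obtain ⟨n, _, h⟩ := FiniteField.card F p
  exact ⟨n, n.pos, h⟩

theorem root_of_pow {p f q k : ℕ} (hp : p.Prime) (hf : 1 ≤ f) (hk : 1 ≤ k) (h : p ^ f = q ^ k) :
    ∃ j, 1 ≤ j ∧ q = p ^ j := by
  have h1 : q ∣ p ^ f := by
    rw [h]
    exact dvd_pow_self q (by omega)
  obtain ⟨j, _, hj⟩ := (Nat.dvd_prime_pow hp).1 h1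
  refine ⟨j, ?_, hj⟩
  by_contra hcon
  have hj0 : j = 0 := by omega
  rw [hj0, pow_zero] at hj
  rw [hj, one_pow] at h
  have := two_le_pow hp hf
  omega

theorem finish_card {G : Type*} [Group G] [Finite G] {p c : ℕ} (hp : p.Prime)
    (hc : Nat.card G = c) (h : ∃ e, p ^ e ∣ c ∧ c ^ 3 < p ^ (8 * e)) (X : Prop) :
    Nat.card G < p ^ (3 * (Nat.card G).factorization p) ∧
      (X → Nat.card G ^ 3 < p ^ (8 * (Nat.card G).factorization p)) := by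
  obtain ⟨e, h1, h2⟩ := h
  rw [← hc] at h1 h2
  have h3 := finish hp Nat.card_pos h1 h2
  exact ⟨h3.1, fun _ => h3.2⟩

/-- `PSp_{2m}(q)` (`m ≥ 2`) and `PΩ_{2m+1}(q)`. -/
theorem fam_sp {p f c d m : ℕ} (hp : p.Prime) (hf : 1 ≤ f) (hm : 2 ≤ m) (hd : 0 < d)
    (hcop : Nat.Coprime p d)
    (h : d * c = (p ^ f) ^ (m ^ 2) * ∏ i ∈ Finset.range m, ((p ^ f) ^ (2 * (i + 1)) - 1)) :
    ∃ e, p ^ e ∣ c ∧ c ^ 3 < p ^ (8 * e) :=
  exists_of_core hp hf h hd hcop (prod_sq_le _ m) (by nlinarith [Nat.mul_le_mul_left m hm])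

/-- `PΩ⁺_{2m}(q)`, `m ≥ 4`. -/
theorem fam_oplus {p f c m : ℕ} (hp : p.Prime) (hf : 1 ≤ f) (hm : 4 ≤ m)
    (h : Nat.gcd 4 ((p ^ f) ^ m - 1) * c = (p ^ f) ^ (m * (m - 1)) * ((p ^ f) ^ m - 1) *
      ∏ i ∈ Finset.range (m - 1), ((p ^ f) ^ (2 * (i + 1)) - 1)) :
    ∃ e, p ^ e ∣ c ∧ c ^ 3 < p ^ (8 * e) := by
  have hq2 : 2 ≤ p ^ f := two_le_pow hp hf
  have hqm : 2 ≤ (p ^ f) ^ m := le_trans hq2 (Nat.le_self_pow (by omega) _)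
  have hpd : p ∣ (p ^ f) ^ m := dvd_trans (dvd_pf hf) (dvd_pow_self _ (by omega))
  have hg : 0 < Nat.gcd 4 ((p ^ f) ^ m - 1) := Nat.gcd_pos_of_pos_left _ (by norm_num)
  have hcop : Nat.Coprime p (Nat.gcd 4 ((p ^ f) ^ m - 1)) :=
    cop_of_dvd_pred hp hpd (by omega) (Nat.gcd_dvd_right _ _)
  have hM : ((p ^ f) ^ m - 1) * ∏ i ∈ Finset.range (m - 1), ((p ^ f) ^ (2 * (i + 1)) - 1) ≤
      (p ^ f) ^ (m + (m - 1) * (m - 1 + 1)) := by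
    rw [pow_add]
    exact Nat.mul_le_mul (Nat.sub_le _ _) (prod_sq_le _ _)
  rw [mul_assoc] at h
  refine exists_of_core hp hf h hg hcop hM ?_
  obtain ⟨k, rfl⟩ : ∃ k, m = k + 4 := ⟨m - 4, by omega⟩
  have e1 : k + 4 - 1 = k + 3 := rfl
  rw [e1]
  nlinarith

/-- `PΩ⁻_{2m}(q)`, `m ≥ 4`. -/
theorem fam_ominus {p f c m : ℕ} (hp : p.Prime) (hf : 1 ≤ f) (hm : 4 ≤ m)
    (h : Nat.gcd 4 ((p ^ f) ^ m + 1) * c = (p ^ f) ^ (m * (m - 1)) * ((p ^ f) ^ m + 1) *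
      ∏ i ∈ Finset.range (m - 1), ((p ^ f) ^ (2 * (i + 1)) - 1)) :
    ∃ e, p ^ e ∣ c ∧ c ^ 3 < p ^ (8 * e) := by
  have hq2 : 2 ≤ p ^ f := two_le_pow hp hf
  have hpd : p ∣ (p ^ f) ^ m := dvd_trans (dvd_pf hf) (dvd_pow_self _ (by omega))
  have hg : 0 < Nat.gcd 4 ((p ^ f) ^ m + 1) := Nat.gcd_pos_of_pos_left _ (by norm_num)
  have hcop : Nat.Coprime p (Nat.gcd 4 ((p ^ f) ^ m + 1)) :=
    cop_of_dvd_succ hp hpd (Nat.gcd_dvd_right _ _)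
  have hM : ((p ^ f) ^ m + 1) * ∏ i ∈ Finset.range (m - 1), ((p ^ f) ^ (2 * (i + 1)) - 1) ≤
      (p ^ f) ^ ((m + 1) + (m - 1) * (m - 1 + 1)) := by
    rw [pow_add]
    exact Nat.mul_le_mul (le_pow_succ' hq2 m) (prod_sq_le _ _)
  rw [mul_assoc] at h
  refine exists_of_core hp hf h hg hcop hM ?_
  obtain ⟨k, rfl⟩ : ∃ k, m = k + 4 := ⟨m - 4, by omega⟩
  have e1 : k + 4 - 1 = k + 3 := rfl
  rw [e1]
  nlinarith

/-- `PSL_n(q)`, `n ≥ 3`. -/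
theorem fam_psl {p f c n : ℕ} (hp : p.Prime) (hf : 1 ≤ f) (hn : 3 ≤ n)
    (h : Nat.gcd n (p ^ f - 1) * ((p ^ f - 1) * c) =
      ∏ i : Fin n, ((p ^ f) ^ n - (p ^ f) ^ (i : ℕ))) :
    ∃ e, p ^ e ∣ c ∧ c ^ 3 < p ^ (8 * e) := by
  have hq2 : 2 ≤ p ^ f := two_le_pow hp hf
  have hq1 : 0 < p ^ f - 1 := by omega
  have hg : 0 < Nat.gcd n (p ^ f - 1) := Nat.gcd_pos_of_pos_right _ hq1
  have hcop1 : Nat.Coprime p (p ^ f - 1) := cop_pred hp (dvd_pf hf) (by omega)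
  have hcopg : Nat.Coprime p (Nat.gcd n (p ^ f - 1)) :=
    Nat.Coprime.coprime_dvd_right (Nat.gcd_dvd_right _ _) hcop1
  have hdvd : (p ^ f) ^ (n * (n - 1) / 2) ∣ c := by
    have h1 : (p ^ f) ^ (n * (n - 1) / 2) ∣ Nat.gcd n (p ^ f - 1) * ((p ^ f - 1) * c) := by
      rw [h]
      exact psl_prod_dvd _ _
    have c1 : Nat.Coprime ((p ^ f) ^ (n * (n - 1) / 2)) (Nat.gcd n (p ^ f - 1)) :=
      (hcopg.pow_left _).pow_left _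
    have c2 : Nat.Coprime ((p ^ f) ^ (n * (n - 1) / 2)) (p ^ f - 1) :=
      (hcop1.pow_left _).pow_left _
    exact c2.dvd_of_dvd_mul_left (c1.dvd_of_dvd_mul_left h1)
  have hlt : c < (p ^ f) ^ (n ^ 2 - 1) := by
    have h2 := psl_prod_lt (p ^ f) n hq2 (by omega)
    rw [← h] at h2
    have h3 : (p ^ f - 1) * c ≤ Nat.gcd n (p ^ f - 1) * ((p ^ f - 1) * c) :=
      Nat.le_mul_of_pos_left _ hg
    exact Nat.lt_of_mul_lt_mul_left (lt_of_le_of_lt h3 h2)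
  refine ⟨f * (n * (n - 1) / 2), core_lt hp hf hdvd hlt ?_⟩
  obtain ⟨k, rfl⟩ : ∃ k, n = k + 3 := ⟨n - 3, by omega⟩
  have e1 : (k + 3) * (k + 3 - 1) / 2 * 2 = (k + 3) * (k + 3 - 1) :=
    Nat.div_mul_cancel (even_iff_two_dvd.1 (Nat.even_mul_pred_self _))
  have e0 : k + 3 - 1 = k + 2 := rfl
  rw [e0] at e1
  rw [e0]
  have e2 : (k + 3) ^ 2 - 1 = k ^ 2 + 6 * k + 8 := by
    have : (k + 3) ^ 2 = k ^ 2 + 6 * k + 8 + 1 := by ring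
    omega
  rw [e2]
  nlinarith

/-- `PSU_n(q)`, `n ≥ 3`. -/
theorem fam_psu {p f c n : ℕ} (hp : p.Prime) (hf : 1 ≤ f) (hn : 3 ≤ n)
    (h : Nat.gcd n (p ^ f + 1) * ((p ^ f + 1) * c) = guOrder (p ^ f) n) :
    ∃ e, p ^ e ∣ c ∧ c ^ 3 < p ^ (8 * e) := by
  have hq2 : 2 ≤ p ^ f := two_le_pow hp hf
  have hq1 : 0 < p ^ f + 1 := by omega
  have hg : 0 < Nat.gcd n (p ^ f + 1) := Nat.gcd_pos_of_pos_right _ hq1
  have hcop1 : Nat.Coprime p (p ^ f + 1) := cop_succ hp (dvd_pf hf)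
  have hcopg : Nat.Coprime p (Nat.gcd n (p ^ f + 1)) :=
    Nat.Coprime.coprime_dvd_right (Nat.gcd_dvd_right _ _) hcop1
  have hdvd : (p ^ f) ^ (n * (n - 1) / 2) ∣ c := by
    have h1 : (p ^ f) ^ (n * (n - 1) / 2) ∣ Nat.gcd n (p ^ f + 1) * ((p ^ f + 1) * c) := by
      rw [h]
      exact Dvd.intro _ rfl
    have c1 : Nat.Coprime ((p ^ f) ^ (n * (n - 1) / 2)) (Nat.gcd n (p ^ f + 1)) :=
      (hcopg.pow_left _).pow_left _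
    have c2 : Nat.Coprime ((p ^ f) ^ (n * (n - 1) / 2)) (p ^ f + 1) :=
      (hcop1.pow_left _).pow_left _
    exact c2.dvd_of_dvd_mul_left (c1.dvd_of_dvd_mul_left h1)
  have hlt : c < (p ^ f) ^ (n ^ 2 - 1) := by
    have h2 := gu_lt (p ^ f) hq2 n (by omega)
    rw [← h] at h2
    have h3 : (p ^ f + 1) * c ≤ Nat.gcd n (p ^ f + 1) * ((p ^ f + 1) * c) :=
      Nat.le_mul_of_pos_left _ hg
    exact Nat.lt_of_mul_lt_mul_left (lt_of_le_of_lt h3 h2)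
  refine ⟨f * (n * (n - 1) / 2), core_lt hp hf hdvd hlt ?_⟩
  obtain ⟨k, rfl⟩ : ∃ k, n = k + 3 := ⟨n - 3, by omega⟩
  have e1 : (k + 3) * (k + 3 - 1) / 2 * 2 = (k + 3) * (k + 3 - 1) :=
    Nat.div_mul_cancel (even_iff_two_dvd.1 (Nat.even_mul_pred_self _))
  have e0 : k + 3 - 1 = k + 2 := rfl
  rw [e0] at e1
  rw [e0]
  have e2 : (k + 3) ^ 2 - 1 = k ^ 2 + 6 * k + 8 := by
    have : (k + 3) ^ 2 = k ^ 2 + 6 * k + 8 + 1 := by ring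
    omega
  rw [e2]
  nlinarith

/-- `PSL_2(q)`: the `p`-part of the order is exactly `q`, and the order is below `q^3`. -/
theorem fam_psl2 {p f c : ℕ} (hp : p.Prime) (hf : 1 ≤ f)
    (h : Nat.gcd 2 (p ^ f - 1) * ((p ^ f - 1) * c) =
      ∏ i : Fin 2, ((p ^ f) ^ 2 - (p ^ f) ^ (i : ℕ))) :
    c.factorization p = f ∧ c < p ^ (3 * f) := by
  have hq2 : 2 ≤ p ^ f := two_le_pow hp hf
  have hq1 : 0 < p ^ f - 1 := by omega
  rw [Fin.prod_univ_two] at h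
  simp only [Fin.val_zero, Fin.val_one, pow_zero, pow_one] at h
  have e1 : (p ^ f) ^ 2 - p ^ f = (p ^ f - 1) * p ^ f := by
    rw [Nat.sub_mul, one_mul, sq]
  have h' : Nat.gcd 2 (p ^ f - 1) * c = p ^ f * ((p ^ f) ^ 2 - 1) := by
    apply Nat.eq_of_mul_eq_mul_left hq1
    rw [e1] at h
    calc (p ^ f - 1) * (Nat.gcd 2 (p ^ f - 1) * c)
        = Nat.gcd 2 (p ^ f - 1) * ((p ^ f - 1) * c) := by ring
      _ = ((p ^ f) ^ 2 - 1) * ((p ^ f - 1) * p ^ f) := h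
      _ = (p ^ f - 1) * (p ^ f * ((p ^ f) ^ 2 - 1)) := by ring
  have hg : 0 < Nat.gcd 2 (p ^ f - 1) := Nat.gcd_pos_of_pos_right _ hq1
  have hcopg : Nat.Coprime p (Nat.gcd 2 (p ^ f - 1)) :=
    cop_of_dvd_pred hp (dvd_pf hf) (by omega) (Nat.gcd_dvd_right _ _)
  have hsq : 2 ≤ (p ^ f) ^ 2 := le_trans hq2 (Nat.le_self_pow (by norm_num) _)
  have hcpos : 0 < c := by
    rcases Nat.eq_zero_or_pos c with h0 | h0
    · exfalso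
      rw [h0, mul_zero] at h'
      have : 0 < p ^ f * ((p ^ f) ^ 2 - 1) := Nat.mul_pos (by omega) (by omega)
      omega
    · exact h0
  have hd1 : p ^ f ∣ c := by
    have h1 : p ^ f ∣ Nat.gcd 2 (p ^ f - 1) * c := by
      rw [h']
      exact dvd_mul_right _ _
    exact (hcopg.pow_left f).dvd_of_dvd_mul_left h1
  have hd2 : ¬ p ^ (f + 1) ∣ c := by
    intro hcon
    have h1 : p ^ (f + 1) ∣ p ^ f * ((p ^ f) ^ 2 - 1) := by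
      rw [← h']
      exact dvd_mul_of_dvd_right hcon _
    rw [pow_succ] at h1
    have h2 : p ∣ (p ^ f) ^ 2 - 1 := (Nat.mul_dvd_mul_iff_left (by omega)).1 h1
    have h3 : Nat.Coprime p ((p ^ f) ^ 2 - 1) :=
      cop_pred hp (dvd_trans (dvd_pf hf) (dvd_pow_self _ (by norm_num))) (by omega)
    exact (hp.coprime_iff_not_dvd.1 h3) h2
  constructor
  · have a1 := (hp.pow_dvd_iff_le_factorization hcpos.ne').1 hd1
    have a2 : ¬ f + 1 ≤ c.factorization p := fun hh =>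
      hd2 ((hp.pow_dvd_iff_le_factorization hcpos.ne').2 hh)
    omega
  · have h1 : c ≤ Nat.gcd 2 (p ^ f - 1) * c := Nat.le_mul_of_pos_left _ hg
    have h2 : p ^ f * ((p ^ f) ^ 2 - 1) < p ^ f * (p ^ f) ^ 2 :=
      Nat.mul_lt_mul_of_pos_left (by omega) (by omega)
    have h3 : p ^ f * (p ^ f) ^ 2 = p ^ (3 * f) := by
      rw [mul_comm 3 f, pow_mul]
      ring
    omega

/-- `G₂(q)`. -/
theorem fam_g2 {p f c : ℕ} (hp : p.Prime) (hf : 1 ≤ f)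
    (h : c = (p ^ f) ^ 6 * ((p ^ f) ^ 2 - 1) * ((p ^ f) ^ 6 - 1)) :
    ∃ e, p ^ e ∣ c ∧ c ^ 3 < p ^ (8 * e) := by
  have hform : 1 * c = (p ^ f) ^ 6 * (((p ^ f) ^ 2 - 1) * ((p ^ f) ^ 6 - 1)) := by
    rw [one_mul, h, mul_assoc]
  have hM : ((p ^ f) ^ 2 - 1) * ((p ^ f) ^ 6 - 1) ≤ (p ^ f) ^ (2 + 6) :=
    mul_le_pow_sub 6 (Nat.sub_le _ _)
  exact exists_of_core hp hf hform one_pos (Nat.coprime_one_right p) hM (by norm_num)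

/-- `F₄(q)`. -/
theorem fam_f4 {p f c : ℕ} (hp : p.Prime) (hf : 1 ≤ f)
    (h : c = (p ^ f) ^ 24 * ((p ^ f) ^ 2 - 1) * ((p ^ f) ^ 6 - 1) * ((p ^ f) ^ 8 - 1) *
      ((p ^ f) ^ 12 - 1)) :
    ∃ e, p ^ e ∣ c ∧ c ^ 3 < p ^ (8 * e) := by
  have hform : 1 * c = (p ^ f) ^ 24 * (((p ^ f) ^ 2 - 1) * ((p ^ f) ^ 6 - 1) *
      ((p ^ f) ^ 8 - 1) * ((p ^ f) ^ 12 - 1)) := by
    rw [one_mul, h]
    simp only [mul_assoc]
  have hM : ((p ^ f) ^ 2 - 1) * ((p ^ f) ^ 6 - 1) * ((p ^ f) ^ 8 - 1) * ((p ^ f) ^ 12 - 1) ≤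
      (p ^ f) ^ (2 + 6 + 8 + 12) :=
    mul_le_pow_sub 12 (mul_le_pow_sub 8 (mul_le_pow_sub 6 (Nat.sub_le _ _)))
  exact exists_of_core hp hf hform one_pos (Nat.coprime_one_right p) hM (by norm_num)

/-- `E₆(q)`. -/
theorem fam_e6 {p f c : ℕ} (hp : p.Prime) (hf : 1 ≤ f)
    (h : Nat.gcd 3 (p ^ f - 1) * c = (p ^ f) ^ 36 * ((p ^ f) ^ 2 - 1) * ((p ^ f) ^ 5 - 1) *
      ((p ^ f) ^ 6 - 1) * ((p ^ f) ^ 8 - 1) * ((p ^ f) ^ 9 - 1) * ((p ^ f) ^ 12 - 1)) :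
    ∃ e, p ^ e ∣ c ∧ c ^ 3 < p ^ (8 * e) := by
  have hq2 : 2 ≤ p ^ f := two_le_pow hp hf
  have hform : Nat.gcd 3 (p ^ f - 1) * c = (p ^ f) ^ 36 * (((p ^ f) ^ 2 - 1) *
      ((p ^ f) ^ 5 - 1) * ((p ^ f) ^ 6 - 1) * ((p ^ f) ^ 8 - 1) * ((p ^ f) ^ 9 - 1) *
      ((p ^ f) ^ 12 - 1)) := by
    rw [h]
    simp only [mul_assoc]
  have hM : ((p ^ f) ^ 2 - 1) * ((p ^ f) ^ 5 - 1) * ((p ^ f) ^ 6 - 1) * ((p ^ f) ^ 8 - 1) *
      ((p ^ f) ^ 9 - 1) * ((p ^ f) ^ 12 - 1) ≤ (p ^ f) ^ (2 + 5 + 6 + 8 + 9 + 12) :=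
    mul_le_pow_sub 12 (mul_le_pow_sub 9 (mul_le_pow_sub 8 (mul_le_pow_sub 6
      (mul_le_pow_sub 5 (Nat.sub_le _ _)))))
  exact exists_of_core hp hf hform (Nat.gcd_pos_of_pos_left _ (by norm_num))
    (cop_of_dvd_pred hp (dvd_pf hf) (by omega) (Nat.gcd_dvd_right _ _)) hM (by norm_num)

/-- `E₇(q)`. -/
theorem fam_e7 {p f c : ℕ} (hp : p.Prime) (hf : 1 ≤ f)
    (h : Nat.gcd 2 (p ^ f - 1) * c = (p ^ f) ^ 63 * ((p ^ f) ^ 2 - 1) * ((p ^ f) ^ 6 - 1) *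
      ((p ^ f) ^ 8 - 1) * ((p ^ f) ^ 10 - 1) * ((p ^ f) ^ 12 - 1) * ((p ^ f) ^ 14 - 1) *
      ((p ^ f) ^ 18 - 1)) :
    ∃ e, p ^ e ∣ c ∧ c ^ 3 < p ^ (8 * e) := by
  have hq2 : 2 ≤ p ^ f := two_le_pow hp hf
  have hform : Nat.gcd 2 (p ^ f - 1) * c = (p ^ f) ^ 63 * (((p ^ f) ^ 2 - 1) *
      ((p ^ f) ^ 6 - 1) * ((p ^ f) ^ 8 - 1) * ((p ^ f) ^ 10 - 1) * ((p ^ f) ^ 12 - 1) *
      ((p ^ f) ^ 14 - 1) * ((p ^ f) ^ 18 - 1)) := by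
    rw [h]
    simp only [mul_assoc]
  have hM : ((p ^ f) ^ 2 - 1) * ((p ^ f) ^ 6 - 1) * ((p ^ f) ^ 8 - 1) * ((p ^ f) ^ 10 - 1) *
      ((p ^ f) ^ 12 - 1) * ((p ^ f) ^ 14 - 1) * ((p ^ f) ^ 18 - 1) ≤
      (p ^ f) ^ (2 + 6 + 8 + 10 + 12 + 14 + 18) :=
    mul_le_pow_sub 18 (mul_le_pow_sub 14 (mul_le_pow_sub 12 (mul_le_pow_sub 10
      (mul_le_pow_sub 8 (mul_le_pow_sub 6 (Nat.sub_le _ _))))))
  exact exists_of_core hp hf hform (Nat.gcd_pos_of_pos_left _ (by norm_num))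
    (cop_of_dvd_pred hp (dvd_pf hf) (by omega) (Nat.gcd_dvd_right _ _)) hM (by norm_num)

/-- `E₈(q)`. -/
theorem fam_e8 {p f c : ℕ} (hp : p.Prime) (hf : 1 ≤ f)
    (h : c = (p ^ f) ^ 120 * ((p ^ f) ^ 2 - 1) * ((p ^ f) ^ 8 - 1) * ((p ^ f) ^ 12 - 1) *
      ((p ^ f) ^ 14 - 1) * ((p ^ f) ^ 18 - 1) * ((p ^ f) ^ 20 - 1) * ((p ^ f) ^ 24 - 1) *
      ((p ^ f) ^ 30 - 1)) :
    ∃ e, p ^ e ∣ c ∧ c ^ 3 < p ^ (8 * e) := by
  have hform : 1 * c = (p ^ f) ^ 120 * (((p ^ f) ^ 2 - 1) * ((p ^ f) ^ 8 - 1) *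
      ((p ^ f) ^ 12 - 1) * ((p ^ f) ^ 14 - 1) * ((p ^ f) ^ 18 - 1) * ((p ^ f) ^ 20 - 1) *
      ((p ^ f) ^ 24 - 1) * ((p ^ f) ^ 30 - 1)) := by
    rw [one_mul, h]
    simp only [mul_assoc]
  have hM : ((p ^ f) ^ 2 - 1) * ((p ^ f) ^ 8 - 1) * ((p ^ f) ^ 12 - 1) * ((p ^ f) ^ 14 - 1) *
      ((p ^ f) ^ 18 - 1) * ((p ^ f) ^ 20 - 1) * ((p ^ f) ^ 24 - 1) * ((p ^ f) ^ 30 - 1) ≤
      (p ^ f) ^ (2 + 8 + 12 + 14 + 18 + 20 + 24 + 30) :=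
    mul_le_pow_sub 30 (mul_le_pow_sub 24 (mul_le_pow_sub 20 (mul_le_pow_sub 18
      (mul_le_pow_sub 14 (mul_le_pow_sub 12 (mul_le_pow_sub 8 (Nat.sub_le _ _)))))))
  exact exists_of_core hp hf hform one_pos (Nat.coprime_one_right p) hM (by norm_num)

/-- `³D₄(q)`. -/
theorem fam_3d4 {p f c : ℕ} (hp : p.Prime) (hf : 1 ≤ f)
    (h : c = (p ^ f) ^ 12 * ((p ^ f) ^ 2 - 1) * ((p ^ f) ^ 6 - 1) *
      ((p ^ f) ^ 8 + (p ^ f) ^ 4 + 1)) :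
    ∃ e, p ^ e ∣ c ∧ c ^ 3 < p ^ (8 * e) := by
  have hq2 : 2 ≤ p ^ f := two_le_pow hp hf
  have hform : 1 * c = (p ^ f) ^ 12 * (((p ^ f) ^ 2 - 1) * ((p ^ f) ^ 6 - 1) *
      ((p ^ f) ^ 8 + (p ^ f) ^ 4 + 1)) := by
    rw [one_mul, h]
    simp only [mul_assoc]
  have h9 : (p ^ f) ^ 8 + (p ^ f) ^ 4 + 1 ≤ (p ^ f) ^ 9 := by
    have a1 : (p ^ f) ^ 4 + 1 ≤ (p ^ f) ^ 5 := le_pow_succ' hq2 4
    have a2 : (p ^ f) ^ 5 ≤ (p ^ f) ^ 8 := Nat.pow_le_pow_right (by omega) (by norm_num)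
    have a3 : 2 * (p ^ f) ^ 8 ≤ (p ^ f) ^ 9 := by
      rw [pow_succ (p ^ f) 8, mul_comm]
      exact Nat.mul_le_mul_left _ hq2
    omega
  have hM : ((p ^ f) ^ 2 - 1) * ((p ^ f) ^ 6 - 1) * ((p ^ f) ^ 8 + (p ^ f) ^ 4 + 1) ≤
      (p ^ f) ^ (2 + 6 + 9) := by
    rw [pow_add]
    exact Nat.mul_le_mul (mul_le_pow_sub 6 (Nat.sub_le _ _)) h9
  exact exists_of_core hp hf hform one_pos (Nat.coprime_one_right p) hM (by norm_num)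

/-- `²E₆(q)`. -/
theorem fam_2e6 {p f c : ℕ} (hp : p.Prime) (hf : 1 ≤ f)
    (h : Nat.gcd 3 (p ^ f + 1) * c = (p ^ f) ^ 36 * ((p ^ f) ^ 2 - 1) * ((p ^ f) ^ 5 + 1) *
      ((p ^ f) ^ 6 - 1) * ((p ^ f) ^ 8 - 1) * ((p ^ f) ^ 9 + 1) * ((p ^ f) ^ 12 - 1)) :
    ∃ e, p ^ e ∣ c ∧ c ^ 3 < p ^ (8 * e) := by
  have hq2 : 2 ≤ p ^ f := two_le_pow hp hf
  have hform : Nat.gcd 3 (p ^ f + 1) * c = (p ^ f) ^ 36 * (((p ^ f) ^ 2 - 1) *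
      ((p ^ f) ^ 5 + 1) * ((p ^ f) ^ 6 - 1) * ((p ^ f) ^ 8 - 1) * ((p ^ f) ^ 9 + 1) *
      ((p ^ f) ^ 12 - 1)) := by
    rw [h]
    simp only [mul_assoc]
  have hM : ((p ^ f) ^ 2 - 1) * ((p ^ f) ^ 5 + 1) * ((p ^ f) ^ 6 - 1) * ((p ^ f) ^ 8 - 1) *
      ((p ^ f) ^ 9 + 1) * ((p ^ f) ^ 12 - 1) ≤
      (p ^ f) ^ (2 + (5 + 1) + 6 + 8 + (9 + 1) + 12) :=
    mul_le_pow_sub 12 (mul_le_pow_add hq2 9 (mul_le_pow_sub 8 (mul_le_pow_sub 6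
      (mul_le_pow_add hq2 5 (Nat.sub_le _ _)))))
  exact exists_of_core hp hf hform (Nat.gcd_pos_of_pos_left _ (by norm_num))
    (cop_of_dvd_succ hp (dvd_pf hf) (Nat.gcd_dvd_right _ _)) hM (by norm_num)

/-- `²F₄(Q)`, `Q = 2^(2m+1)`. -/
theorem fam_2f4 {p f c : ℕ} (hp : p.Prime) (hf : 1 ≤ f)
    (h : c = (p ^ f) ^ 12 * (p ^ f - 1) * ((p ^ f) ^ 3 + 1) * ((p ^ f) ^ 4 - 1) *
      ((p ^ f) ^ 6 + 1)) :
    ∃ e, p ^ e ∣ c ∧ c ^ 3 < p ^ (8 * e) := by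
  have hq2 : 2 ≤ p ^ f := two_le_pow hp hf
  have hform : 1 * c = (p ^ f) ^ 12 * ((p ^ f - 1) * ((p ^ f) ^ 3 + 1) * ((p ^ f) ^ 4 - 1) *
      ((p ^ f) ^ 6 + 1)) := by
    rw [one_mul, h]
    simp only [mul_assoc]
  have h1 : p ^ f - 1 ≤ (p ^ f) ^ 1 := by
    rw [pow_one]
    exact Nat.sub_le _ _
  have hM : (p ^ f - 1) * ((p ^ f) ^ 3 + 1) * ((p ^ f) ^ 4 - 1) * ((p ^ f) ^ 6 + 1) ≤
      (p ^ f) ^ (1 + (3 + 1) + 4 + (6 + 1)) :=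
    mul_le_pow_add hq2 6 (mul_le_pow_sub 4 (mul_le_pow_add hq2 3 h1))
  exact exists_of_core hp hf hform one_pos (Nat.coprime_one_right p) hM (by norm_num)

/-- `²G₂(Q)` and `²B₂(Q)`: `c = Q^a (Q - 1)(Q^a + 1)` with `a ∈ {2, 3}`. -/
theorem fam_ree {p f c a : ℕ} (hp : p.Prime) (hf : 1 ≤ f) (ha : 2 ≤ a)
    (h : c = (p ^ f) ^ a * (p ^ f - 1) * ((p ^ f) ^ a + 1)) :
    ∃ e, p ^ e ∣ c ∧ c ^ 3 < p ^ (8 * e) := by
  have hq2 : 2 ≤ p ^ f := two_le_pow hp hf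
  have hform : 1 * c = (p ^ f) ^ a * ((p ^ f - 1) * ((p ^ f) ^ a + 1)) := by
    rw [one_mul, h, mul_assoc]
  have hM : (p ^ f - 1) * ((p ^ f) ^ a + 1) ≤ (p ^ f) ^ (1 + a) := by
    rw [pow_add, pow_one]
    exact (sub_one_mul_add_one_lt (by omega) (Nat.le_self_pow (by omega) _)).le
  exact exists_of_core hp hf hform one_pos (Nat.coprime_one_right p) hM (by omega)

end Cfsg.Agent.Helper21.LieBound
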