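import Mathlib
import Cfsg.Agent.Helper21.SMDefs

set_option autoImplicit false

namespace Cfsg.Agent.Helper21.SMTor

open Cfsg.Agent.Helper83 Cfsg.Agent.Helper21.SP Cfsg.Agent.Helper21.SM

variable {F : Type*} [Field F] {n : ℕ}

theorem conj2 {G : Type*} [Group G] (g h x y z : G) (h1 : h * x * h⁻¹ = y) (h2 : g * y * g⁻¹ = z) :
    g * h * x * (g * h)⁻¹ = z := by
  subst h1 h2
  group

/-- PIECE TB3: torus element for two elementary matrices in the same row (`n = 3`). -/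
theorem sm_tb3 [Finite F] {i j l : Fin 3} (hij : i ≠ j) (hil : i ≠ l) (hjl : j ≠ l) (c : F)
    (hc : c ≠ 0) : ∃ g : Matrix.SpecialLinearGroup (Fin 3) F,
      (∀ t : F, g * tv i j t * g⁻¹ = tv i j (c ^ 3 * t)) ∧ ∀ u : F, g * tv i l u * g⁻¹ = tv i l u := by
  have hn : 3 ≤ 3 := le_refl 3
  have hc' : c⁻¹ ≠ 0 := inv_ne_zero hc
  refine ⟨hh i j c * hh j l c⁻¹, fun t => ?_, fun u => ?_⟩
  · refine conj2 _ _ _ _ _ (tor_ki hn hjl (Ne.symm hij) (Ne.symm hil) hc' t) ?_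
    rw [tor_ij hn hij hc]
    congr 1
    field_simp
  · refine conj2 _ _ _ _ _ (tor_kj hn hjl (Ne.symm hij) (Ne.symm hil) hc' u) ?_
    rw [tor_ik hn hij hil hjl hc]
    congr 1
    field_simp

/-- PIECE TC3: torus element for two elementary matrices in the same column (`n = 3`). -/
theorem sm_tc3 [Finite F] {i j k : Fin 3} (hij : i ≠ j) (hik : i ≠ k) (hkj : k ≠ j) (c : F)
    (hc : c ≠ 0) : ∃ g : Matrix.SpecialLinearGroup (Fin 3) F,
      (∀ t : F, g * tv i j t * g⁻¹ = tv i j (c ^ 3 * t)) ∧ ∀ u : F, g * tv k j u * g⁻¹ = tv k j u := by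
  have hn : 3 ≤ 3 := le_refl 3
  refine ⟨hh i j c * hh i k c, fun t => ?_, fun u => ?_⟩
  · refine conj2 _ _ _ _ _ (tor_ik hn hik hij hkj hc t) ?_
    rw [tor_ij hn hij hc]
    congr 1
    ring
  · refine conj2 _ _ _ _ _ (tor_jk hn hik hij hkj hc u) ?_
    rw [tor_kj hn hij hik (Ne.symm hkj) hc]
    congr 1
    field_simp

/-- PIECE TR3: torus element fixing `x_ij` and scaling `x_jl` by `c^3` (`n = 3`). -/
theorem sm_tr3 [Finite F] {i j l : Fin 3} (hij : i ≠ j) (hil : i ≠ l) (hjl : j ≠ l) (c : F)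
    (hc : c ≠ 0) : ∃ g : Matrix.SpecialLinearGroup (Fin 3) F,
      (∀ t : F, g * tv i j t * g⁻¹ = tv i j t) ∧ ∀ u : F, g * tv j l u * g⁻¹ = tv j l (c ^ 3 * u) := by
  have hn : 3 ≤ 3 := le_refl 3
  have hc2 : c ^ 2 ≠ 0 := pow_ne_zero 2 hc
  refine ⟨hh i j c * hh j l (c ^ 2), fun t => ?_, fun u => ?_⟩
  · refine conj2 _ _ _ _ _ (tor_ki hn hjl (Ne.symm hij) (Ne.symm hil) hc2 t) ?_
    rw [tor_ij hn hij hc]
    congr 1
    field_simp
  · refine conj2 _ _ _ _ _ (tor_ij hn hjl hc2 u) ?_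
    rw [tor_jk hn hij hil hjl hc]
    congr 1
    field_simp

/-- PIECE TD4: torus element for two disjoint elementary matrices. -/
theorem sm_td4 [Finite F] (hn : 3 ≤ n) {i j k l : Fin n} (hij : i ≠ j) (hkl : k ≠ l) (hki : k ≠ i)
    (hkj : k ≠ j) (hli : l ≠ i) (hlj : l ≠ j) (c : F) (hc : c ≠ 0) :
    ∃ g : Matrix.SpecialLinearGroup (Fin n) F,
      (∀ t : F, g * tv i j t * g⁻¹ = tv i j (c ^ 2 * t)) ∧ ∀ u : F, g * tv k l u * g⁻¹ = tv k l u := by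
  refine ⟨hh i j c, fun t => tor_ij hn hij hc t, fun u => ?_⟩
  rw [tor_kl hn hij hkl hki hkj hli hlj c u]
  group

end Cfsg.Agent.Helper21.SMTor
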