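import Mathlib
import Cfsg.Agent.Helper21.SMDefs

set_option autoImplicit false

namespace Cfsg.Agent.Helper21.SMW4

open Cfsg.Agent.Helper83 Cfsg.Agent.Helper21.SP Cfsg.Agent.Helper21.SM

variable {F : Type*} [Field F] {n : ℕ}

/-- PIECE W4: a Weyl element swapping two disjoint root subgroups. -/
theorem sm_w4 [Finite F] (hn : 3 ≤ n) {i j k l : Fin n} (hij : i ≠ j) (hkl : k ≠ l) (hki : k ≠ i)
    (hkj : k ≠ j) (hli : l ≠ i) (hlj : l ≠ j) :
    ∃ w : Matrix.SpecialLinearGroup (Fin n) F,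
      (∀ t : F, w * tv i j t * w⁻¹ = tv k l t) ∧ ∀ u : F, w * tv k l u * w⁻¹ = tv i j u := by
  refine ⟨ww j l * ww i k, fun t => ?_, fun u => ?_⟩
  · have e1 : ww i k * tv i j t * (ww i k)⁻¹ = (tv k j (-t) : Matrix.SpecialLinearGroup (Fin n) F) :=
      wey1 hn (Ne.symm hki) hij hkj t
    have e2 : ww j l * tv k j (-t) * (ww j l)⁻¹ = (tv k l (- -t) : Matrix.SpecialLinearGroup (Fin n) F) :=
      wey3 hn (Ne.symm hlj) (Ne.symm hkj) (Ne.symm hkl) (-t)
    rw [neg_neg] at e2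
    calc ww j l * ww i k * tv i j t * (ww j l * ww i k)⁻¹
        = ww j l * (ww i k * tv i j t * (ww i k)⁻¹) * (ww j l)⁻¹ := by group
      _ = tv k l t := by rw [e1, e2]
  · have e1 : ww i k * tv k l u * (ww i k)⁻¹ = (tv i l u : Matrix.SpecialLinearGroup (Fin n) F) :=
      wey2 hn (Ne.symm hki) (Ne.symm hli) hkl u
    have e2 : ww j l * tv i l u * (ww j l)⁻¹ = (tv i j u : Matrix.SpecialLinearGroup (Fin n) F) :=
      wey4 hn (Ne.symm hlj) (Ne.symm hij) hli u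
    calc ww j l * ww i k * tv k l u * (ww j l * ww i k)⁻¹
        = ww j l * (ww i k * tv k l u * (ww i k)⁻¹) * (ww j l)⁻¹ := by group
      _ = tv i j u := by rw [e1, e2]

end Cfsg.Agent.Helper21.SMW4
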