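import Mathlib
import Cfsg.Agent.Helper20.SMKILL
import Cfsg.Agent.Helper21.SMTRIV
import Cfsg.Agent.Helper21.SMTor
import Cfsg.Agent.Helper21.SMW4
import Cfsg.Agent.Helper53.SMKILL3
import Cfsg.Agent.Helper58.SMADD
import Cfsg.Agent.Helper58.SMIND
import Cfsg.Agent.Helper58.SMMT
import Cfsg.Agent.Helper58.SMR3A
import Cfsg.Agent.Helper58.SMR3B
import Cfsg.Agent.Helper58.SMREL4
import Cfsg.Agent.Helper61.SMEXH
import Cfsg.Agent.Helper61.SMF3

/-!
# Central extensions of `SL_n(F_q)` split: assembly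
-/

set_option autoImplicit false

namespace Cfsg.Agent.Helper21.SMMain

open Cfsg.Agent.Helper83 Cfsg.Agent.Helper21.SP Cfsg.Agent.Helper21.SM

variable {F : Type*} [Field F] {n : ℕ} {E : Type*} [Group E]
  {π : E →* Matrix.SpecialLinearGroup (Fin n) F}

theorem ex3 : ∀ i j : Fin 3, ∃ h : Fin 3, h ≠ i ∧ h ≠ j := by decide

theorem ex4 : ∀ i j l : Fin 4, ∃ h : Fin 4, h ≠ i ∧ h ≠ j ∧ h ≠ l := by decide

theorem exists_aux (hn : 3 ≤ n) (i j : Fin n) : ∃ h : Fin n, h ≠ i ∧ h ≠ j := by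
  by_contra hne
  push_neg at hne
  have h1 : (Finset.univ : Finset (Fin n)) ⊆ {i, j} := by
    intro h _
    by_cases h1 : h = i
    · simp [h1]
    · simp [hne h h1]
  have h2 := Finset.card_le_card h1
  have h3 : ({i, j} : Finset (Fin n)).card ≤ 2 := Finset.card_le_two
  simp only [Finset.card_univ, Fintype.card_fin] at h2
  omega

theorem exists_aux3 (hn : 4 ≤ n) (i j l : Fin n) : ∃ h : Fin n, h ≠ i ∧ h ≠ j ∧ h ≠ l := by
  by_contra hne
  push_neg at hne
  have h1 : (Finset.univ : Finset (Fin n)) ⊆ {i, j, l} := by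
    intro h _
    by_cases h1 : h = i
    · simp [h1]
    · by_cases h2 : h = j
      · simp [h2]
      · simp [hne h h1 h2]
  have h2 := Finset.card_le_card h1
  have h3 : ({i, j, l} : Finset (Fin n)).card ≤ 3 := Finset.card_le_three
  simp only [Finset.card_univ, Fintype.card_fin] at h2
  omega

theorem tv_add {i j : Fin n} (hij : i ≠ j) (t u : F) :
    (tv i j (t + u) : Matrix.SpecialLinearGroup (Fin n) F) = tv i j t * tv i j u :=
  ((Cfsg.Agent.Helper58.SPSLST.tv_stN (K := F) n).add i j hij t u).symm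

theorem tv_comm {i j k l : Fin n} (hij : i ≠ j) (hkl : k ≠ l) (hjk : j ≠ k) (hil : i ≠ l) (t u : F) :
    (tv i j t : Matrix.SpecialLinearGroup (Fin n) F) * tv k l u = tv k l u * tv i j t :=
  (Cfsg.Agent.Helper58.SPSLST.tv_stN (K := F) n).comm i j k l hij hkl hil hjk t u

theorem tv_cm {i h j : Fin n} (hih : i ≠ h) (hhj : h ≠ j) (hij : i ≠ j) (t u : F) :
    cm (tv i h t : Matrix.SpecialLinearGroup (Fin n) F) (tv h j u) = tv i j (t * u) :=
  (Cfsg.Agent.Helper58.SPSLST.tv_stN (K := F) n).rel i h j hih hhj hij t u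

/-- Lifts of commuting elementary matrices commute, in all cases. -/
theorem fp_all [Finite F] (hn : 3 ≤ n) (h3 : n = 3 → ∃ c : F, c ≠ 0 ∧ c ^ 3 ≠ 1)
    (h4 : n = 4 → (∃ c : F, c ≠ 0 ∧ c ^ 2 ≠ 1) ∨ Nat.card F = 3) (hπ : CE π) : FP π := by
  intro i j k l hij hkl hjk hil t u a b ha hb
  by_cases hex : ∃ h : Fin n, h ≠ i ∧ h ≠ j ∧ h ≠ k ∧ h ≠ l
  · obtain ⟨h, h1, h2, h3', h4'⟩ := hex
    exact Cfsg.Agent.Helper58.SMMT.sm_mt hπ hij hkl hjk hil h1 h2 h3' h4' t u a b ha hb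
  · have hn5 : ¬ 5 ≤ n := fun h5 => hex (Cfsg.Agent.Helper61.SMEXH.sm_exh h5 i j k l)
    rcases (by omega : n = 3 ∨ n = 4) with rfl | rfl
    · obtain ⟨c, hc0, hc⟩ := h3 rfl
      by_cases hik : i = k
      · subst hik
        have hjl : j ≠ l := by
          intro hjl
          subst hjl
          obtain ⟨h, h1, h2⟩ := ex3 i j
          exact hex ⟨h, h1, h2, h1, h2⟩
        obtain ⟨g, hg1, hg2⟩ := Cfsg.Agent.Helper21.SMTor.sm_tb3 (F := F) hij hil hjl c hc0
        exact Cfsg.Agent.Helper20.SMKILL.sm_kill hπ (tv i j) (tv i l) (fun t t' => tv_add hij t t')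
          (fun u u' => tv_add hil u u') (fun t u => tv_comm hij hkl hjk hil t u) (c ^ 3) hc g hg1 hg2
          t u a b ha hb
      · have hjl : j = l := by
          by_contra hjl
          have := i.isLt
          have := j.isLt
          have := k.isLt
          have := l.isLt
          simp only [ne_eq, Fin.ext_iff] at hij hkl hjk hil hik hjl
          omega
        subst hjl
        obtain ⟨g, hg1, hg2⟩ := Cfsg.Agent.Helper21.SMTor.sm_tc3 (F := F) hij hik hkl c hc0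
        exact Cfsg.Agent.Helper20.SMKILL.sm_kill hπ (tv i j) (tv k j) (fun t t' => tv_add hij t t')
          (fun u u' => tv_add hkl u u') (fun t u => tv_comm hij hkl hjk hil t u) (c ^ 3) hc g hg1 hg2
          t u a b ha hb
    · have hki : k ≠ i := by
        intro h
        subst h
        obtain ⟨h, h1, h2, h3'⟩ := ex4 k j l
        exact hex ⟨h, h1, h2, h1, h3'⟩
      have hlj : l ≠ j := by
        intro h
        subst h
        obtain ⟨h, h1, h2, h3'⟩ := ex4 i l k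
        exact hex ⟨h, h1, h2, h3', h2⟩
      rcases h4 rfl with ⟨c, hc0, hc⟩ | h3c
      · obtain ⟨g, hg1, hg2⟩ := Cfsg.Agent.Helper21.SMTor.sm_td4 (F := F) hn hij hkl hki (Ne.symm hjk) (Ne.symm hil) hlj c hc0
        exact Cfsg.Agent.Helper20.SMKILL.sm_kill hπ (tv i j) (tv k l) (fun t t' => tv_add hij t t')
          (fun u u' => tv_add hkl u u') (fun t u => tv_comm hij hkl hjk hil t u) (c ^ 2) hc g hg1 hg2
          t u a b ha hb
      · obtain ⟨hF3, hF30⟩ := Cfsg.Agent.Helper61.SMF3.sm_f3 h3c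
        obtain ⟨w, hw1, hw2⟩ := Cfsg.Agent.Helper21.SMW4.sm_w4 (F := F) hn hij hkl hki (Ne.symm hjk) (Ne.symm hil) hlj
        exact Cfsg.Agent.Helper53.SMKILL3.sm_kill3 hπ (tv i j) (tv k l) (fun t t' => tv_add hij t t')
          (fun u u' => tv_add hkl u u') (fun t u => tv_comm hij hkl hjk hil t u) hF3 hF30 w hw1 hw2
          t u a b ha hb

/-- The auxiliary index. -/
noncomputable def aux (hn : 3 ≤ n) (i j : Fin n) : Fin n := Classical.choose (exists_aux hn i j)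

theorem aux_ne (hn : 3 ≤ n) (i j : Fin n) : aux hn i j ≠ i ∧ aux hn i j ≠ j :=
  Classical.choose_spec (exists_aux hn i j)

/-- Milnor's lifts `s_ij(t) = [lift x_ih(1), lift x_hj(t)]`. -/
noncomputable def sfam (hn : 3 ≤ n) (hπ : CE π) (i j : Fin n) (t : F) : E :=
  cm (lft hπ (tv i (aux hn i j) 1)) (lft hπ (tv (aux hn i j) j t))

theorem pi_sfam (hn : 3 ≤ n) (hπ : CE π) {i j : Fin n} (hij : i ≠ j) (t : F) :
    π (sfam hn hπ i j t) = tv i j t := by
  unfold sfam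
  rw [pi_cm, pi_lft, pi_lft, tv_cm (aux_ne hn i j).1.symm (aux_ne hn i j).2 hij, one_mul]

theorem sfam_eq (hn : 3 ≤ n) (hπ : CE π) (hF : FP π) {i j h : Fin n} (hij : i ≠ j) (hhi : h ≠ i)
    (hhj : h ≠ j) (t : F) (a b : E) (ha : π a = tv i h 1) (hb : π b = tv h j t) :
    cm a b = sfam hn hπ i j t := by
  unfold sfam
  by_cases hh : h = aux hn i j
  · subst hh
    exact l0 hπ (by rw [ha, pi_lft]) (by rw [hb, pi_lft])
  · exact Cfsg.Agent.Helper58.SMIND.sm_ind hπ hF hij hhi hhj (aux_ne hn i j).1 (aux_ne hn i j).2 hh t a b _ _ ha hb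
      (pi_lft hπ _) (pi_lft hπ _)

theorem sfam_stN [Finite F] (hn : 3 ≤ n) (h3 : n = 3 → ∃ c : F, c ≠ 0 ∧ c ^ 3 ≠ 1) (hπ : CE π)
    (hF : FP π) : StN (sfam hn hπ) := by
  refine ⟨?_, ?_, ?_⟩
  · intro i j hij t u
    obtain ⟨h1, h2⟩ := aux_ne hn i j
    have e1 : sfam hn hπ i j (t + u)
        = cm (lft hπ (tv i (aux hn i j) 1)) (lft hπ (tv (aux hn i j) j t) * lft hπ (tv (aux hn i j) j u)) := by
      unfold sfam
      refine l0 hπ rfl ?_
      rw [map_mul, pi_lft, pi_lft, pi_lft, tv_add h2]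
    rw [e1, Cfsg.Agent.Helper58.SMADD.sm_add hπ hF hij h1 h2 t u _ _ _ (pi_lft hπ _) (pi_lft hπ _) (pi_lft hπ _)]
    rfl
  · intro i j k l hij hkl hil hjk t u
    exact hF i j k l hij hkl hjk hil t u _ _ (pi_sfam hn hπ hij t) (pi_sfam hn hπ hkl u)
  · intro i j l hij hjl hil t u
    change cm (sfam hn hπ i j t) (sfam hn hπ j l u) = sfam hn hπ i l (t * u)
    by_cases hn4 : 4 ≤ n
    · obtain ⟨h, hhi, hhj, hhl⟩ := exists_aux3 hn4 i j l
      have e1 : sfam hn hπ i j t = cm (lft hπ (tv i h 1)) (lft hπ (tv h j t)) :=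
        (sfam_eq hn hπ hF hij hhi hhj t _ _ (pi_lft hπ _) (pi_lft hπ _)).symm
      rw [e1, Cfsg.Agent.Helper58.SMREL4.sm_rel4 hπ hF hij hil hjl hhi hhj hhl t u _ _ _ (pi_lft hπ _) (pi_lft hπ _)
        (pi_sfam hn hπ hjl u)]
      refine sfam_eq hn hπ hF hil hhi hhl (t * u) _ _ (pi_lft hπ _) ?_
      rw [pi_cm, pi_lft, pi_sfam hn hπ hjl, tv_cm hhj hjl hhl]
    · obtain rfl : n = 3 := by omega
      obtain ⟨c, hc0, hc⟩ := h3 rfl
      have haux : aux hn i l = j := by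
        obtain ⟨h1, h2⟩ := aux_ne hn i l
        have := i.isLt
        have := j.isLt
        have := l.isLt
        have := (aux hn i l).isLt
        simp only [ne_eq, Fin.ext_iff] at hij hjl hil h1 h2
        apply Fin.ext
        omega
      have e2 : sfam hn hπ i l (t * u) = cm (lft hπ (tv i j 1)) (lft hπ (tv j l (t * u))) := by
        unfold sfam
        rw [haux]
      rw [e2]
      obtain ⟨hadd1, hadd2⟩ := Cfsg.Agent.Helper58.SMR3A.sm_r3a hπ hF hij hil hjl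
      obtain ⟨g, hg1, hg2⟩ := Cfsg.Agent.Helper21.SMTor.sm_tr3 (F := F) hij hil hjl c hc0
      exact Cfsg.Agent.Helper58.SMR3B.sm_r3b hπ hF hij hil hjl hadd1 hadd2 (c ^ 3) hc g hg1 hg2 t 1 u _ _ _ _
        (by rw [pi_sfam hn hπ hij, mul_one]) (pi_sfam hn hπ hjl u) (pi_lft hπ _) (pi_lft hπ _)

/-- **Every central extension of `SL_n(F_q)` splits** (`n ≥ 3`, outside `(3,2)`, `(3,4)`, `(4,2)`). -/
theorem section_exists [Finite F] (hn : 3 ≤ n) (h3 : n = 3 → ∃ c : F, c ≠ 0 ∧ c ^ 3 ≠ 1)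
    (h4 : n = 4 → (∃ c : F, c ≠ 0 ∧ c ^ 2 ≠ 1) ∨ Nat.card F = 3)
    (π : E →* Matrix.SpecialLinearGroup (Fin n) F) (hπ : CE π) :
    ∃ s : Matrix.SpecialLinearGroup (Fin n) F →* E, ∀ g, π (s g) = g := by
  have hF := fp_all hn h3 h4 hπ
  have hs := sfam_stN hn h3 hπ hF
  obtain ⟨k, rfl⟩ : ∃ k, n = k + 3 := ⟨n - 3, by omega⟩
  obtain ⟨e, he⟩ := Cfsg.Agent.Helper21.SPMain.pres (K := F) k
  obtain ⟨f, hf⟩ := Cfsg.Agent.Helper58.SPPG.xP_lift (K := F) (k + 3) (sfam hn hπ) hs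
  refine ⟨f.comp e.symm.toMonoidHom, fun M => ?_⟩
  refine Cfsg.Agent.Helper5.SL_transvection_induction
    (fun M => π ((f.comp e.symm.toMonoidHom) M) = M) ?_ ?_ M
  · intro i j hij a
    have e1 : e.symm (tv i j a) = xP (k + 3) F i j a := by
      rw [← he i j hij a, MulEquiv.symm_apply_apply]
    have e2 : Matrix.SpecialLinearGroup.transvection hij a = tv i j a := by
      rw [tv, dif_pos hij]
    rw [e2]
    change π (f (e.symm (tv i j a))) = _
    rw [e1, hf i j hij a, pi_sfam hn hπ hij]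
  · intro A B hA hB
    rw [map_mul, map_mul, hA, hB]

universe u

/-- `SL_n(F_q)` has trivial Schur multiplier. -/
theorem sl_triv {K : Type u} [Field K] [Finite K] {n : ℕ} (hn : 3 ≤ n)
    (h3 : n = 3 → ∃ c : K, c ≠ 0 ∧ c ^ 3 ≠ 1)
    (h4 : n = 4 → (∃ c : K, c ≠ 0 ∧ c ^ 2 ≠ 1) ∨ Nat.card K = 3) :
    Cfsg.HasCyclicSchurMultiplier (Matrix.SpecialLinearGroup (Fin n) K) 1 :=
  Cfsg.Agent.Helper21.SMTRIV.sm_triv (fun _ _ σ hσ => section_exists hn h3 h4 σ hσ)

end Cfsg.Agent.Helper21.SMMain
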