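import Mathlib
import Cfsg.Prelude.Def_KGroupFacts
import Cfsg.Agent.S3958

set_option autoImplicit false

namespace Cfsg.Agent.Helper21.SMPSLM

universe u

/-- the centre of `SL_n(F)` has `gcd (n, q - 1)` elements -/
theorem card_center_SL' {F : Type*} [Field F] [Fintype F] (n : ℕ) (hn : 1 ≤ n) :
    Nat.card (Subgroup.center (Matrix.SpecialLinearGroup (Fin n) F)) =
      Nat.gcd n (Fintype.card F - 1) := by
  classical
  have e := Matrix.SpecialLinearGroup.center_equiv_rootsOfUnity (n := Fin n) (R := F)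
  rw [Nat.card_congr e.toEquiv, Fintype.card_fin, max_eq_left hn]
  have h1 : rootsOfUnity n F = (powMonoidHom n : Fˣ →* Fˣ).ker := by
    ext ζ
    rw [mem_rootsOfUnity, MonoidHom.mem_ker, powMonoidHom_apply]
  rw [h1, IsCyclic.card_powMonoidHom_ker, Nat.card_units, Nat.card_eq_fintype_card, Nat.gcd_comm]

/-- PIECE PSLM: from `SL_n` to `PSL_n` (Schur cover), with the centre of `SL_n(F_q)` cyclic of order
`gcd (n, q - 1)`. -/
theorem sm_pslm {K : Type u} [Field K] [Fintype K] (n : ℕ) (hn : 2 ≤ n)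
    (hperf : commutator (Matrix.SpecialLinearGroup (Fin n) K) = ⊤)
    (htriv : Cfsg.HasCyclicSchurMultiplier (Matrix.SpecialLinearGroup (Fin n) K) 1) :
    Cfsg.HasCyclicSchurMultiplier (Matrix.ProjectiveSpecialLinearGroup (Fin n) K)
      (Nat.gcd n (Fintype.card K - 1)) := by
  classical
  let σ : Matrix.SpecialLinearGroup (Fin n) K →* Matrix.ProjectiveSpecialLinearGroup (Fin n) K :=
    QuotientGroup.mk' (Subgroup.center (Matrix.SpecialLinearGroup (Fin n) K))
  have hker : σ.ker = Subgroup.center (Matrix.SpecialLinearGroup (Fin n) K) :=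
    QuotientGroup.ker_mk' _
  have hσ : Cfsg.IsStemExtension σ :=
    ⟨QuotientGroup.mk'_surjective _, hker.le, by rw [hperf]; exact le_top⟩
  have hcard : Nat.card σ.ker = Nat.gcd n (Fintype.card K - 1) := by
    rw [hker]
    exact card_center_SL' n (by omega)
  have hcyc : IsCyclic σ.ker := by
    rw [hker]
    have e := Matrix.SpecialLinearGroup.center_equiv_rootsOfUnity (n := Fin n) (R := K)
    exact isCyclic_of_surjective e.symm e.symm.surjective
  have e0 : Multiplicative (ZMod (Nat.card σ.ker)) ≃* σ.ker := zmodCyclicMulEquiv hcyc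
  rw [hcard] at e0
  haveI : Finite (Matrix.ProjectiveSpecialLinearGroup (Fin n) K) := by
    unfold Matrix.ProjectiveSpecialLinearGroup
    infer_instance
  refine ⟨⟨Matrix.SpecialLinearGroup (Fin n) K, inferInstance, inferInstance, σ, hσ, ⟨e0.symm⟩⟩, ?_⟩
  intro Δ _ _ τ hτ
  obtain ⟨π, hπ⟩ := Cfsg.Agent.S3958.result σ hσ htriv Δ τ hτ
  exact ⟨π.comp e0.toMonoidHom, hπ.comp e0.surjective⟩

end Cfsg.Agent.Helper21.SMPSLM
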