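import Mathlib
import Cfsg.Prelude.Def_ClassicalGeometry
import Cfsg.Agent.Helper21.UStabC

/-!
# Witt's lemma for totally isotropic frames and orbit counting (helper21)
-/

set_option autoImplicit false
set_option linter.unusedSimpArgs false
set_option linter.unusedSectionVars false
set_option linter.unusedVariables false

namespace Cfsg.Agent.Helper21.UStab

open Cfsg.Agent.Helper5 (frobQ frobQ_apply frobQ_frobQ guOrder guOrder_succ)
open Cfsg.Agent.Helper13
open Matrix

section fld
variable {F : Type*} [Field F] [Fintype F] {q n : ℕ}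

/-- Witt's lemma for independent totally isotropic frames. -/
theorem witt_frames (hF : Fintype.card F = q ^ 2) {k : ℕ} (s s' : Fin k → Fin n → F)
    (hs : IsTIF q s) (hs' : IsTIF q s') :
    ∃ g : Matrix.GeneralLinearGroup (Fin n) F, g ∈ Cfsg.GU n F q ∧
      ∀ a, (g : Matrix (Fin n) (Fin n) F) *ᵥ s a = s' a := by
  classical
  obtain ⟨f, hf⟩ : ∃ f : (Fin n → F) →ₗ[F] (Fin n → F), ∀ a, f (s a) = s' a := by
    obtain ⟨f, hf⟩ := LinearMap.exists_extend
      ((Module.Basis.span hs.1).constr F s' : _ →ₗ[F] (Fin n → F))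
    refine ⟨f, fun a => ?_⟩
    have h1 := congrArg (fun g => g (Module.Basis.span hs.1 a)) hf
    simp only [LinearMap.coe_comp, Function.comp_apply, Module.Basis.constr_basis] at h1
    rw [Module.Basis.span_apply] at h1
    exact h1
  have hfsum : ∀ c : Fin k → F, f (∑ i, c i • s i) = ∑ i, c i • s' i := by
    intro c
    rw [map_sum]
    exact Finset.sum_congr rfl (fun i _ => by rw [map_smul, hf])
  have hfX : ∀ x ∈ Submodule.span F (Set.range s), f x ∈ Submodule.span F (Set.range s') := by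
    intro x hx
    rw [Submodule.mem_span_range_iff_exists_fun] at hx
    obtain ⟨c, rfl⟩ := hx
    rw [hfsum, Submodule.mem_span_range_iff_exists_fun]
    exact ⟨c, rfl⟩
  obtain ⟨g, hg, hgX⟩ := witt_herm (Cfsg.Agent.Helper5.hermB hF n)
    (Cfsg.Agent.Helper5.frobQ_ne_id hF) (frobQ_frobQ hF) (Cfsg.Agent.Helper5.hermB_isSymm hF)
    (Cfsg.Agent.Helper5.hermB_nondegenerate hF) (Submodule.span F (Set.range s)) f
    (by
      intro x hx x' hx'
      rw [Cfsg.Agent.Helper5.hermB_apply, Cfsg.Agent.Helper5.hermB_apply,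
        ti_span hF s hs.2 x' hx' x hx, ti_span hF s' hs'.2 _ (hfX x' hx') _ (hfX x hx)])
    (by
      intro x hx hx0
      rw [Submodule.mem_span_range_iff_exists_fun] at hx
      obtain ⟨c, rfl⟩ := hx
      rw [hfsum] at hx0
      have hc := (Fintype.linearIndependent_iff.1 hs'.1) c hx0
      exact Finset.sum_eq_zero (fun i _ => by rw [hc i, zero_smul]))
  obtain ⟨G, hG⟩ := Cfsg.Agent.Helper5.exists_GL_of_linearEquiv g
  refine ⟨G, ?_, fun a => ?_⟩
  · rw [Cfsg.Agent.Helper5.mem_GU_iff]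
    intro u v
    rw [hG, hG]
    exact hg v u
  · rw [hG, hgX _ (Submodule.subset_span ⟨a, rfl⟩), hf]

omit [Fintype F] in
theorem gl_mulVec_injective (g : Matrix.GeneralLinearGroup (Fin n) F) (x y : Fin n → F)
    (h : (g : Matrix (Fin n) (Fin n) F) *ᵥ x = (g : Matrix (Fin n) (Fin n) F) *ᵥ y) : x = y := by
  have h1 := congrArg (fun z => ((g⁻¹ : Matrix.GeneralLinearGroup (Fin n) F) :
    Matrix (Fin n) (Fin n) F) *ᵥ z) h
  simp only [Matrix.mulVec_mulVec] at h1
  have h2 : ((g⁻¹ : Matrix.GeneralLinearGroup (Fin n) F) : Matrix (Fin n) (Fin n) F) *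
      (g : Matrix (Fin n) (Fin n) F) = 1 := by
    rw [← Units.val_mul, inv_mul_cancel, Units.val_one]
  rwa [h2, Matrix.one_mulVec, Matrix.one_mulVec] at h1

/-- An invertible matrix mapping a (finite) subspace into itself stabilises it. -/
theorem mem_stab_of_maps (W : Submodule F (Fin n → F)) (g : Matrix.GeneralLinearGroup (Fin n) F)
    (h : ∀ v ∈ W, (g : Matrix (Fin n) (Fin n) F) *ᵥ v ∈ W) :
    g ∈ Cfsg.stabilizing (Units.coeHom (Matrix (Fin n) (Fin n) F)) (W : Set (Fin n → F)) := by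
  intro v
  refine ⟨fun hv => h v hv, fun hv => ?_⟩
  have hinj : Function.Injective (fun w : W => (⟨(g : Matrix (Fin n) (Fin n) F) *ᵥ w.1,
      h w.1 w.2⟩ : W)) := by
    intro w w' hww
    exact Subtype.ext (gl_mulVec_injective g _ _ (congrArg Subtype.val hww))
  obtain ⟨w, hw⟩ := (Finite.injective_iff_surjective.1 hinj)
    ⟨(g : Matrix (Fin n) (Fin n) F) *ᵥ v, hv⟩
  have := gl_mulVec_injective g _ _ (congrArg Subtype.val hw)
  rw [← this]
  exact w.2

/-- A type synonym for frames, carrying the action of subgroups of `GL`. -/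
def FrameT (F : Type*) (k n : ℕ) : Type _ := Fin k → Fin n → F

instance frameAction {k : ℕ} (H : Subgroup (Matrix.GeneralLinearGroup (Fin n) F)) :
    MulAction H (FrameT F k n) where
  smul g s := fun a => ((g : Matrix.GeneralLinearGroup (Fin n) F) :
    Matrix (Fin n) (Fin n) F) *ᵥ (s a : Fin n → F)
  one_smul s := by
    funext a
    show ((1 : Matrix.GeneralLinearGroup (Fin n) F) : Matrix (Fin n) (Fin n) F) *ᵥ s a = s a
    rw [Units.val_one, Matrix.one_mulVec]
  mul_smul g h s := by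
    funext a
    show (((g * h : H) : Matrix.GeneralLinearGroup (Fin n) F) : Matrix (Fin n) (Fin n) F) *ᵥ s a
      = ((g : Matrix.GeneralLinearGroup (Fin n) F) : Matrix (Fin n) (Fin n) F) *ᵥ
        (((h : Matrix.GeneralLinearGroup (Fin n) F) : Matrix (Fin n) (Fin n) F) *ᵥ s a)
    rw [Matrix.mulVec_mulVec, Subgroup.coe_mul, Units.val_mul]

theorem frame_smul_apply {k : ℕ} (H : Subgroup (Matrix.GeneralLinearGroup (Fin n) F))
    (g : H) (s : FrameT F k n) (a : Fin k) :
    (g • s) a = ((g : Matrix.GeneralLinearGroup (Fin n) F) :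
      Matrix (Fin n) (Fin n) F) *ᵥ (s a : Fin n → F) := rfl

/-- Orbit-stabiliser for the action of a subgroup of `GL` on frames. -/
theorem orbit_count {k : ℕ} (H : Subgroup (Matrix.GeneralLinearGroup (Fin n) F))
    (v0 : Fin k → Fin n → F) :
    Nat.card H = Nat.card {s : Fin k → Fin n → F // ∃ g ∈ H, ∀ a,
        (g : Matrix (Fin n) (Fin n) F) *ᵥ v0 a = s a} *
      Nat.card {g : Matrix.GeneralLinearGroup (Fin n) F // g ∈ H ∧ ∀ a,
        (g : Matrix (Fin n) (Fin n) F) *ᵥ v0 a = v0 a} := by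
  classical
  let x0 : FrameT F k n := v0
  have h1 := Subgroup.card_eq_card_quotient_mul_card_subgroup (MulAction.stabilizer H x0)
  have h2 : Nat.card (H ⧸ MulAction.stabilizer H x0) = Nat.card {s : Fin k → Fin n → F //
      ∃ g ∈ H, ∀ a, (g : Matrix (Fin n) (Fin n) F) *ᵥ v0 a = s a} := by
    rw [← Nat.card_congr (MulAction.orbitEquivQuotientStabilizer H x0)]
    refine Nat.card_congr (Equiv.subtypeEquivRight (fun s => ?_))
    rw [MulAction.mem_orbit_iff]
    constructor
    · rintro ⟨g, rfl⟩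
      exact ⟨g.1, g.2, fun a => rfl⟩
    · rintro ⟨g, hg, h⟩
      exact ⟨⟨g, hg⟩, funext h⟩
  have h3 : Nat.card (MulAction.stabilizer H x0) = Nat.card {g : Matrix.GeneralLinearGroup
      (Fin n) F // g ∈ H ∧ ∀ a, (g : Matrix (Fin n) (Fin n) F) *ᵥ v0 a = v0 a} := by
    refine Nat.card_congr ⟨fun x => ⟨x.1.1, x.1.2, fun a => congrFun x.2 a⟩,
      fun y => ⟨⟨y.1, y.2.1⟩, funext y.2.2⟩, fun x => rfl, fun y => rfl⟩
  rw [h1, h2, h3]

end fld

end Cfsg.Agent.Helper21.UStab
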