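import Mathlib
import Cfsg.Prelude.Def_ClassicalGeometry
import Cfsg.Agent.Helper21.UStabD

/-!
# The stabiliser of a totally isotropic subspace in `GU_n(q)` (helper21)
-/

set_option autoImplicit false
set_option linter.unusedSimpArgs false
set_option linter.unusedSectionVars false
set_option linter.unusedVariables false

namespace Cfsg.Agent.Helper21.UStab

open Cfsg.Agent.Helper5 (frobQ frobQ_apply frobQ_frobQ guOrder guOrder_succ)
open Cfsg.Agent.Helper13
open Matrix

section fld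
variable {F : Type*} [Field F] [Fintype F] {q n : ℕ}

omit [Fintype F] in
theorem mulVec_comb {k : ℕ} (g : Matrix (Fin n) (Fin n) F) (c : Fin k → F)
    (v0 : Fin k → Fin n → F) :
    g *ᵥ (∑ i, c i • v0 i) = ∑ i, c i • (g *ᵥ v0 i) := by
  have h := map_sum (Matrix.mulVecLin g) (fun i => c i • v0 i) Finset.univ
  simp only [Matrix.mulVecLin_apply, Matrix.mulVec_smul] at h
  exact h

theorem gu_frame_isTIF {k : ℕ} (g : Matrix.GeneralLinearGroup (Fin n) F)
    (hg : g ∈ Cfsg.GU n F q) (v0 : Fin k → Fin n → F) (hv : IsTIF q v0) :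
    IsTIF q (fun a => (g : Matrix (Fin n) (Fin n) F) *ᵥ v0 a) := by
  refine ⟨?_, fun a b => ?_⟩
  · exact hv.1.map' (Matrix.mulVecLin (g : Matrix (Fin n) (Fin n) F))
      (LinearMap.ker_eq_bot.2 (fun x y h => gl_mulVec_injective g x y h))
  · rw [(Cfsg.Agent.Helper5.mem_GU_iff g).1 hg]
    exact hv.2 a b

theorem card_GU_orbit (hF : Fintype.card F = q ^ 2) {k : ℕ} (v0 : Fin k → Fin n → F)
    (hv : IsTIF q v0) :
    Nat.card {s : Fin k → Fin n → F // ∃ g ∈ Cfsg.GU n F q, ∀ a,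
        (g : Matrix (Fin n) (Fin n) F) *ᵥ v0 a = s a} =
      Nat.card {s : Fin k → Fin n → F // IsTIF q s} := by
  refine Nat.card_congr (Equiv.subtypeEquivRight (fun s => ⟨?_, fun hs => witt_frames hF v0 s hv hs⟩))
  rintro ⟨g, hg, h⟩
  have := gu_frame_isTIF g hg v0 hv
  rwa [show (fun a => (g : Matrix (Fin n) (Fin n) F) *ᵥ v0 a) = s from funext h] at this

theorem card_stab_orbit (hF : Fintype.card F = q ^ 2) {k : ℕ} (W : Submodule F (Fin n → F))
    (hW : ∀ u ∈ W, ∀ v ∈ W, Cfsg.hermForm n F q u v = 0)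
    (v0 : Fin k → Fin n → F) (hli : LinearIndependent F v0)
    (hspan : Submodule.span F (Set.range v0) = W) :
    Nat.card {s : Fin k → Fin n → F // ∃ g ∈ (Cfsg.GU n F q ⊓
        Cfsg.stabilizing (Units.coeHom (Matrix (Fin n) (Fin n) F)) (W : Set (Fin n → F))), ∀ a,
        (g : Matrix (Fin n) (Fin n) F) *ᵥ v0 a = s a} =
      Nat.card {s : Fin k → W // LinearIndependent F s} := by
  have hv0W : ∀ a, v0 a ∈ W := fun a => hspan ▸ Submodule.subset_span ⟨a, rfl⟩
  have hTIF : IsTIF q v0 := ⟨hli, fun a b => hW _ (hv0W a) _ (hv0W b)⟩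
  have e1 : {s : Fin k → Fin n → F // ∃ g ∈ (Cfsg.GU n F q ⊓
        Cfsg.stabilizing (Units.coeHom (Matrix (Fin n) (Fin n) F)) (W : Set (Fin n → F))), ∀ a,
        (g : Matrix (Fin n) (Fin n) F) *ᵥ v0 a = s a} ≃
      {s : Fin k → Fin n → F // LinearIndependent F s ∧ ∀ a, s a ∈ W} := by
    refine Equiv.subtypeEquivRight (fun s => ⟨?_, ?_⟩)
    · rintro ⟨g, ⟨hgU, hgS⟩, h⟩
      have h1 := (gu_frame_isTIF g hgU v0 hTIF).1
      rw [show (fun a => (g : Matrix (Fin n) (Fin n) F) *ᵥ v0 a) = s from funext h] at h1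
      refine ⟨h1, fun a => ?_⟩
      rw [← h a]
      exact (hgS (v0 a)).1 (hv0W a)
    · rintro ⟨hsli, hsW⟩
      obtain ⟨g, hgU, hg⟩ := witt_frames hF v0 s hTIF ⟨hsli, fun a b => hW _ (hsW a) _ (hsW b)⟩
      refine ⟨g, ⟨hgU, mem_stab_of_maps W g (fun v hv => ?_)⟩, hg⟩
      rw [← hspan, Submodule.mem_span_range_iff_exists_fun] at hv
      obtain ⟨c, rfl⟩ := hv
      rw [mulVec_comb]
      exact W.sum_mem (fun i _ => W.smul_mem _ (by rw [hg i]; exact hsW i))
  have e2 : {s : Fin k → Fin n → F // LinearIndependent F s ∧ ∀ a, s a ∈ W} ≃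
      {s : Fin k → W // LinearIndependent F s} :=
    { toFun := fun s => ⟨fun a => ⟨s.1 a, s.2.2 a⟩, LinearIndependent.of_comp W.subtype
        (show LinearIndependent F (W.subtype ∘ fun a => (⟨s.1 a, s.2.2 a⟩ : W)) from s.2.1)⟩
      invFun := fun t => ⟨fun a => (t.1 a : Fin n → F),
        t.2.map' W.subtype (Submodule.ker_subtype W), fun a => (t.1 a).2⟩
      left_inv := fun s => rfl
      right_inv := fun t => rfl }
  exact Nat.card_congr (e1.trans e2)

theorem card_fixers {k : ℕ} (W : Submodule F (Fin n → F))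
    (v0 : Fin k → Fin n → F) (hspan : Submodule.span F (Set.range v0) = W) :
    Nat.card {g : Matrix.GeneralLinearGroup (Fin n) F // g ∈ (Cfsg.GU n F q ⊓
        Cfsg.stabilizing (Units.coeHom (Matrix (Fin n) (Fin n) F)) (W : Set (Fin n → F))) ∧
        ∀ a, (g : Matrix (Fin n) (Fin n) F) *ᵥ v0 a = v0 a} =
      Nat.card {g : Matrix.GeneralLinearGroup (Fin n) F // g ∈ Cfsg.GU n F q ∧
        ∀ a, (g : Matrix (Fin n) (Fin n) F) *ᵥ v0 a = v0 a} := by
  refine Nat.card_congr (Equiv.subtypeEquivRight (fun g => ⟨fun h => ⟨h.1.1, h.2⟩, fun h =>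
    ⟨⟨h.1, mem_stab_of_maps W g (fun v hv => ?_)⟩, h.2⟩⟩))
  have hv' := hv
  rw [← hspan, Submodule.mem_span_range_iff_exists_fun] at hv'
  obtain ⟨c, rfl⟩ := hv'
  rw [mulVec_comb]
  simp only [h.2]
  exact hv

/-- The order of the stabiliser in `GU_n(q)` of a totally isotropic `k`-subspace. -/
theorem card_stab_GU (hF : Fintype.card F = q ^ 2) {k : ℕ} (hk : 2 * k ≤ n)
    (W : Submodule F (Fin n → F)) (hWk : Module.finrank F W = k)
    (hW : ∀ u ∈ W, ∀ v ∈ W, Cfsg.hermForm n F q u v = 0) :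
    Nat.card ↥(Cfsg.GU n F q ⊓
        Cfsg.stabilizing (Units.coeHom (Matrix (Fin n) (Fin n) F)) (W : Set (Fin n → F))) =
      q ^ (k * (2 * n - 3 * k)) * (∏ i : Fin k, ((q ^ 2) ^ k - (q ^ 2) ^ (i : ℕ))) *
        guOrder q (n - 2 * k) := by
  classical
  let b := Module.finBasisOfFinrankEq F W hWk
  set v0 : Fin k → Fin n → F := fun a => (b a : Fin n → F) with hv0
  have hli : LinearIndependent F v0 :=
    b.linearIndependent.map' W.subtype (Submodule.ker_subtype W)
  have hspan : Submodule.span F (Set.range v0) = W := by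
    have : Set.range v0 = W.subtype '' (Set.range b) := by
      rw [← Set.range_comp]; rfl
    rw [this, ← Submodule.map_span, b.span_eq, Submodule.map_subtype_top]
  have hv0W : ∀ a, v0 a ∈ W := fun a => (b a).2
  have hTIF : IsTIF q v0 := ⟨hli, fun a b => hW _ (hv0W a) _ (hv0W b)⟩
  have hA := orbit_count (Cfsg.GU n F q) v0
  rw [card_GU_orbit hF v0 hTIF] at hA
  have hB := orbit_count (Cfsg.GU n F q ⊓
    Cfsg.stabilizing (Units.coeHom (Matrix (Fin n) (Fin n) F)) (W : Set (Fin n → F))) v0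
  rw [card_stab_orbit hF W hW v0 hli hspan, card_fixers W v0 hspan] at hB
  have hfr := card_linearIndependent (K := F) (V := W) (k := k) (by rw [hWk])
  rw [hWk, hF] at hfr
  have hT := card_TIF (n := n) hF k hk
  have hGU : Nat.card (Cfsg.GU n F q) = guOrder q n := Cfsg.Agent.Helper5.card_GU hF n
  have hTpos : 0 < Nat.card {s : Fin k → Fin n → F // IsTIF q s} := by
    haveI : Nonempty {s : Fin k → Fin n → F // IsTIF q s} := ⟨⟨v0, hTIF⟩⟩
    exact Nat.card_pos
  have hc : Nat.card {g : Matrix.GeneralLinearGroup (Fin n) F // g ∈ Cfsg.GU n F q ∧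
        ∀ a, (g : Matrix (Fin n) (Fin n) F) *ᵥ v0 a = v0 a} =
      q ^ (k * (2 * n - 3 * k)) * guOrder q (n - 2 * k) := by
    apply Nat.eq_of_mul_eq_mul_left hTpos
    rw [← hA, hGU, ← hT]
    ring
  rw [hB, hfr, hc]
  ring

end fld

end Cfsg.Agent.Helper21.UStab
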