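import Mathlib
import Cfsg.Prelude.Def_ClassicalGeometry
import Cfsg.Agent.Helper21.UStabE

/-!
# Determinants on the stabiliser of a totally isotropic subspace (helper21)
-/

set_option autoImplicit false
set_option linter.unusedSimpArgs false
set_option linter.unusedSectionVars false
set_option linter.unusedVariables false

namespace Cfsg.Agent.Helper21.UStab

open Cfsg.Agent.Helper5 (frobQ frobQ_apply frobQ_frobQ guOrder guOrder_succ)
open Cfsg.Agent.Helper13
open Matrix

section fld
variable {F : Type*} [Field F] [Fintype F] {q n : ℕ}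

theorem rank1_mulVec (hF : Fintype.card F = q ^ 2) (u v x : Fin n → F) :
    (1 + Matrix.replicateCol (Fin 1) u *
      Matrix.replicateRow (Fin 1) (fun i => frobQ hF (v i))) *ᵥ x =
      x + (Cfsg.hermForm n F q x v) • u := by
  rw [Matrix.add_mulVec, Matrix.one_mulVec]
  congr 1
  ext i
  simp only [Matrix.mulVec, dotProduct, Matrix.mul_apply, Matrix.replicateCol_apply,
    Matrix.replicateRow_apply, Finset.univ_unique, Finset.sum_singleton, Pi.smul_apply,
    smul_eq_mul, Cfsg.hermForm, frobQ_apply, Finset.sum_mul]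
  exact Finset.sum_congr rfl (fun j _ => by ring)

theorem rank1_det (hF : Fintype.card F = q ^ 2) (u v : Fin n → F) :
    (1 + Matrix.replicateCol (Fin 1) u *
      Matrix.replicateRow (Fin 1) (fun i => frobQ hF (v i))).det =
      1 + Cfsg.hermForm n F q u v := by
  refine (Matrix.det_one_add_replicateCol_mul_replicateRow u _).trans ?_
  congr 1
  simp only [dotProduct, Cfsg.hermForm, frobQ_apply]
  exact Finset.sum_congr rfl (fun j _ => by ring)

theorem herm_expand (hF : Fintype.card F = q ^ 2) (x y e f : Fin n → F) (a b a' b' : F) :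
    Cfsg.hermForm n F q (x + a • e + b • f) (y + a' • e + b' • f) =
      Cfsg.hermForm n F q x y + frobQ hF a' * Cfsg.hermForm n F q x e +
        frobQ hF b' * Cfsg.hermForm n F q x f + a * Cfsg.hermForm n F q e y +
        a * frobQ hF a' * Cfsg.hermForm n F q e e + a * frobQ hF b' * Cfsg.hermForm n F q e f +
        b * Cfsg.hermForm n F q f y + b * frobQ hF a' * Cfsg.hermForm n F q f e +
        b * frobQ hF b' * Cfsg.hermForm n F q f f := by
  simp only [uh_add_left, uh_add_right hF, uh_smul_left, uh_smul_right hF]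
  ring

theorem exists_hyp (hF : Fintype.card F = q ^ 2) (e : Fin n → F) (he0 : e ≠ 0)
    (hee : Cfsg.hermForm n F q e e = 0) :
    ∃ f : Fin n → F, Cfsg.hermForm n F q f e = 1 ∧ Cfsg.hermForm n F q f f = 0 := by
  obtain ⟨f0, hf0⟩ : ∃ f0 : Fin n → F, Cfsg.hermForm n F q f0 e ≠ 0 := by
    by_contra hcon
    push Not at hcon
    exact he0 ((Cfsg.Agent.Helper5.hermB_nondegenerate hF).1 e (fun y => by
      rw [Cfsg.Agent.Helper5.hermB_apply]; exact hcon y))
  obtain ⟨θ, hθ⟩ := ufld_exists_trace_one hF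
  set f1 : Fin n → F := (Cfsg.hermForm n F q f0 e)⁻¹ • f0 with hf1
  have h1e : Cfsg.hermForm n F q f1 e = 1 := by
    rw [hf1, uh_smul_left, inv_mul_cancel₀ hf0]
  set N := Cfsg.hermForm n F q f1 f1 with hN
  have hNfix : frobQ hF N = N := uh_conj hF f1 f1
  refine ⟨f1 + (-θ * N) • e, ?_, ?_⟩
  · rw [uh_add_left, h1e, uh_smul_left, hee, mul_zero, add_zero]
  · rw [line_expand hF e f1 hee, h1e, map_one, mul_one, map_mul, map_neg, hNfix, ← hN]
    linear_combination (-N) * hθ

theorem hilbert90 (hF : Fintype.card F = q ^ 2) (l : F) (hl : l * frobQ hF l = 1) :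
    ∃ c : F, c ≠ 0 ∧ c = l * frobQ hF c := by
  by_cases h : l = -1
  · obtain ⟨c, hc0, hc⟩ := ufld_exists_skew hF
    exact ⟨c, hc0, by rw [hc, h]; ring⟩
  · refine ⟨1 + l, fun h0 => h (by linear_combination h0), ?_⟩
    rw [map_add, map_one]
    linear_combination -hl

/-- Elements of the stabiliser of a totally isotropic subspace with prescribed determinant
of norm one. -/
theorem exists_stab_det (hF : Fintype.card F = q ^ 2) (hn : 1 ≤ n)
    (W : Submodule F (Fin n → F))
    (hW : ∀ u ∈ W, ∀ v ∈ W, Cfsg.hermForm n F q u v = 0) (l : Fˣ) (hl : l ^ (q + 1) = 1) :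
    ∃ g : Matrix.GeneralLinearGroup (Fin n) F, g ∈ Cfsg.GU n F q ∧
      g ∈ Cfsg.stabilizing (Units.coeHom (Matrix (Fin n) (Fin n) F)) (W : Set (Fin n → F)) ∧
      Matrix.GeneralLinearGroup.det g = l := by
  classical
  by_cases hWb : W = ⊥
  · have hmem : l ∈ (Cfsg.Agent.Helper5.detGU F q n).range := by
      rw [Cfsg.Agent.Helper5.range_detGU hF hn, MonoidHom.mem_ker, powMonoidHom_apply]
      exact hl
    obtain ⟨g, hg⟩ := hmem
    refine ⟨g.1, g.2, mem_stab_of_maps W g.1 (fun v hv => ?_), hg⟩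
    rw [hWb, Submodule.mem_bot] at hv ⊢
    rw [hv, Matrix.mulVec_zero]
  · obtain ⟨e, he, he0⟩ := Submodule.exists_mem_ne_zero_of_ne_bot hWb
    have hee := hW e he e he
    obtain ⟨f, hfe, hff⟩ := exists_hyp hF e he0 hee
    have hef : Cfsg.hermForm n F q e f = 1 := by
      rw [← uh_conj hF f e, hfe, map_one]
    have hl' : (l : F) * frobQ hF (l : F) = 1 := by
      rw [frobQ_apply, ← pow_succ', ← Units.val_pow_eq_pow_val, hl, Units.val_one]
    obtain ⟨c, hc0, hc⟩ := hilbert90 hF (l : F) hl'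
    have hφc : frobQ hF c ≠ 0 := fun h => hc0 ((map_eq_zero _).1 h)
    set c' : F := (frobQ hF c)⁻¹ with hc'
    have hc1 : c' * frobQ hF c = 1 := inv_mul_cancel₀ hφc
    have hφc' : frobQ hF c' = c⁻¹ := by rw [hc', map_inv₀, frobQ_frobQ]
    have hc2 : c * frobQ hF c' = 1 := by rw [hφc', mul_inv_cancel₀ hc0]
    have hcc : c * c' = (l : F) := by
      rw [hc']
      nth_rewrite 1 [hc]
      rw [mul_assoc, mul_inv_cancel₀ hφc, mul_one]
    obtain ⟨M1, hM1⟩ : ∃ M1 : Matrix (Fin n) (Fin n) F, M1 = 1 +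
      Matrix.replicateCol (Fin 1) ((c - 1) • e) *
        Matrix.replicateRow (Fin 1) (fun i => frobQ hF (f i)) := ⟨_, rfl⟩
    obtain ⟨M2, hM2⟩ : ∃ M2 : Matrix (Fin n) (Fin n) F, M2 = 1 +
      Matrix.replicateCol (Fin 1) ((c' - 1) • f) *
        Matrix.replicateRow (Fin 1) (fun i => frobQ hF (e i)) := ⟨_, rfl⟩
    have k1 : ∀ x : Fin n → F, M1 *ᵥ x = x + (Cfsg.hermForm n F q x f) • ((c - 1) • e) := by
      intro x; rw [hM1, rank1_mulVec hF]
    have k2 : ∀ x : Fin n → F, M2 *ᵥ x = x + (Cfsg.hermForm n F q x e) • ((c' - 1) • f) := by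
      intro x; rw [hM2, rank1_mulVec hF]
    have d1 : M1.det = c := by
      rw [hM1, rank1_det hF, uh_smul_left, hef]; ring
    have d2 : M2.det = c' := by
      rw [hM2, rank1_det hF, uh_smul_left, hfe]; ring
    have hMx : ∀ x : Fin n → F, (M1 * M2) *ᵥ x =
        x + ((c - 1) * Cfsg.hermForm n F q x f) • e +
          ((c' - 1) * Cfsg.hermForm n F q x e) • f := by
      intro x
      rw [← Matrix.mulVec_mulVec, k2, k1, uh_add_left,
        uh_smul_left, uh_smul_left, hff, mul_zero, mul_zero, add_zero, smul_smul, smul_smul,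
        mul_comm (Cfsg.hermForm n F q x e), mul_comm (Cfsg.hermForm n F q x f)]
      abel
    have hdet : (M1 * M2).det = (l : F) := by
      rw [Matrix.det_mul, d1, d2, hcc]
    have hunit : IsUnit (M1 * M2).det := by
      rw [hdet]; exact isUnit_iff_ne_zero.2 l.ne_zero
    refine ⟨Matrix.GeneralLinearGroup.mk'' (M1 * M2) hunit, ?_, ?_, ?_⟩
    · rw [Cfsg.Agent.Helper5.mem_GU_iff]
      intro u v
      show Cfsg.hermForm n F q ((M1 * M2) *ᵥ u) ((M1 * M2) *ᵥ v) = Cfsg.hermForm n F q u v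
      rw [hMx, hMx, herm_expand hF, hee, hff, hfe, hef, ← uh_conj hF v e, ← uh_conj hF v f]
      simp only [map_mul, map_sub, map_one]
      linear_combination (Cfsg.hermForm n F q u e * frobQ hF (Cfsg.hermForm n F q v f)) * hc1 +
        (Cfsg.hermForm n F q u f * frobQ hF (Cfsg.hermForm n F q v e)) * hc2
    · refine mem_stab_of_maps W _ (fun w hw => ?_)
      show (M1 * M2) *ᵥ w ∈ W
      rw [hMx, hW w hw e he, mul_zero, zero_smul, add_zero]
      exact W.add_mem hw (W.smul_mem _ he)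
    · apply Units.ext
      rw [Matrix.GeneralLinearGroup.val_det_apply]
      exact hdet

/-- `(q + 1) |Stab_SU(W)| = |Stab_GU(W)|` for a totally isotropic subspace `W`. -/
theorem card_stab_SU (hF : Fintype.card F = q ^ 2) (hn : 1 ≤ n)
    (W : Submodule F (Fin n → F))
    (hW : ∀ u ∈ W, ∀ v ∈ W, Cfsg.hermForm n F q u v = 0) :
    (q + 1) * Nat.card ↥((Cfsg.stabilizing (Cfsg.slToMat n F)
        (W : Set (Fin n → F))).subgroupOf (Cfsg.SU n F q)) =
      Nat.card ↥(Cfsg.GU n F q ⊓
        Cfsg.stabilizing (Units.coeHom (Matrix (Fin n) (Fin n) F)) (W : Set (Fin n → F))) := by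
  classical
  set H2 : Subgroup (Matrix.GeneralLinearGroup (Fin n) F) := Cfsg.GU n F q ⊓
    Cfsg.stabilizing (Units.coeHom (Matrix (Fin n) (Fin n) F)) (W : Set (Fin n → F)) with hH2
  let D : ↥H2 →* Fˣ := Matrix.GeneralLinearGroup.det.comp H2.subtype
  have hrange : D.range = (powMonoidHom (q + 1) : Fˣ →* Fˣ).ker := by
    ext l
    rw [MonoidHom.mem_range, MonoidHom.mem_ker, powMonoidHom_apply]
    constructor
    · rintro ⟨g, rfl⟩
      apply Units.ext
      rw [Units.val_pow_eq_pow_val, Units.val_one]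
      exact Cfsg.Agent.Helper5.det_pow_of_mem_GU hF g.1 g.2.1
    · intro hl
      obtain ⟨g, hgU, hgS, hdet⟩ := exists_stab_det hF hn W hW l hl
      exact ⟨⟨g, hgU, hgS⟩, hdet⟩
  have hker : Nat.card D.ker = Nat.card ↥((Cfsg.stabilizing (Cfsg.slToMat n F)
        (W : Set (Fin n → F))).subgroupOf (Cfsg.SU n F q)) := by
    refine Nat.card_congr
      { toFun := fun x => ⟨⟨⟨((x.1.1 : Matrix.GeneralLinearGroup (Fin n) F) :
            Matrix (Fin n) (Fin n) F), ?_⟩, ?_⟩, ?_⟩
        invFun := fun y => ⟨⟨Matrix.SpecialLinearGroup.toGL y.1.1, ⟨?_, ?_⟩⟩, ?_⟩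
        left_inv := ?_
        right_inv := ?_ }
    · have h := congrArg Units.val (MonoidHom.mem_ker.1 x.2)
      exact h
    · exact x.1.2.1
    · exact x.1.2.2
    · exact y.1.2
    · exact y.2
    · rw [MonoidHom.mem_ker]
      apply Units.ext
      exact y.1.1.2
    · intro x
      exact Subtype.ext (Subtype.ext (Units.ext rfl))
    · intro y
      exact Subtype.ext (Subtype.ext (Subtype.ext rfl))
  have h1 := Subgroup.card_mul_index D.ker
  rw [Subgroup.index_ker, hrange, Cfsg.Agent.Helper5.card_norm_one hF, hker] at h1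
  rw [← h1]
  ring

end fld

end Cfsg.Agent.Helper21.UStab
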